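import Mathlib
import Cfsg.Agent.Helper4.OCenter

set_option autoImplicit false
open Cfsg

namespace Cfsg.Agent.Helper4.OSiegel

open Matrix Cfsg.Agent.Helper4.OrthPlane Cfsg.Agent.Helper4.CartanD Cfsg.Agent.Helper4.Dickson
  Cfsg.Agent.Helper4.Spinor Cfsg.Agent.Helper4.OCenter

variable {ι : Type} [Fintype ι] [DecidableEq ι] {F : Type*} [Field F]

section quad

variable (Q : (ι → F) → F)

/-- The Siegel (Eichler) transformation `x ↦ x + B(v,x) u - Q(v) B(u,x) u - B(u,x) v`. -/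
noncomputable def Ev (hQ : Cfsg.Geo.IsNondegenerateQuadraticForm Q) (u v : ι → F) :
    Matrix ι ι F :=
  1 + Matrix.vecMulVec u (dualVec (Bf Q hQ v)) - Q v • Matrix.vecMulVec u (dualVec (Bf Q hQ u))
    - Matrix.vecMulVec v (dualVec (Bf Q hQ u))

theorem Ev_mulVec (hQ : Cfsg.Geo.IsNondegenerateQuadraticForm Q) (u v x : ι → F) :
    Ev Q hQ u v *ᵥ x
      = x + Bf Q hQ v x • u - (Q v * Bf Q hQ u x) • u - Bf Q hQ u x • v := by
  unfold Ev
  simp only [Matrix.sub_mulVec, Matrix.add_mulVec, Matrix.one_mulVec, Matrix.smul_mulVec,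
    Matrix.vecMulVec_mulVec, dualVec_dot]
  ext i
  simp only [Pi.add_apply, Pi.sub_apply, Pi.smul_apply, smul_eq_mul,
    MulOpposite.smul_eq_mul_unop, MulOpposite.unop_op]
  ring

theorem Ev_iso (hQ : Cfsg.Geo.IsNondegenerateQuadraticForm Q) (u v : ι → F) (hu : Q u = 0)
    (huv : Bf Q hQ u v = 0) (x : ι → F) : Q (Ev Q hQ u v *ᵥ x) = Q x := by
  obtain ⟨α, hα⟩ : ∃ α, α = Bf Q hQ v x - Q v * Bf Q hQ u x := ⟨_, rfl⟩
  obtain ⟨β, hβ⟩ : ∃ β, β = Bf Q hQ u x := ⟨_, rfl⟩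
  have e : Ev Q hQ u v *ᵥ x = (x + α • u) + (-β) • v := by
    rw [Ev_mulVec, hα, ← hβ]
    module
  rw [e, Q_add_smul Q hQ, Q_add_smul Q hQ, hu]
  have h1 : Bf Q hQ (x + α • u) v = Bf Q hQ x v + α * Bf Q hQ u v := by
    simp only [map_add, map_smul, LinearMap.add_apply, LinearMap.smul_apply, smul_eq_mul]
  rw [h1, huv, Bf_symm Q hQ x u, ← hβ, Bf_symm Q hQ x v, hα, ← hβ]
  ring

theorem Ev_zero (hQ : Cfsg.Geo.IsNondegenerateQuadraticForm Q) (u : ι → F) :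
    Ev Q hQ u 0 = 1 := by
  apply mat_ext
  intro x
  rw [Ev_mulVec, Matrix.one_mulVec, Q_zero Q hQ]
  simp

theorem Ev_add (hQ : Cfsg.Geo.IsNondegenerateQuadraticForm Q) (u v v' : ι → F) (hu : Q u = 0)
    (huv : Bf Q hQ u v = 0) (huv' : Bf Q hQ u v' = 0) :
    Ev Q hQ u v * Ev Q hQ u v' = Ev Q hQ u (v + v') := by
  apply mat_ext
  intro x
  have huu : Bf Q hQ u u = 0 := by rw [Bf_self Q hQ, hu, mul_zero]
  have hvu : Bf Q hQ v u = 0 := by rw [Bf_symm Q hQ]; exact huv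
  rw [← Matrix.mulVec_mulVec, Ev_mulVec Q hQ u v', Ev_mulVec, Ev_mulVec, Q_add Q hQ v v']
  simp only [map_add, map_sub, map_smul, LinearMap.add_apply, LinearMap.sub_apply,
    LinearMap.smul_apply, smul_eq_mul, huu, huv, huv', hvu, mul_zero, sub_zero, add_zero]
  module

theorem Ev_conj (hQ : Cfsg.Geo.IsNondegenerateQuadraticForm Q) (A : Matrix ι ι F)
    (hA : ∀ x, Q (A *ᵥ x) = Q x) (u v : ι → F) :
    A * Ev Q hQ u v = Ev Q hQ (A *ᵥ u) (A *ᵥ v) * A := by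
  apply mat_ext
  intro x
  rw [← Matrix.mulVec_mulVec, ← Matrix.mulVec_mulVec, Ev_mulVec, Ev_mulVec, B_iso Q hQ A hA,
    B_iso Q hQ A hA, hA]
  simp only [Matrix.mulVec_add, Matrix.mulVec_sub, Matrix.mulVec_smul]

theorem Ev_fix (hQ : Cfsg.Geo.IsNondegenerateQuadraticForm Q) (u v : ι → F) (hu : Q u = 0)
    (huv : Bf Q hQ u v = 0) : Ev Q hQ u v *ᵥ u = u := by
  have huu : Bf Q hQ u u = 0 := by rw [Bf_self Q hQ, hu, mul_zero]
  rw [Ev_mulVec, Bf_symm Q hQ v u, huv, huu]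
  simp

/-- The Siegel transformation moving `f` to `f'`. -/
theorem Ev_map (hQ : Cfsg.Geo.IsNondegenerateQuadraticForm Q) (e f f' : ι → F) (hf : Q f = 0)
    (hf' : Q f' = 0) (κ : F) (hκ : κ ≠ 0) (h1 : Bf Q hQ e f = κ) (h2 : Bf Q hQ e f' = κ) :
    Bf Q hQ e (κ⁻¹ • (f - f')) = 0 ∧ Ev Q hQ e (κ⁻¹ • (f - f')) *ᵥ f = f' := by
  constructor
  · simp only [map_sub, map_smul, smul_eq_mul, h1, h2, sub_self, mul_zero]
  · have hff : Bf Q hQ f f = 0 := by rw [Bf_self Q hQ, hf, mul_zero]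
    have hk : κ⁻¹ * κ = 1 := inv_mul_cancel₀ hκ
    have hQv : Q (κ⁻¹ • (f - f')) = - (κ⁻¹) ^ 2 * Bf Q hQ f f' := by
      rw [hQ.smul, Q_sub Q hQ, hf, hf']; ring
    have hB : Bf Q hQ (κ⁻¹ • (f - f')) f = -κ⁻¹ * Bf Q hQ f f' := by
      simp only [map_sub, map_smul, LinearMap.sub_apply, LinearMap.smul_apply, smul_eq_mul]
      rw [hff, Bf_symm Q hQ f' f]; ring
    rw [Ev_mulVec, hQv, hB, h1]
    have h4 : -(κ⁻¹) ^ 2 * Bf Q hQ f f' * κ = -κ⁻¹ * Bf Q hQ f f' := by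
      linear_combination (-(κ⁻¹) * Bf Q hQ f f') * hk
    rw [h4, smul_smul, mul_inv_cancel₀ hκ, one_smul]
    abel

/-- Conjugating a reflection by an isometry. -/
theorem R_conj_iso (hQ : Cfsg.Geo.IsNondegenerateQuadraticForm Q) (A : Matrix ι ι F)
    (hA : ∀ x, Q (A *ᵥ x) = Q x) (w : ι → F) :
    A * R Q hQ w = R Q hQ (A *ᵥ w) * A := by
  apply mat_ext
  intro x
  rw [← Matrix.mulVec_mulVec, ← Matrix.mulVec_mulVec, R_mulVec, R_mulVec, B_iso Q hQ A hA, hA,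
    Matrix.mulVec_sub, Matrix.mulVec_smul]

theorem rO_conj_iso (hQ : Cfsg.Geo.IsNondegenerateQuadraticForm Q)
    (g : ↥(Cfsg.isometryGroup F Q)) (w : ι → F) (hw : Q w ≠ 0)
    (hw' : Q (((g : GL ι F) : Matrix ι ι F) *ᵥ w) ≠ 0) :
    g * rO Q hQ w hw * g⁻¹ = rO Q hQ (((g : GL ι F) : Matrix ι ι F) *ᵥ w) hw' := by
  rw [mul_inv_eq_iff_eq_mul]
  apply Subtype.ext
  apply Units.ext
  exact R_conj_iso Q hQ _ (fun x => g.2 x x) w

/-- A product of two reflections along vectors of the same norm lies in `Ω`. -/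
theorem pair_same [Fintype F] (hQ : Cfsg.Geo.IsNondegenerateQuadraticForm Q)
    (hn : 5 ≤ Fintype.card ι) (a b : ι → F) (ha : Q a ≠ 0) (hb : Q b ≠ 0) (hab : Q a = Q b) :
    rO Q hQ a ha * rO Q hQ b hb ∈ commutator ↥(Cfsg.isometryGroup F Q) := by
  by_cases hch : (2 : F) = 0
  · have hcp : CharP F 2 := CharTwo.of_one_ne_zero_of_two_eq_zero one_ne_zero hch
    have hsq : ∀ c : F, ∃ s, s * s = c := by
      intro c
      obtain ⟨r, hr⟩ := FiniteField.isSquare_of_char_two (ringChar.eq F 2) c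
      exact ⟨r, hr.symm⟩
    exact pair_mem Q hQ (Or.inr (by omega)) hch hsq a b ha hb
  · obtain ⟨g, hg⟩ := refl_conj_same Q hQ hch a b ha hb hab
    have e : rO Q hQ a ha * rO Q hQ b hb
        = rO Q hQ a ha * g * (rO Q hQ a ha)⁻¹ * g⁻¹ := by
      rw [← hg, rO_inv Q hQ a ha]
      simp only [mul_assoc]
    rw [e, commutator_def]
    exact Subgroup.commutator_mem_commutator (Subgroup.mem_top _) (Subgroup.mem_top _)

/-- The Siegel transformation as an element of `GL`. -/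
noncomputable def eG (hQ : Cfsg.Geo.IsNondegenerateQuadraticForm Q) (u v : ι → F) (hu : Q u = 0)
    (huv : Bf Q hQ u v = 0) : GL ι F :=
  ⟨Ev Q hQ u v, Ev Q hQ u (-v), by
    rw [Ev_add Q hQ u v (-v) hu huv (by rw [(Bf Q hQ u).map_neg, huv, neg_zero]),
      add_neg_cancel, Ev_zero],
   by
    rw [Ev_add Q hQ u (-v) v hu (by rw [(Bf Q hQ u).map_neg, huv, neg_zero]) huv,
      neg_add_cancel, Ev_zero]⟩

theorem eG_mem (hQ : Cfsg.Geo.IsNondegenerateQuadraticForm Q) (u v : ι → F) (hu : Q u = 0)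
    (huv : Bf Q hQ u v = 0) : eG Q hQ u v hu huv ∈ Cfsg.isometryGroup F Q := by
  show ∀ x w : ι → F, Q (Ev Q hQ u v *ᵥ x) = Q x
  intro x _
  exact Ev_iso Q hQ u v hu huv x

/-- The Siegel transformation as an element of the isometry group. -/
noncomputable def eO (hQ : Cfsg.Geo.IsNondegenerateQuadraticForm Q) (u v : ι → F) (hu : Q u = 0)
    (huv : Bf Q hQ u v = 0) : ↥(Cfsg.isometryGroup F Q) :=
  ⟨eG Q hQ u v hu huv, eG_mem Q hQ u v hu huv⟩

/-- A Siegel transformation along a non-singular vector is a product of two reflections. -/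
theorem Ev_refl (hQ : Cfsg.Geo.IsNondegenerateQuadraticForm Q) (u v : ι → F) (hu : Q u = 0)
    (huv : Bf Q hQ u v = 0) (hv : Q v ≠ 0) :
    Q (v - Q v • u) = Q v ∧ R Q hQ v * R Q hQ (v - Q v • u) = Ev Q hQ u v := by
  have hvu : Bf Q hQ v u = 0 := by rw [Bf_symm Q hQ]; exact huv
  obtain ⟨q, hq⟩ : ∃ q, q = Q v := ⟨_, rfl⟩
  rw [← hq] at hv ⊢
  have hQb : Q (v - q • u) = q := by
    rw [Q_sub Q hQ, hQ.smul, hu, (Bf Q hQ v).map_smul, smul_eq_mul, hvu, ← hq]; ring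
  refine ⟨hQb, ?_⟩
  apply mat_ext
  intro x
  have hinv : q⁻¹ * q = 1 := inv_mul_cancel₀ hv
  obtain ⟨t, ht⟩ : ∃ t, t = q⁻¹ * Bf Q hQ (v - q • u) x := ⟨_, rfl⟩
  rw [← Matrix.mulVec_mulVec, R_mulVec Q hQ (v - q • u), hQb, ← ht, R_mulVec, ← hq, Ev_mulVec,
    ← hq]
  have hBb : Bf Q hQ (v - q • u) x = Bf Q hQ v x - q * Bf Q hQ u x := by
    simp only [map_sub, map_smul, LinearMap.sub_apply, LinearMap.smul_apply, smul_eq_mul]
  have hBv : Bf Q hQ v (x - t • (v - q • u)) = Bf Q hQ v x - t * (2 * q) := by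
    simp only [map_sub, map_smul, smul_eq_mul, hvu, mul_zero, sub_zero]
    rw [Bf_self Q hQ, ← hq]
  rw [hBv]
  have h1 : t * q = Bf Q hQ v x - q * Bf Q hQ u x := by
    rw [ht, hBb]
    linear_combination (Bf Q hQ v x - q * Bf Q hQ u x) * hinv
  have h2 : t + q⁻¹ * (Bf Q hQ v x - t * (2 * q)) = Bf Q hQ u x := by
    rw [ht, hBb]
    linear_combination (Bf Q hQ u x - 2 * (q⁻¹ * (Bf Q hQ v x - q * Bf Q hQ u x))) * hinv
  calc x - t • (v - q • u) - (q⁻¹ * (Bf Q hQ v x - t * (2 * q))) • v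
      = x + (t * q) • u - (t + q⁻¹ * (Bf Q hQ v x - t * (2 * q))) • v := by module
    _ = x + Bf Q hQ v x • u - (q * Bf Q hQ u x) • u - Bf Q hQ u x • v := by
        rw [h1, h2]; module

/-- Siegel transformations lie in `Ω`. -/
theorem eO_mem [Fintype F] (hQ : Cfsg.Geo.IsNondegenerateQuadraticForm Q)
    (hn : 5 ≤ Fintype.card ι) (u v : ι → F) (hu : Q u = 0) (huv : Bf Q hQ u v = 0) :
    eO Q hQ u v hu huv ∈ commutator ↥(Cfsg.isometryGroup F Q) := by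
  have key : ∀ (v : ι → F) (huv : Bf Q hQ u v = 0), Q v ≠ 0 →
      eO Q hQ u v hu huv ∈ commutator ↥(Cfsg.isometryGroup F Q) := by
    intro v huv hv
    obtain ⟨hQb, hE⟩ := Ev_refl Q hQ u v hu huv hv
    have hb : Q (v - Q v • u) ≠ 0 := by rw [hQb]; exact hv
    have e : eO Q hQ u v hu huv = rO Q hQ v hv * rO Q hQ (v - Q v • u) hb :=
      Subtype.ext (Units.ext hE.symm)
    rw [e]
    exact pair_same Q hQ hn v _ hv hb hQb.symm
  by_cases hv : Q v = 0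
  · obtain ⟨v', -, e1, e2, -, -, hv', -⟩ :=
      exists_ns_perp2 Q hQ (Bf Q hQ u) (Bf Q hQ v) hn
    have h1 : Bf Q hQ u (v - v') = 0 := by
      rw [(Bf Q hQ u).map_sub, huv, e1, sub_zero]
    have h2 : Q (v - v') ≠ 0 := by
      rw [Q_sub Q hQ, hv, e2, zero_add, sub_zero]; exact hv'
    have e : eO Q hQ u v hu huv = eO Q hQ u (v - v') hu h1 * eO Q hQ u v' hu e1 := by
      apply Subtype.ext
      apply Units.ext
      show Ev Q hQ u v = Ev Q hQ u (v - v') * Ev Q hQ u v'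
      rw [Ev_add Q hQ u (v - v') v' hu h1 e1, sub_add_cancel]
    rw [e]
    exact mul_mem (key _ h1 h2) (key _ e1 hv')
  · exact key v huv hv

end quad

end Cfsg.Agent.Helper4.OSiegel
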