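import Mathlib
import Cfsg.Prelude.Def_GeometricClasses
import Cfsg.Agent.Helper4.OrthPlane

set_option autoImplicit false
open Cfsg

namespace Cfsg.Agent.Helper4.OrthFrame

open Matrix Cfsg.Agent.Helper4.OrthPlane

variable {ι : Type} [Fintype ι] [DecidableEq ι] {F : Type*} [Field F]

section F3

variable [Fintype F]

theorem three_eq_zero (hq : Fintype.card F = 3) : (3 : F) = 0 := by
  have h1 := Nat.cast_card_eq_zero F
  rw [hq] at h1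
  exact_mod_cast h1

theorem two_ne_zero3 (hq : Fintype.card F = 3) : (2 : F) ≠ 0 := by
  intro h2
  have h3 := three_eq_zero hq
  have h1 : (1 : F) = 0 := by linear_combination h3 - h2
  exact one_ne_zero h1

theorem sq_of_ne (hq : Fintype.card F = 3) (a : F) (ha : a ≠ 0) : a ^ 2 = 1 := by
  have h := sq_one (le_of_eq hq) a ha
  rw [sq]
  exact h

theorem trich (hq : Fintype.card F = 3) (a : F) : a = 0 ∨ a = 1 ∨ a = -1 := by
  by_cases ha : a = 0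
  · left
    exact ha
  · right
    have h := sq_of_ne hq a ha
    have h2 : (a - 1) * (a + 1) = 0 := by linear_combination h
    rcases mul_eq_zero.mp h2 with h3 | h3
    · left
      exact sub_eq_zero.mp h3
    · right
      exact eq_neg_of_add_eq_zero_left h3

theorem sumsq0 (hq : Fintype.card F = 3) (x y : F) (h : x ^ 2 + y ^ 2 = 0) : x = 0 ∧ y = 0 := by
  by_cases hx : x = 0
  · refine ⟨hx, ?_⟩
    rw [hx] at h
    have h1 : y ^ 2 = 0 := by linear_combination h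
    exact (pow_eq_zero_iff two_ne_zero).mp h1
  · exfalso
    have hx2 := sq_of_ne hq x hx
    by_cases hy : y = 0
    · rw [hy, hx2] at h
      have h1 : (1 : F) = 0 := by linear_combination h
      exact one_ne_zero h1
    · have hy2 := sq_of_ne hq y hy
      rw [hx2, hy2] at h
      exact two_ne_zero3 hq (by linear_combination h)

theorem neg_of_ne (hq : Fintype.card F = 3) (a b : F) (ha : a ≠ 0) (hb : b ≠ 0) (hab : a ≠ b) :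
    a = -b := by
  rcases trich hq a with h | h | h
  · exact absurd h ha
  · rcases trich hq b with h' | h' | h'
    · exact absurd h' hb
    · exact absurd (h.trans h'.symm) hab
    · rw [h, h', neg_neg]
  · rcases trich hq b with h' | h' | h'
    · exact absurd h' hb
    · rw [h, h']
    · exact absurd (h.trans h'.symm) hab

end F3

/-- Fewer linear functionals than the dimension of `U` have a common non-zero kernel vector in `U`. -/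
theorem exists_ker_sub (U : Submodule F (ι → F)) (r : ℕ) (φ : Fin r → ((ι → F) →ₗ[F] F))
    (hr : r < Module.finrank F U) : ∃ u ∈ U, u ≠ 0 ∧ ∀ m, φ m u = 0 := by
  have h1 : LinearMap.ker (LinearMap.pi (fun m => (φ m).comp U.subtype)) ≠ ⊥ := by
    apply LinearMap.ker_ne_bot_of_finrank_lt
    rw [Module.finrank_fin_fun]
    exact hr
  obtain ⟨u, hu, hu0⟩ := (Submodule.ne_bot_iff _).mp h1
  refine ⟨u.1, u.2, fun h => hu0 (Subtype.ext h), fun m => ?_⟩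
  have h2 := LinearMap.mem_ker.mp hu
  have h3 := congrFun h2 m
  rw [LinearMap.pi_apply] at h3
  exact h3

theorem card_eq {t k : ℕ} (D : Fin t → Submodule F (ι → F)) (hD : Cfsg.Geo.IsMDecomposition k D) :
    Fintype.card ι = t * k := by
  have hint : DirectSum.IsInternal D :=
    DirectSum.isInternal_submodule_of_iSupIndep_of_iSup_eq_top hD.indep hD.iSup_eq_top
  have b := hint.collectedBasis (fun i => Module.finBasis F (D i))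
  have h1 := Module.finrank_eq_card_basis b
  rw [Module.finrank_fintype_fun_eq_card, Fintype.card_sigma] at h1
  rw [h1]
  simp only [Fintype.card_fin, hD.finrank_eq, Finset.sum_const, Finset.card_univ, smul_eq_mul]

section quad

variable (Q : (ι → F) → F)

theorem Q_diff (hQ : Cfsg.Geo.IsNondegenerateQuadraticForm Q) (u v : ι → F) (c : F)
    (hu : Q u = c) (hv : Q v = c) (huv : Bf Q hQ u v = 0) : Q (u - v) = 2 * c := by
  rw [Q_sub Q hQ, hu, hv, huv]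
  ring

theorem swap_left (hQ : Cfsg.Geo.IsNondegenerateQuadraticForm Q) (h2 : (2 : F) ≠ 0)
    (u v : ι → F) (c : F) (hc : c ≠ 0) (hu : Q u = c) (hv : Q v = c)
    (huv : Bf Q hQ u v = 0) : R Q hQ (u - v) *ᵥ u = v := by
  have hinv : (2 * c)⁻¹ * (2 * c) = 1 := inv_mul_cancel₀ (mul_ne_zero h2 hc)
  have hvu : Bf Q hQ v u = 0 := by
    rw [Bf_symm Q hQ v u]
    exact huv
  rw [R_mulVec, Q_diff Q hQ u v c hu hv huv, map_sub, LinearMap.sub_apply, Bf_self Q hQ, hu, hvu,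
    sub_zero, hinv, one_smul]
  abel

theorem swap_right (hQ : Cfsg.Geo.IsNondegenerateQuadraticForm Q) (h2 : (2 : F) ≠ 0)
    (u v : ι → F) (c : F) (hc : c ≠ 0) (hu : Q u = c) (hv : Q v = c)
    (huv : Bf Q hQ u v = 0) : R Q hQ (u - v) *ᵥ v = u := by
  have hinv : (2 * c)⁻¹ * (2 * c) = 1 := inv_mul_cancel₀ (mul_ne_zero h2 hc)
  rw [R_mulVec, Q_diff Q hQ u v c hu hv huv, map_sub, LinearMap.sub_apply, Bf_self Q hQ, hv, huv,
    zero_sub]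
  have h3 : (2 * c)⁻¹ * -(2 * c) = -1 := by linear_combination (-1 : F) * hinv
  rw [h3]
  module

theorem swap_fix (hQ : Cfsg.Geo.IsNondegenerateQuadraticForm Q) (u v z : ι → F)
    (hzu : Bf Q hQ u z = 0) (hzv : Bf Q hQ v z = 0) : R Q hQ (u - v) *ᵥ z = z := by
  rw [R_mulVec, map_sub, LinearMap.sub_apply, hzu, hzv, sub_zero, mul_zero, zero_smul, sub_zero]

/-- The core argument: the set `S` of vectors of value `c` lying in a member of `D` is preserved by the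
decomposition stabiliser and by a "3-cycle" mixing two members, but not by all of `Ω`. -/
theorem frame_core (hQ : Cfsg.Geo.IsNondegenerateQuadraticForm Q) [Fintype F]
    (hq : Fintype.card F = 3) {t : ℕ} (D : Fin t → Submodule F (ι → F))
    (horth : ∀ i j, i ≠ j → ∀ u ∈ D i, ∀ v ∈ D j, Bf Q hQ u v = 0)
    (c : F) (hc : c ≠ 0) (i j : Fin t) (hij : i ≠ j)
    (p₁ p₂ p₃ p₄ p₅ : ι → F)
    (hp₁ : p₁ ∈ D i) (hp₂ : p₂ ∈ D i) (hp₃ : p₃ ∈ D j)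
    (hQ₁ : Q p₁ = c) (hQ₂ : Q p₂ = c) (hQ₃ : Q p₃ = c) (hQ₄ : Q p₄ = c) (hQ₅ : Q p₅ = c)
    (h12 : Bf Q hQ p₁ p₂ = 0) (h14 : Bf Q hQ p₁ p₄ = 0) (h15 : Bf Q hQ p₁ p₅ = 0)
    (h24 : Bf Q hQ p₂ p₄ = 0) (h25 : Bf Q hQ p₂ p₅ = 0) (h34 : Bf Q hQ p₃ p₄ = 0)
    (h35 : Bf Q hQ p₃ p₅ = 0) (h45 : Bf Q hQ p₄ p₅ = 0)
    (hcls_i : ∀ v ∈ D i, Q v = c →
      v = p₁ ∨ v = -p₁ ∨ v = p₂ ∨ v = -p₂ ∨ (Bf Q hQ p₁ v = 0 ∧ Bf Q hQ p₂ v = 0))
    (hcls_j : ∀ v ∈ D j, Q v = c → v = p₃ ∨ v = -p₃ ∨ Bf Q hQ p₃ v = 0) :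
    ∃ K : Subgroup (Matrix.GeneralLinearGroup ι F),
      Cfsg.Geo.decompositionStabilizer D ⊓ Cfsg.Geo.omegaGL Q < K ∧ K < Cfsg.Geo.omegaGL Q := by
  classical
  have h3 : (3 : F) = 0 := three_eq_zero hq
  have h2 : (2 : F) ≠ 0 := two_ne_zero3 hq
  have h2c : (2 : F) * c ≠ 0 := mul_ne_zero h2 hc
  have h13 : Bf Q hQ p₁ p₃ = 0 := horth i j hij p₁ hp₁ p₃ hp₃
  have h23 : Bf Q hQ p₂ p₃ = 0 := horth i j hij p₂ hp₂ p₃ hp₃
  have h21 : Bf Q hQ p₂ p₁ = 0 := by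
    rw [Bf_symm Q hQ p₂ p₁]
    exact h12
  have h31 : Bf Q hQ p₃ p₁ = 0 := by
    rw [Bf_symm Q hQ p₃ p₁]
    exact h13
  have h32 : Bf Q hQ p₃ p₂ = 0 := by
    rw [Bf_symm Q hQ p₃ p₂]
    exact h23
  have h41 : Bf Q hQ p₄ p₁ = 0 := by
    rw [Bf_symm Q hQ p₄ p₁]
    exact h14
  have h42 : Bf Q hQ p₄ p₂ = 0 := by
    rw [Bf_symm Q hQ p₄ p₂]
    exact h24
  have h43 : Bf Q hQ p₄ p₃ = 0 := by
    rw [Bf_symm Q hQ p₄ p₃]
    exact h34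
  have h11 : Bf Q hQ p₁ p₁ = 2 * c := by rw [Bf_self, hQ₁]
  have h22 : Bf Q hQ p₂ p₂ = 2 * c := by rw [Bf_self, hQ₂]
  have h33 : Bf Q hQ p₃ p₃ = 2 * c := by rw [Bf_self, hQ₃]
  obtain ⟨s, hs⟩ : ∃ s : ι → F, s = p₁ + p₂ + p₃ + p₄ := ⟨_, rfl⟩
  have hQs : Q s = c := by
    rw [hs, Q_add Q hQ, Q_add Q hQ, Q_add Q hQ, hQ₁, hQ₂, hQ₃, hQ₄]
    simp only [map_add, LinearMap.add_apply, h12, h13, h14, h23, h24, h34]
    linear_combination c * h3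
  have hs0 : Q s ≠ 0 := by
    rw [hQs]
    exact hc
  have hQ13 : Q (p₁ - p₃) ≠ 0 := by
    rw [Q_diff Q hQ p₁ p₃ c hQ₁ hQ₃ h13]
    exact h2c
  have hQ32 : Q (p₃ - p₂) ≠ 0 := by
    rw [Q_diff Q hQ p₃ p₂ c hQ₃ hQ₂ h32]
    exact h2c
  have hQ15 : Q (p₁ - p₅) ≠ 0 := by
    rw [Q_diff Q hQ p₁ p₅ c hQ₁ hQ₅ h15]
    exact h2c
  obtain ⟨g₁, hg₁def⟩ : ∃ g₁ : Matrix.GeneralLinearGroup ι F,
      g₁ = rG Q hQ (p₁ - p₃) hQ13 * rG Q hQ (p₃ - p₂) hQ32 * (rG Q hQ (p₁ - p₃) hQ13)⁻¹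
        * (rG Q hQ (p₃ - p₂) hQ32)⁻¹ := ⟨_, rfl⟩
  obtain ⟨g₂, hg₂def⟩ : ∃ g₂ : Matrix.GeneralLinearGroup ι F,
      g₂ = rG Q hQ s hs0 * rG Q hQ (p₁ - p₅) hQ15 * (rG Q hQ s hs0)⁻¹
        * (rG Q hQ (p₁ - p₅) hQ15)⁻¹ := ⟨_, rfl⟩
  have hg₁val : ∀ u, (g₁ : Matrix ι ι F) *ᵥ u
      = R Q hQ (p₁ - p₃) *ᵥ (R Q hQ (p₃ - p₂) *ᵥ (R Q hQ (p₁ - p₃) *ᵥ
          (R Q hQ (p₃ - p₂) *ᵥ u))) := by
    intro u
    rw [hg₁def]
    show (R Q hQ (p₁ - p₃) * R Q hQ (p₃ - p₂) * R Q hQ (p₁ - p₃) * R Q hQ (p₃ - p₂)) *ᵥ u = _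
    simp only [← Matrix.mulVec_mulVec]
  have hg₂val : ∀ u, (g₂ : Matrix ι ι F) *ᵥ u
      = R Q hQ s *ᵥ (R Q hQ (p₁ - p₅) *ᵥ (R Q hQ s *ᵥ (R Q hQ (p₁ - p₅) *ᵥ u))) := by
    intro u
    rw [hg₂def]
    show (R Q hQ s * R Q hQ (p₁ - p₅) * R Q hQ s * R Q hQ (p₁ - p₅)) *ᵥ u = _
    simp only [← Matrix.mulVec_mulVec]
  have hg₁Ω : g₁ ∈ Cfsg.Geo.omegaGL Q := by
    rw [hg₁def]
    exact comm_mem_omega Q _ _ (rG_mem Q hQ _ hQ13) (rG_mem Q hQ _ hQ32)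
  have hg₂Ω : g₂ ∈ Cfsg.Geo.omegaGL Q := by
    rw [hg₂def]
    exact comm_mem_omega Q _ _ (rG_mem Q hQ _ hs0) (rG_mem Q hQ _ hQ15)
  -- the action of `g₁`
  have a1 : R Q hQ (p₁ - p₃) *ᵥ p₁ = p₃ := swap_left Q hQ h2 p₁ p₃ c hc hQ₁ hQ₃ h13
  have a3 : R Q hQ (p₁ - p₃) *ᵥ p₃ = p₁ := swap_right Q hQ h2 p₁ p₃ c hc hQ₁ hQ₃ h13
  have a2 : R Q hQ (p₁ - p₃) *ᵥ p₂ = p₂ := swap_fix Q hQ p₁ p₃ p₂ h12 h32
  have b3 : R Q hQ (p₃ - p₂) *ᵥ p₃ = p₂ := swap_left Q hQ h2 p₃ p₂ c hc hQ₃ hQ₂ h32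
  have b2 : R Q hQ (p₃ - p₂) *ᵥ p₂ = p₃ := swap_right Q hQ h2 p₃ p₂ c hc hQ₃ hQ₂ h32
  have b1 : R Q hQ (p₃ - p₂) *ᵥ p₁ = p₁ := swap_fix Q hQ p₃ p₂ p₁ h31 h21
  have hg₁p₁ : (g₁ : Matrix ι ι F) *ᵥ p₁ = p₂ := by rw [hg₁val, b1, a1, b3, a2]
  have hg₁p₂ : (g₁ : Matrix ι ι F) *ᵥ p₂ = p₃ := by rw [hg₁val, b2, a3, b1, a1]
  have hg₁p₃ : (g₁ : Matrix ι ι F) *ᵥ p₃ = p₁ := by rw [hg₁val, b3, a2, b2, a3]
  have hg₁fix : ∀ z : ι → F, Bf Q hQ p₁ z = 0 → Bf Q hQ p₂ z = 0 → Bf Q hQ p₃ z = 0 →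
      (g₁ : Matrix ι ι F) *ᵥ z = z := by
    intro z hz1 hz2 hz3
    rw [hg₁val, swap_fix Q hQ p₃ p₂ z hz3 hz2, swap_fix Q hQ p₁ p₃ z hz1 hz3,
      swap_fix Q hQ p₃ p₂ z hz3 hz2, swap_fix Q hQ p₁ p₃ z hz1 hz3]
  -- the action of `g₂`
  have c1 : R Q hQ (p₁ - p₅) *ᵥ p₁ = p₅ := swap_left Q hQ h2 p₁ p₅ c hc hQ₁ hQ₅ h15
  have c5 : R Q hQ (p₁ - p₅) *ᵥ p₅ = p₁ := swap_right Q hQ h2 p₁ p₅ c hc hQ₁ hQ₅ h15
  have hBs5 : Bf Q hQ s p₅ = 0 := by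
    rw [hs]
    simp only [map_add, LinearMap.add_apply, h15, h25, h35, h45, add_zero]
  have d5 : R Q hQ s *ᵥ p₅ = p₅ := by
    rw [R_mulVec, hBs5, mul_zero, zero_smul, sub_zero]
  have hBs1 : Bf Q hQ s p₁ = 2 * c := by
    rw [hs]
    simp only [map_add, LinearMap.add_apply, h11, h21, h31, h41, add_zero]
  have d1 : R Q hQ s *ᵥ p₁ = p₁ - (2 : F) • s := by
    rw [R_mulVec, hBs1, hQs]
    have h5 : c⁻¹ * (2 * c) = 2 := by
      rw [mul_comm 2 c, ← mul_assoc, inv_mul_cancel₀ hc, one_mul]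
    rw [h5]
  have hg₂p₁ : (g₂ : Matrix ι ι F) *ᵥ p₁ = p₁ - (2 : F) • s := by
    rw [hg₂val, c1, d5, c5, d1]
  -- the set `S`
  obtain ⟨S, hS⟩ : ∃ S : Set (ι → F), S = {v | ∃ l, v ∈ D l ∧ Q v = c} := ⟨_, rfl⟩
  have hSmem : ∀ v : ι → F, v ∈ S ↔ ∃ l, v ∈ D l ∧ Q v = c := by
    intro v
    rw [hS]
    exact Iff.rfl
  have hisoQ : ∀ g : Matrix.GeneralLinearGroup ι F, g ∈ Cfsg.Geo.omegaGL Q →
      ∀ u : ι → F, Q ((g : Matrix ι ι F) *ᵥ u) = Q u := by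
    intro g hg u
    exact omega_le_isom Q g hg u u
  have hle : Cfsg.Geo.decompositionStabilizer D ⊓ Cfsg.Geo.omegaGL Q
      ≤ Cfsg.stabilizing (Cfsg.glToMat ι F) S ⊓ Cfsg.Geo.omegaGL Q := by
    rintro g ⟨hgD, hgΩ⟩
    refine ⟨?_, hgΩ⟩
    obtain ⟨σ, hσ⟩ : ∃ σ : Equiv.Perm (Fin t),
        ∀ i, (D i).map (Matrix.toLin' (g : Matrix ι ι F)) = D (σ i) := hgD
    apply stab_of_maps
    intro w hw
    obtain ⟨l, hwl, hQw⟩ := (hSmem w).mp hw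
    refine (hSmem _).mpr ⟨σ l, ?_, ?_⟩
    · rw [← hσ l]
      exact Submodule.mem_map.mpr ⟨w, hwl, Matrix.toLin'_apply _ _⟩
    · rw [hisoQ g hgΩ, hQw]
  have hg₁S : g₁ ∈ Cfsg.stabilizing (Cfsg.glToMat ι F) S := by
    apply stab_of_maps
    intro w hw
    obtain ⟨l, hwl, hQw⟩ := (hSmem w).mp hw
    have hQg : Q ((g₁ : Matrix ι ι F) *ᵥ w) = c := by rw [hisoQ g₁ hg₁Ω, hQw]
    by_cases hli : l = i
    · rw [hli] at hwl
      rcases hcls_i w hwl hQw with h | h | h | h | ⟨h, h'⟩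
      · refine (hSmem _).mpr ⟨i, ?_, hQg⟩
        rw [h, hg₁p₁]
        exact hp₂
      · refine (hSmem _).mpr ⟨i, ?_, hQg⟩
        rw [h, Matrix.mulVec_neg, hg₁p₁]
        exact (D i).neg_mem hp₂
      · refine (hSmem _).mpr ⟨j, ?_, hQg⟩
        rw [h, hg₁p₂]
        exact hp₃
      · refine (hSmem _).mpr ⟨j, ?_, hQg⟩
        rw [h, Matrix.mulVec_neg, hg₁p₂]
        exact (D j).neg_mem hp₃
      · refine (hSmem _).mpr ⟨i, ?_, hQg⟩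
        rw [hg₁fix w h h' (horth j i (Ne.symm hij) p₃ hp₃ w hwl)]
        exact hwl
    · by_cases hlj : l = j
      · rw [hlj] at hwl
        rcases hcls_j w hwl hQw with h | h | h
        · refine (hSmem _).mpr ⟨i, ?_, hQg⟩
          rw [h, hg₁p₃]
          exact hp₁
        · refine (hSmem _).mpr ⟨i, ?_, hQg⟩
          rw [h, Matrix.mulVec_neg, hg₁p₃]
          exact (D i).neg_mem hp₁
        · refine (hSmem _).mpr ⟨j, ?_, hQg⟩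
          rw [hg₁fix w (horth i j hij p₁ hp₁ w hwl) (horth i j hij p₂ hp₂ w hwl) h]
          exact hwl
      · refine (hSmem _).mpr ⟨l, ?_, hQg⟩
        rw [hg₁fix w (horth i l (Ne.symm hli) p₁ hp₁ w hwl)
          (horth i l (Ne.symm hli) p₂ hp₂ w hwl) (horth j l (Ne.symm hlj) p₃ hp₃ w hwl)]
        exact hwl
  have hg₁D : g₁ ∉ Cfsg.Geo.decompositionStabilizer D := by
    intro hmemD
    obtain ⟨σ, hσ⟩ : ∃ σ : Equiv.Perm (Fin t),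
        ∀ i, (D i).map (Matrix.toLin' (g₁ : Matrix ι ι F)) = D (σ i) := hmemD
    have hmem : ∀ l (w : ι → F), w ∈ D l → (g₁ : Matrix ι ι F) *ᵥ w ∈ D (σ l) := by
      intro l w hw
      rw [← hσ l]
      exact Submodule.mem_map.mpr ⟨w, hw, Matrix.toLin'_apply _ _⟩
    have h1 : p₂ ∈ D (σ i) := by
      have h0 := hmem i p₁ hp₁
      rwa [hg₁p₁] at h0
    have hσi : σ i = i := by
      by_contra hne
      have h0 := horth (σ i) i hne p₂ h1 p₂ hp₂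
      rw [h22] at h0
      exact h2c h0
    have h4 : p₃ ∈ D i := by
      have h0 := hmem i p₂ hp₂
      rwa [hg₁p₂, hσi] at h0
    have h0 := horth i j hij p₃ h4 p₃ hp₃
    rw [h33] at h0
    exact h2c h0
  have hg₂S : g₂ ∉ Cfsg.stabilizing (Cfsg.glToMat ι F) S := by
    intro hmem
    have h1 : (g₂ : Matrix ι ι F) *ᵥ p₁ ∈ S := (hmem p₁).mp ((hSmem _).mpr ⟨i, hp₁, hQ₁⟩)
    rw [hg₂p₁] at h1
    obtain ⟨l, hl, -⟩ := (hSmem _).mp h1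
    have hB2 : Bf Q hQ p₂ (p₁ - (2 : F) • s) = -(4 * c) := by
      rw [hs]
      simp only [map_add, map_sub, map_smul, smul_eq_mul, h21, h22, h23, h24]
      ring
    have hB3 : Bf Q hQ p₃ (p₁ - (2 : F) • s) = -(4 * c) := by
      rw [hs]
      simp only [map_add, map_sub, map_smul, smul_eq_mul, h31, h32, h33, h34]
      ring
    have h4c : -(4 * c) ≠ 0 := by
      intro h
      apply hc
      linear_combination (-1 : F) * h - c * h3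
    have hli : l = i := by
      by_contra hne
      have h0 := horth i l (Ne.symm hne) p₂ hp₂ _ hl
      rw [hB2] at h0
      exact h4c h0
    rw [hli] at hl
    have h0 := horth j i (Ne.symm hij) p₃ hp₃ _ hl
    rw [hB3] at h0
    exact h4c h0
  refine ⟨Cfsg.stabilizing (Cfsg.glToMat ι F) S ⊓ Cfsg.Geo.omegaGL Q, ?_, ?_⟩
  · refine lt_of_le_of_ne hle (fun heq => hg₁D ?_)
    have h5 : g₁ ∈ Cfsg.Geo.decompositionStabilizer D ⊓ Cfsg.Geo.omegaGL Q := by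
      rw [heq]
      exact ⟨hg₁S, hg₁Ω⟩
    exact h5.1
  · refine lt_of_le_of_ne inf_le_right (fun heq => hg₂S ?_)
    have h5 : g₂ ∈ Cfsg.stabilizing (Cfsg.glToMat ι F) S ⊓ Cfsg.Geo.omegaGL Q := by
      rw [heq]
      exact hg₂Ω
    exact h5.1

/-- Extending an orthogonal family of non-singular vectors of a non-degenerate subspace. -/
theorem exists_next (hQ : Cfsg.Geo.IsNondegenerateQuadraticForm Q) (h2 : (2 : F) ≠ 0)
    (U : Submodule F (ι → F)) (hnd : Cfsg.Geo.IsNondegenerateOn (QuadraticMap.polar Q) U)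
    (r : ℕ) (v : Fin r → ι → F) (hvU : ∀ m, v m ∈ U) (hvQ : ∀ m, Q (v m) ≠ 0)
    (horth : ∀ m m', m ≠ m' → Bf Q hQ (v m) (v m') = 0)
    (hr : r < Module.finrank F U) :
    ∃ w ∈ U, Q w ≠ 0 ∧ ∀ m, Bf Q hQ (v m) w = 0 := by
  obtain ⟨u, huU, hu0, hu⟩ := exists_ker_sub U r (fun m => Bf Q hQ (v m)) hr
  have hu' : ∀ m, Bf Q hQ (v m) u = 0 := hu
  by_cases hQu : Q u = 0
  · obtain ⟨-, ⟨y, hyU, hy⟩⟩ := hnd u huU hu0
    have hy' : Bf Q hQ u y ≠ 0 := hy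
    obtain ⟨y', hy'def⟩ : ∃ y' : ι → F,
        y' = y - ∑ m, ((Bf Q hQ (v m) (v m))⁻¹ * Bf Q hQ (v m) y) • v m := ⟨_, rfl⟩
    have hy'U : y' ∈ U := by
      rw [hy'def]
      exact U.sub_mem hyU (U.sum_mem (fun m _ => U.smul_mem _ (hvU m)))
    have hvv : ∀ m, Bf Q hQ (v m) (v m) ≠ 0 := by
      intro m
      rw [Bf_self]
      exact mul_ne_zero h2 (hvQ m)
    have hy'orth : ∀ m, Bf Q hQ (v m) y' = 0 := by
      intro m
      rw [hy'def, map_sub, map_sum]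
      rw [Finset.sum_eq_single m]
      · rw [map_smul, smul_eq_mul]
        have hinv := inv_mul_cancel₀ (hvv m)
        linear_combination (-(Bf Q hQ (v m) y)) * hinv
      · intro m' _ hne
        rw [map_smul, horth m m' (Ne.symm hne), smul_zero]
      · intro hm
        exact absurd (Finset.mem_univ m) hm
    have huy' : Bf Q hQ u y' ≠ 0 := by
      rw [hy'def, map_sub, map_sum]
      have h0 : ∑ m, Bf Q hQ u (((Bf Q hQ (v m) (v m))⁻¹ * Bf Q hQ (v m) y) • v m) = 0 := by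
        apply Finset.sum_eq_zero
        intro m _
        rw [map_smul, Bf_symm Q hQ u (v m), hu' m, smul_zero]
      rw [h0, sub_zero]
      exact hy'
    by_cases hQy' : Q y' = 0
    · refine ⟨y' + u, U.add_mem hy'U huU, ?_, fun m => ?_⟩
      · rw [Q_add Q hQ, hQy', hQu, zero_add, zero_add, Bf_symm Q hQ y' u]
        exact huy'
      · rw [map_add, hy'orth m, hu' m, add_zero]
    · exact ⟨y', hy'U, hQy', hy'orth⟩
  · exact ⟨u, huU, hQu, hu'⟩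

/-- An orthogonal family of `n` non-singular vectors in an `n`-dimensional subspace spans it. -/
theorem span_frame (hQ : Cfsg.Geo.IsNondegenerateQuadraticForm Q) (h2 : (2 : F) ≠ 0)
    (U : Submodule F (ι → F)) (n : ℕ) (a : Fin n → ι → F) (haU : ∀ m, a m ∈ U)
    (haQ : ∀ m, Q (a m) ≠ 0) (horth : ∀ m m', m ≠ m' → Bf Q hQ (a m) (a m') = 0)
    (hn : Module.finrank F U = n) :
    ∀ u ∈ U, ∃ α : Fin n → F, u = ∑ m, α m • a m := by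
  have hli : LinearIndependent F a := by
    rw [Fintype.linearIndependent_iff]
    intro g hg m
    have h1 : Bf Q hQ (a m) (∑ m', g m' • a m') = 0 := by rw [hg, map_zero]
    rw [map_sum, Finset.sum_eq_single m] at h1
    · rw [map_smul, smul_eq_mul, Bf_self] at h1
      rcases mul_eq_zero.mp h1 with h | h
      · exact h
      · exact absurd h (mul_ne_zero h2 (haQ m))
    · intro m' _ hne
      rw [map_smul, horth m m' (Ne.symm hne), smul_zero]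
    · intro hm
      exact absurd (Finset.mem_univ m) hm
  have hspan : Submodule.span F (Set.range a) = U := by
    apply Submodule.eq_of_le_of_finrank_eq
    · rw [Submodule.span_le]
      rintro _ ⟨m, rfl⟩
      exact haU m
    · rw [finrank_span_eq_card hli, Fintype.card_fin, hn]
  intro u hu
  rw [← hspan] at hu
  obtain ⟨α, hα⟩ := (Submodule.mem_span_range_iff_exists_fun F).mp hu
  exact ⟨α, hα.symm⟩

theorem span2 (hQ : Cfsg.Geo.IsNondegenerateQuadraticForm Q) (h2 : (2 : F) ≠ 0)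
    (U : Submodule F (ι → F)) (a₀ a₁ : ι → F) (h₀ : a₀ ∈ U) (h₁ : a₁ ∈ U)
    (hQ₀ : Q a₀ ≠ 0) (hQ₁ : Q a₁ ≠ 0) (h01 : Bf Q hQ a₀ a₁ = 0)
    (hn : Module.finrank F U = 2) :
    ∀ u ∈ U, ∃ α₀ α₁ : F, u = α₀ • a₀ + α₁ • a₁ := by
  intro u hu
  have h10 : Bf Q hQ a₁ a₀ = 0 := by
    rw [Bf_symm Q hQ a₁ a₀]
    exact h01
  obtain ⟨α, hα⟩ := span_frame Q hQ h2 U 2 ![a₀, a₁]
    (by intro m; fin_cases m; exact h₀; exact h₁)
    (by intro m; fin_cases m; exact hQ₀; exact hQ₁)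
    (by
      intro m m' hne
      fin_cases m <;> fin_cases m'
      · exact absurd rfl hne
      · exact h01
      · exact h10
      · exact absurd rfl hne) hn u hu
  refine ⟨α 0, α 1, ?_⟩
  rw [hα, Fin.sum_univ_two]
  rfl

theorem span3 (hQ : Cfsg.Geo.IsNondegenerateQuadraticForm Q) (h2 : (2 : F) ≠ 0)
    (U : Submodule F (ι → F)) (a₀ a₁ a₂ : ι → F) (h₀ : a₀ ∈ U) (h₁ : a₁ ∈ U) (h₂ : a₂ ∈ U)
    (hQ₀ : Q a₀ ≠ 0) (hQ₁ : Q a₁ ≠ 0) (hQ₂ : Q a₂ ≠ 0) (h01 : Bf Q hQ a₀ a₁ = 0)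
    (h02 : Bf Q hQ a₀ a₂ = 0) (h12 : Bf Q hQ a₁ a₂ = 0)
    (hn : Module.finrank F U = 3) :
    ∀ u ∈ U, ∃ α₀ α₁ α₂ : F, u = α₀ • a₀ + α₁ • a₁ + α₂ • a₂ := by
  intro u hu
  have h10 : Bf Q hQ a₁ a₀ = 0 := by
    rw [Bf_symm Q hQ a₁ a₀]
    exact h01
  have h20 : Bf Q hQ a₂ a₀ = 0 := by
    rw [Bf_symm Q hQ a₂ a₀]
    exact h02
  have h21 : Bf Q hQ a₂ a₁ = 0 := by
    rw [Bf_symm Q hQ a₂ a₁]
    exact h12
  obtain ⟨α, hα⟩ := span_frame Q hQ h2 U 3 ![a₀, a₁, a₂]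
    (by intro m; fin_cases m; exact h₀; exact h₁; exact h₂)
    (by intro m; fin_cases m; exact hQ₀; exact hQ₁; exact hQ₂)
    (by
      intro m m' hne
      fin_cases m <;> fin_cases m'
      · exact absurd rfl hne
      · exact h01
      · exact h02
      · exact h10
      · exact absurd rfl hne
      · exact h12
      · exact h20
      · exact h21
      · exact absurd rfl hne) hn u hu
  refine ⟨α 0, α 1, α 2, ?_⟩
  rw [hα, Fin.sum_univ_three]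
  rfl

theorem frame3_key (hQ : Cfsg.Geo.IsNondegenerateQuadraticForm Q) [Fintype F]
    (hq : Fintype.card F = 3) (U : Submodule F (ι → F))
    (x y z : ι → F) (hx : x ∈ U) (hy : y ∈ U) (hz : z ∈ U) (hQx : Q x ≠ 0) (hQz : Q z ≠ 0)
    (hQy : Q y = Q x) (hxy : Bf Q hQ x y = 0) (hxz : Bf Q hQ x z = 0)
    (hyz : Bf Q hQ y z = 0) :
    ∃ (c : F) (a₀ a₁ a₂ : ι → F), c ≠ 0 ∧ a₀ ∈ U ∧ a₁ ∈ U ∧ a₂ ∈ U ∧ Q a₀ = c ∧ Q a₁ = c ∧
      Q a₂ = c ∧ Bf Q hQ a₀ a₁ = 0 ∧ Bf Q hQ a₀ a₂ = 0 ∧ Bf Q hQ a₁ a₂ = 0 := by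
  have h3 := three_eq_zero hq
  by_cases hzx : Q z = Q x
  · exact ⟨Q x, x, y, z, hQx, hx, hy, hz, rfl, hQy, hzx, hxy, hxz, hyz⟩
  · have hneg : Q z = -Q x := neg_of_ne hq (Q z) (Q x) hQz hQx hzx
    have hyx : Bf Q hQ y x = 0 := by
      rw [Bf_symm Q hQ y x]
      exact hxy
    refine ⟨Q z, x + y, x - y, z, hQz, U.add_mem hx hy, U.sub_mem hx hy, hz, ?_, ?_, rfl,
      ?_, ?_, ?_⟩
    · rw [Q_add Q hQ, hQy, hxy, hneg]
      linear_combination Q x * h3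
    · rw [Q_sub Q hQ, hQy, hxy, hneg]
      linear_combination Q x * h3
    · simp only [map_add, map_sub, LinearMap.add_apply, LinearMap.sub_apply, Bf_self, hQy, hxy,
        hyx]
      ring
    · rw [map_add, LinearMap.add_apply, hxz, hyz, add_zero]
    · rw [map_sub, LinearMap.sub_apply, hxz, hyz, sub_zero]

theorem exists_frame3 (hQ : Cfsg.Geo.IsNondegenerateQuadraticForm Q) [Fintype F]
    (hq : Fintype.card F = 3) (U : Submodule F (ι → F))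
    (hdim : Module.finrank F U = 3)
    (hnd : Cfsg.Geo.IsNondegenerateOn (QuadraticMap.polar Q) U) :
    ∃ (c : F) (a₀ a₁ a₂ : ι → F), c ≠ 0 ∧ a₀ ∈ U ∧ a₁ ∈ U ∧ a₂ ∈ U ∧ Q a₀ = c ∧ Q a₁ = c ∧
      Q a₂ = c ∧ Bf Q hQ a₀ a₁ = 0 ∧ Bf Q hQ a₀ a₂ = 0 ∧ Bf Q hQ a₁ a₂ = 0 ∧
      ∀ u ∈ U, ∃ α₀ α₁ α₂ : F, u = α₀ • a₀ + α₁ • a₁ + α₂ • a₂ := by
  have h2 := two_ne_zero3 hq
  obtain ⟨v₁, hv₁U, hQv₁, -⟩ := exists_next Q hQ h2 U hnd 0 (fun m => m.elim0)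
    (fun m => m.elim0) (fun m => m.elim0) (fun m => m.elim0) (by rw [hdim]; norm_num)
  obtain ⟨v₂, hv₂U, hQv₂, hv₂⟩ := exists_next Q hQ h2 U hnd 1 (fun _ => v₁) (fun _ => hv₁U)
    (fun _ => hQv₁) (fun m m' hne => absurd (Subsingleton.elim m m') hne)
    (by rw [hdim]; norm_num)
  have h12 : Bf Q hQ v₁ v₂ = 0 := hv₂ 0
  have h21 : Bf Q hQ v₂ v₁ = 0 := by
    rw [Bf_symm Q hQ v₂ v₁]
    exact h12
  obtain ⟨v₃, hv₃U, hQv₃, hv₃⟩ := exists_next Q hQ h2 U hnd 2 ![v₁, v₂]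
    (by intro m; fin_cases m; exact hv₁U; exact hv₂U)
    (by intro m; fin_cases m; exact hQv₁; exact hQv₂)
    (by
      intro m m' hne
      fin_cases m <;> fin_cases m'
      · exact absurd rfl hne
      · exact h12
      · exact h21
      · exact absurd rfl hne) (by rw [hdim]; norm_num)
  have h13 : Bf Q hQ v₁ v₃ = 0 := hv₃ 0
  have h23 : Bf Q hQ v₂ v₃ = 0 := hv₃ 1
  have h31 : Bf Q hQ v₃ v₁ = 0 := by
    rw [Bf_symm Q hQ v₃ v₁]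
    exact h13
  have h32 : Bf Q hQ v₃ v₂ = 0 := by
    rw [Bf_symm Q hQ v₃ v₂]
    exact h23
  have hex : ∃ (c : F) (a₀ a₁ a₂ : ι → F), c ≠ 0 ∧ a₀ ∈ U ∧ a₁ ∈ U ∧ a₂ ∈ U ∧ Q a₀ = c ∧
      Q a₁ = c ∧ Q a₂ = c ∧ Bf Q hQ a₀ a₁ = 0 ∧ Bf Q hQ a₀ a₂ = 0 ∧ Bf Q hQ a₁ a₂ = 0 := by
    by_cases e21 : Q v₂ = Q v₁
    · exact frame3_key Q hQ hq U v₁ v₂ v₃ hv₁U hv₂U hv₃U hQv₁ hQv₃ e21 h12 h13 h23
    · by_cases e31 : Q v₃ = Q v₁
      · exact frame3_key Q hQ hq U v₁ v₃ v₂ hv₁U hv₃U hv₂U hQv₁ hQv₂ e31 h13 h12 h32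
      · have n2 := neg_of_ne hq (Q v₂) (Q v₁) hQv₂ hQv₁ e21
        have n3 := neg_of_ne hq (Q v₃) (Q v₁) hQv₃ hQv₁ e31
        exact frame3_key Q hQ hq U v₂ v₃ v₁ hv₂U hv₃U hv₁U hQv₂ hQv₁ (n3.trans n2.symm) h23
          h21 h31
  obtain ⟨c, a₀, a₁, a₂, hc, h₀, h₁, h₂, q₀, q₁, q₂, b01, b02, b12⟩ := hex
  refine ⟨c, a₀, a₁, a₂, hc, h₀, h₁, h₂, q₀, q₁, q₂, b01, b02, b12, ?_⟩
  exact span3 Q hQ h2 U a₀ a₁ a₂ h₀ h₁ h₂ (by rw [q₀]; exact hc) (by rw [q₁]; exact hc)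
    (by rw [q₂]; exact hc) b01 b02 b12 hdim

theorem exists_frame2 (hQ : Cfsg.Geo.IsNondegenerateQuadraticForm Q) [Fintype F]
    (hq : Fintype.card F = 3) (U : Submodule F (ι → F))
    (hdim : Module.finrank F U = 2)
    (hnd : Cfsg.Geo.IsNondegenerateOn (QuadraticMap.polar Q) U)
    (hminus : ¬ Cfsg.Geo.IsPlusTypeOn Q U) :
    ∃ (a₀ a₁ : ι → F), a₀ ∈ U ∧ a₁ ∈ U ∧ Q a₀ = 1 ∧ Q a₁ = 1 ∧ Bf Q hQ a₀ a₁ = 0 ∧
      ∀ u ∈ U, ∃ α₀ α₁ : F, u = α₀ • a₀ + α₁ • a₁ := by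
  have h2 := two_ne_zero3 hq
  have h3 := three_eq_zero hq
  obtain ⟨v₁, hv₁U, hQv₁, -⟩ := exists_next Q hQ h2 U hnd 0 (fun m => m.elim0)
    (fun m => m.elim0) (fun m => m.elim0) (fun m => m.elim0) (by rw [hdim]; norm_num)
  obtain ⟨v₂, hv₂U, hQv₂, hv₂⟩ := exists_next Q hQ h2 U hnd 1 (fun _ => v₁) (fun _ => hv₁U)
    (fun _ => hQv₁) (fun m m' hne => absurd (Subsingleton.elim m m') hne)
    (by rw [hdim]; norm_num)
  have h12 : Bf Q hQ v₁ v₂ = 0 := hv₂ 0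
  have h21 : Bf Q hQ v₂ v₁ = 0 := by
    rw [Bf_symm Q hQ v₂ v₁]
    exact h12
  have e21 : Q v₂ = Q v₁ := by
    by_contra hne
    have hneg := neg_of_ne hq (Q v₂) (Q v₁) hQv₂ hQv₁ hne
    have hQs : Q (v₁ + v₂) = 0 := by
      rw [Q_add Q hQ, h12, hneg]
      ring
    have hs0 : v₁ + v₂ ≠ 0 := by
      intro h0
      have h5 : Bf Q hQ v₁ (v₁ + v₂) = 0 := by rw [h0, map_zero]
      rw [map_add, Bf_self, h12, add_zero] at h5
      exact mul_ne_zero h2 hQv₁ h5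
    apply hminus
    refine ⟨Submodule.span F {v₁ + v₂}, ?_, ?_, ?_⟩
    · rw [Submodule.span_le, Set.singleton_subset_iff]
      exact U.add_mem hv₁U hv₂U
    · intro w hw
      obtain ⟨a, rfl⟩ := Submodule.mem_span_singleton.mp hw
      rw [hQ.smul, hQs, mul_zero]
    · rw [finrank_span_singleton hs0, hdim]
  have hex : ∃ (a₀ a₁ : ι → F), a₀ ∈ U ∧ a₁ ∈ U ∧ Q a₀ = 1 ∧ Q a₁ = 1 ∧
      Bf Q hQ a₀ a₁ = 0 := by
    rcases trich hq (Q v₁) with h | h | h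
    · exact absurd h hQv₁
    · exact ⟨v₁, v₂, hv₁U, hv₂U, h, e21.trans h, h12⟩
    · refine ⟨v₁ + v₂, v₁ - v₂, U.add_mem hv₁U hv₂U, U.sub_mem hv₁U hv₂U, ?_, ?_, ?_⟩
      · rw [Q_add Q hQ, e21, h12, h]
        linear_combination (-1 : F) * h3
      · rw [Q_sub Q hQ, e21, h12, h]
        linear_combination (-1 : F) * h3
      · simp only [map_add, map_sub, LinearMap.add_apply, LinearMap.sub_apply, Bf_self, e21,
          h12, h21]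
        ring
  obtain ⟨a₀, a₁, h₀, h₁, q₀, q₁, b01⟩ := hex
  refine ⟨a₀, a₁, h₀, h₁, q₀, q₁, b01, ?_⟩
  exact span2 Q hQ h2 U a₀ a₁ h₀ h₁ (by rw [q₀]; exact one_ne_zero)
    (by rw [q₁]; exact one_ne_zero) b01 hdim

theorem cls3 (hQ : Cfsg.Geo.IsNondegenerateQuadraticForm Q) [Fintype F]
    (hq : Fintype.card F = 3) (c : F) (hc : c ≠ 0) (a₀ a₁ a₂ : ι → F)
    (q₀ : Q a₀ = c) (q₁ : Q a₁ = c) (q₂ : Q a₂ = c)
    (b01 : Bf Q hQ a₀ a₁ = 0) (b02 : Bf Q hQ a₀ a₂ = 0) (b12 : Bf Q hQ a₁ a₂ = 0)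
    (α₀ α₁ α₂ : F) (hv : Q (α₀ • a₀ + α₁ • a₁ + α₂ • a₂) = c) :
    α₀ • a₀ + α₁ • a₁ + α₂ • a₂ = a₀ ∨ α₀ • a₀ + α₁ • a₁ + α₂ • a₂ = -a₀ ∨
    α₀ • a₀ + α₁ • a₁ + α₂ • a₂ = a₁ ∨ α₀ • a₀ + α₁ • a₁ + α₂ • a₂ = -a₁ ∨
    α₀ • a₀ + α₁ • a₁ + α₂ • a₂ = a₂ ∨ α₀ • a₀ + α₁ • a₁ + α₂ • a₂ = -a₂ := by
  have hsum : α₀ ^ 2 + α₁ ^ 2 + α₂ ^ 2 = 1 := by
    have h1 : Q (α₀ • a₀ + α₁ • a₁ + α₂ • a₂) = (α₀ ^ 2 + α₁ ^ 2 + α₂ ^ 2) * c := by
      rw [Q_add_smul Q hQ, Q_add_smul Q hQ, hQ.smul, q₀, q₁, q₂]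
      simp only [map_add, map_smul, LinearMap.add_apply, LinearMap.smul_apply, smul_eq_mul,
        b01, b02, b12]
      ring
    rw [h1] at hv
    have h2 : (α₀ ^ 2 + α₁ ^ 2 + α₂ ^ 2 - 1) * c = 0 := by linear_combination hv
    rcases mul_eq_zero.mp h2 with h3 | h3
    · linear_combination h3
    · exact absurd h3 hc
  by_cases h0 : α₀ = 0
  · by_cases h1 : α₁ = 0
    · have h22 : α₂ ^ 2 = 1 := by
        rw [h0, h1] at hsum
        linear_combination hsum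
      rcases trich hq α₂ with h | h | h
      · exfalso
        rw [h] at h22
        have h5 : (0 : F) = 1 := by linear_combination h22
        exact zero_ne_one h5
      · right; right; right; right; left
        rw [h0, h1, h]
        module
      · right; right; right; right; right
        rw [h0, h1, h]
        module
    · have h12 : α₁ ^ 2 = 1 := sq_of_ne hq α₁ h1
      have h22 : α₂ ^ 2 = 0 := by
        rw [h0, h12] at hsum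
        linear_combination hsum
      have h2' : α₂ = 0 := (pow_eq_zero_iff two_ne_zero).mp h22
      rcases trich hq α₁ with h | h | h
      · exact absurd h h1
      · right; right; left
        rw [h0, h2', h]
        module
      · right; right; right; left
        rw [h0, h2', h]
        module
  · have h02 : α₀ ^ 2 = 1 := sq_of_ne hq α₀ h0
    have h5 : α₁ ^ 2 + α₂ ^ 2 = 0 := by
      rw [h02] at hsum
      linear_combination hsum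
    obtain ⟨h1, h2'⟩ := sumsq0 hq α₁ α₂ h5
    rcases trich hq α₀ with h | h | h
    · exact absurd h h0
    · left
      rw [h1, h2', h]
      module
    · right; left
      rw [h1, h2', h]
      module

theorem cls2 (hQ : Cfsg.Geo.IsNondegenerateQuadraticForm Q) [Fintype F]
    (hq : Fintype.card F = 3) (c : F) (hc : c ≠ 0) (a₀ a₁ : ι → F)
    (q₀ : Q a₀ = c) (q₁ : Q a₁ = c) (b01 : Bf Q hQ a₀ a₁ = 0)
    (α₀ α₁ : F) (hv : Q (α₀ • a₀ + α₁ • a₁) = c) :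
    α₀ • a₀ + α₁ • a₁ = a₀ ∨ α₀ • a₀ + α₁ • a₁ = -a₀ ∨
    α₀ • a₀ + α₁ • a₁ = a₁ ∨ α₀ • a₀ + α₁ • a₁ = -a₁ := by
  have hsum : α₀ ^ 2 + α₁ ^ 2 = 1 := by
    have h1 : Q (α₀ • a₀ + α₁ • a₁) = (α₀ ^ 2 + α₁ ^ 2) * c := by
      rw [Q_add_smul Q hQ, hQ.smul, q₀, q₁]
      simp only [map_smul, LinearMap.smul_apply, smul_eq_mul, b01]
      ring
    rw [h1] at hv
    have h2 : (α₀ ^ 2 + α₁ ^ 2 - 1) * c = 0 := by linear_combination hv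
    rcases mul_eq_zero.mp h2 with h3 | h3
    · linear_combination h3
    · exact absurd h3 hc
  by_cases h0 : α₀ = 0
  · have h12 : α₁ ^ 2 = 1 := by
      rw [h0] at hsum
      linear_combination hsum
    rcases trich hq α₁ with h | h | h
    · exfalso
      rw [h] at h12
      have h5 : (0 : F) = 1 := by linear_combination h12
      exact zero_ne_one h5
    · right; right; left
      rw [h0, h]
      module
    · right; right; right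
      rw [h0, h]
      module
  · have h02 : α₀ ^ 2 = 1 := sq_of_ne hq α₀ h0
    have h12 : α₁ ^ 2 = 0 := by
      rw [h02] at hsum
      linear_combination hsum
    have h1 : α₁ = 0 := (pow_eq_zero_iff two_ne_zero).mp h12
    rcases trich hq α₀ with h | h | h
    · exact absurd h h0
    · left
      rw [h1, h]
      module
    · right; left
      rw [h1, h]
      module

theorem core3_pair (hQ : Cfsg.Geo.IsNondegenerateQuadraticForm Q) [Fintype F]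
    (hq : Fintype.card F = 3) {t : ℕ} (D : Fin t → Submodule F (ι → F))
    (horth : ∀ i j, i ≠ j → ∀ u ∈ D i, ∀ v ∈ D j, Bf Q hQ u v = 0)
    (i j : Fin t) (hij : i ≠ j) (c : F) (hc : c ≠ 0)
    (a₀ a₁ a₂ b₀ b₁ b₂ : ι → F)
    (ha₀ : a₀ ∈ D i) (ha₁ : a₁ ∈ D i) (ha₂ : a₂ ∈ D i)
    (hb₀ : b₀ ∈ D j) (hb₁ : b₁ ∈ D j) (hb₂ : b₂ ∈ D j)
    (qa₀ : Q a₀ = c) (qa₁ : Q a₁ = c) (qa₂ : Q a₂ = c)
    (qb₀ : Q b₀ = c) (qb₁ : Q b₁ = c) (qb₂ : Q b₂ = c)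
    (a01 : Bf Q hQ a₀ a₁ = 0) (a02 : Bf Q hQ a₀ a₂ = 0) (a12 : Bf Q hQ a₁ a₂ = 0)
    (b01 : Bf Q hQ b₀ b₁ = 0) (b02 : Bf Q hQ b₀ b₂ = 0) (b12 : Bf Q hQ b₁ b₂ = 0)
    (hspa : ∀ u ∈ D i, ∃ α₀ α₁ α₂ : F, u = α₀ • a₀ + α₁ • a₁ + α₂ • a₂)
    (hspb : ∀ u ∈ D j, ∃ α₀ α₁ α₂ : F, u = α₀ • b₀ + α₁ • b₁ + α₂ • b₂) :
    ∃ K : Subgroup (Matrix.GeneralLinearGroup ι F),
      Cfsg.Geo.decompositionStabilizer D ⊓ Cfsg.Geo.omegaGL Q < K ∧ K < Cfsg.Geo.omegaGL Q := by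
  have hji : j ≠ i := Ne.symm hij
  refine frame_core Q hQ hq D horth c hc i j hij a₀ a₁ b₀ a₂ b₁ ha₀ ha₁ hb₀ qa₀ qa₁ qb₀ qa₂ qb₁
    a01 a02 (horth i j hij a₀ ha₀ b₁ hb₁) a12 (horth i j hij a₁ ha₁ b₁ hb₁)
    (horth j i hji b₀ hb₀ a₂ ha₂) b01 (horth i j hij a₂ ha₂ b₁ hb₁) ?_ ?_
  · intro v hv hQv
    obtain ⟨α₀, α₁, α₂, rfl⟩ := hspa v hv
    rcases cls3 Q hQ hq c hc a₀ a₁ a₂ qa₀ qa₁ qa₂ a01 a02 a12 α₀ α₁ α₂ hQv with
      h | h | h | h | h | h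
    · left
      exact h
    · right; left
      exact h
    · right; right; left
      exact h
    · right; right; right; left
      exact h
    · right; right; right; right
      rw [h]
      exact ⟨a02, a12⟩
    · right; right; right; right
      rw [h, map_neg, map_neg, a02, a12, neg_zero]
      exact ⟨rfl, rfl⟩
  · intro v hv hQv
    obtain ⟨α₀, α₁, α₂, rfl⟩ := hspb v hv
    rcases cls3 Q hQ hq c hc b₀ b₁ b₂ qb₀ qb₁ qb₂ b01 b02 b12 α₀ α₁ α₂ hQv with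
      h | h | h | h | h | h
    · left
      exact h
    · right; left
      exact h
    · right; right
      rw [h]
      exact b01
    · right; right
      rw [h, map_neg, b01, neg_zero]
    · right; right
      rw [h]
      exact b02
    · right; right
      rw [h, map_neg, b02, neg_zero]

theorem exists_three {t : ℕ} (ht : 3 ≤ t) :
    ∃ i₀ i₁ i₂ : Fin t, i₀ ≠ i₁ ∧ i₀ ≠ i₂ ∧ i₁ ≠ i₂ := by
  refine ⟨⟨0, by omega⟩, ⟨1, by omega⟩, ⟨2, by omega⟩, ?_, ?_, ?_⟩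
  · intro h
    have h' := congrArg Fin.val h
    simp at h'
  · intro h
    have h' := congrArg Fin.val h
    simp at h'
  · intro h
    have h' := congrArg Fin.val h
    simp at h'

/-- Decompositions into non-degenerate 3-spaces over `F₃` (at least three members). -/
theorem core3 (hQ : Cfsg.Geo.IsNondegenerateQuadraticForm Q) [Fintype F]
    (hq : Fintype.card F = 3) {t : ℕ} (D : Fin t → Submodule F (ι → F))
    (hD : Cfsg.Geo.IsOrthogonalMDecomposition Q 3 D) (ht : 3 ≤ t) :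
    ∃ K : Subgroup (Matrix.GeneralLinearGroup ι F),
      Cfsg.Geo.decompositionStabilizer D ⊓ Cfsg.Geo.omegaGL Q < K ∧ K < Cfsg.Geo.omegaGL Q := by
  have horth : ∀ i j, i ≠ j → ∀ u ∈ D i, ∀ v ∈ D j, Bf Q hQ u v = 0 :=
    fun i j hij u hu v hv => hD.decomp.orthogonal i j hij u hu v hv
  have hfr : ∀ i : Fin t, ∃ (c : F) (a₀ a₁ a₂ : ι → F), c ≠ 0 ∧ a₀ ∈ D i ∧ a₁ ∈ D i ∧
      a₂ ∈ D i ∧ Q a₀ = c ∧ Q a₁ = c ∧ Q a₂ = c ∧ Bf Q hQ a₀ a₁ = 0 ∧ Bf Q hQ a₀ a₂ = 0 ∧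
      Bf Q hQ a₁ a₂ = 0 ∧ ∀ u ∈ D i, ∃ α₀ α₁ α₂ : F, u = α₀ • a₀ + α₁ • a₁ + α₂ • a₂ :=
    fun i => exists_frame3 Q hQ hq (D i) (hD.decomp.decomp.finrank_eq i)
      (hD.decomp.nondegenerate i)
  obtain ⟨i₀, i₁, i₂, h01, h02, h12⟩ := exists_three ht
  obtain ⟨c₀, a₀, a₁, a₂, hc₀, ha₀, ha₁, ha₂, qa₀, qa₁, qa₂, a01, a02, a12, hspa⟩ := hfr i₀
  obtain ⟨c₁, b₀, b₁, b₂, hc₁, hb₀, hb₁, hb₂, qb₀, qb₁, qb₂, b01, b02, b12, hspb⟩ := hfr i₁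
  obtain ⟨c₂, d₀, d₁, d₂, hc₂, hd₀, hd₁, hd₂, qd₀, qd₁, qd₂, d01, d02, d12, hspd⟩ := hfr i₂
  by_cases e01 : c₀ = c₁
  · rw [← e01] at qb₀ qb₁ qb₂
    exact core3_pair Q hQ hq D horth i₀ i₁ h01 c₀ hc₀ a₀ a₁ a₂ b₀ b₁ b₂ ha₀ ha₁ ha₂ hb₀ hb₁ hb₂
      qa₀ qa₁ qa₂ qb₀ qb₁ qb₂ a01 a02 a12 b01 b02 b12 hspa hspb
  · by_cases e02 : c₀ = c₂
    · rw [← e02] at qd₀ qd₁ qd₂
      exact core3_pair Q hQ hq D horth i₀ i₂ h02 c₀ hc₀ a₀ a₁ a₂ d₀ d₁ d₂ ha₀ ha₁ ha₂ hd₀ hd₁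
        hd₂ qa₀ qa₁ qa₂ qd₀ qd₁ qd₂ a01 a02 a12 d01 d02 d12 hspa hspd
    · have n1 : c₁ = -c₀ := neg_of_ne hq c₁ c₀ hc₁ hc₀ (Ne.symm e01)
      have n2 : c₂ = -c₀ := neg_of_ne hq c₂ c₀ hc₂ hc₀ (Ne.symm e02)
      have e12 : c₁ = c₂ := n1.trans n2.symm
      rw [← e12] at qd₀ qd₁ qd₂
      exact core3_pair Q hQ hq D horth i₁ i₂ h12 c₁ hc₁ b₀ b₁ b₂ d₀ d₁ d₂ hb₀ hb₁ hb₂ hd₀ hd₁
        hd₂ qb₀ qb₁ qb₂ qd₀ qd₁ qd₂ b01 b02 b12 d01 d02 d12 hspb hspd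

/-- Decompositions into anisotropic planes over `F₃` (at least three members). -/
theorem core2 (hQ : Cfsg.Geo.IsNondegenerateQuadraticForm Q) [Fintype F]
    (hq : Fintype.card F = 3) {t : ℕ} (D : Fin t → Submodule F (ι → F))
    (hD : Cfsg.Geo.IsOrthogonalMDecomposition Q 2 D)
    (hminus : ∀ i, ¬ Cfsg.Geo.IsPlusTypeOn Q (D i)) (ht : 3 ≤ t) :
    ∃ K : Subgroup (Matrix.GeneralLinearGroup ι F),
      Cfsg.Geo.decompositionStabilizer D ⊓ Cfsg.Geo.omegaGL Q < K ∧ K < Cfsg.Geo.omegaGL Q := by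
  have horth : ∀ i j, i ≠ j → ∀ u ∈ D i, ∀ v ∈ D j, Bf Q hQ u v = 0 :=
    fun i j hij u hu v hv => hD.decomp.orthogonal i j hij u hu v hv
  have hfr : ∀ i : Fin t, ∃ (a₀ a₁ : ι → F), a₀ ∈ D i ∧ a₁ ∈ D i ∧ Q a₀ = 1 ∧ Q a₁ = 1 ∧
      Bf Q hQ a₀ a₁ = 0 ∧ ∀ u ∈ D i, ∃ α₀ α₁ : F, u = α₀ • a₀ + α₁ • a₁ :=
    fun i => exists_frame2 Q hQ hq (D i) (hD.decomp.decomp.finrank_eq i)
      (hD.decomp.nondegenerate i) (hminus i)
  obtain ⟨i₀, i₁, i₂, h01, h02, h12⟩ := exists_three ht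
  obtain ⟨u₀, u₁, hu₀, hu₁, qu₀, qu₁, u01, hspu⟩ := hfr i₀
  obtain ⟨w₀, w₁, hw₀, hw₁, qw₀, qw₁, w01, hspw⟩ := hfr i₁
  obtain ⟨z₀, z₁, hz₀, hz₁, qz₀, qz₁, z01, hspz⟩ := hfr i₂
  refine frame_core Q hQ hq D horth 1 one_ne_zero i₀ i₁ h01 u₀ u₁ w₀ w₁ z₀ hu₀ hu₁ hw₀
    qu₀ qu₁ qw₀ qw₁ qz₀
    u01 (horth i₀ i₁ h01 u₀ hu₀ w₁ hw₁) (horth i₀ i₂ h02 u₀ hu₀ z₀ hz₀)
    (horth i₀ i₁ h01 u₁ hu₁ w₁ hw₁) (horth i₀ i₂ h02 u₁ hu₁ z₀ hz₀)
    w01 (horth i₁ i₂ h12 w₀ hw₀ z₀ hz₀) (horth i₁ i₂ h12 w₁ hw₁ z₀ hz₀) ?_ ?_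
  · intro v hv hQv
    obtain ⟨α₀, α₁, rfl⟩ := hspu v hv
    rcases cls2 Q hQ hq 1 one_ne_zero u₀ u₁ qu₀ qu₁ u01 α₀ α₁ hQv with h | h | h | h
    · left
      exact h
    · right; left
      exact h
    · right; right; left
      exact h
    · right; right; right; left
      exact h
  · intro v hv hQv
    obtain ⟨α₀, α₁, rfl⟩ := hspw v hv
    rcases cls2 Q hQ hq 1 one_ne_zero w₀ w₁ qw₀ qw₁ w01 α₀ α₁ hQv with h | h | h | h
    · left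
      exact h
    · right; left
      exact h
    · right; right
      rw [h]
      exact w01
    · right; right
      rw [h, map_neg, w01, neg_zero]

end quad

end Cfsg.Agent.Helper4.OrthFrame
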