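import Mathlib
import Cfsg.Prelude.Def_GeometricClasses
import Cfsg.Agent.Helper4.OrthPlane
import Cfsg.Agent.Helper4.OrthFrame

set_option autoImplicit false
open Cfsg

namespace Cfsg.Agent.Helper4.TensorO3

open Matrix Cfsg.Agent.Helper4.OrthPlane Cfsg.Agent.Helper4.OrthFrame
open scoped Kronecker

variable {ι : Type} [Fintype ι] [DecidableEq ι] {F : Type*} [Field F] {n₁ n₂ : ℕ}

/-- Pure tensors in coordinates. -/
def pt (u : Fin n₁ → F) (w : Fin n₂ → F) : Fin n₁ × Fin n₂ → F := fun a => u a.1 * w a.2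

theorem pt_add_right (u : Fin n₁ → F) (w w' : Fin n₂ → F) :
    pt u (w + w') = pt u w + pt u w' := by
  funext a
  simp only [pt, Pi.add_apply]
  ring

theorem pt_sub_right (u : Fin n₁ → F) (w w' : Fin n₂ → F) :
    pt u (w - w') = pt u w - pt u w' := by
  funext a
  simp only [pt, Pi.sub_apply]
  ring

theorem pt_smul_right (c : F) (u : Fin n₁ → F) (w : Fin n₂ → F) :
    pt u (c • w) = c • pt u w := by
  funext a
  simp only [pt, Pi.smul_apply, smul_eq_mul]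
  ring

theorem pt_neg_left (u : Fin n₁ → F) (w : Fin n₂ → F) : pt (-u) w = pt u (-w) := by
  funext a
  simp only [pt, Pi.neg_apply]
  ring

theorem pt_add_left (u u' : Fin n₁ → F) (w : Fin n₂ → F) :
    pt (u + u') w = pt u w + pt u' w := by
  funext a
  simp only [pt, Pi.add_apply]
  ring

theorem pt_sub_left (u u' : Fin n₁ → F) (w : Fin n₂ → F) :
    pt (u - u') w = pt u w - pt u' w := by
  funext a
  simp only [pt, Pi.sub_apply]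
  ring

theorem pt_smul_left (c : F) (u : Fin n₁ → F) (w : Fin n₂ → F) :
    pt (c • u) w = c • pt u w := by
  funext a
  simp only [pt, Pi.smul_apply, smul_eq_mul]
  ring

/-- The coordinate embedding of the tensor space. -/
def Phi (e : ι ≃ Fin n₁ × Fin n₂) (P : Matrix.GeneralLinearGroup ι F)
    (x : Fin n₁ × Fin n₂ → F) : ι → F :=
  (P : Matrix ι ι F) *ᵥ (x ∘ e)

theorem Phi_add (e : ι ≃ Fin n₁ × Fin n₂) (P : Matrix.GeneralLinearGroup ι F)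
    (x y : Fin n₁ × Fin n₂ → F) : Phi e P (x + y) = Phi e P x + Phi e P y := by
  unfold Phi
  rw [← Matrix.mulVec_add]
  rfl

theorem Phi_sub (e : ι ≃ Fin n₁ × Fin n₂) (P : Matrix.GeneralLinearGroup ι F)
    (x y : Fin n₁ × Fin n₂ → F) : Phi e P (x - y) = Phi e P x - Phi e P y := by
  unfold Phi
  rw [← Matrix.mulVec_sub]
  rfl

theorem Phi_smul (e : ι ≃ Fin n₁ × Fin n₂) (P : Matrix.GeneralLinearGroup ι F) (c : F)
    (x : Fin n₁ × Fin n₂ → F) : Phi e P (c • x) = c • Phi e P x := by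
  unfold Phi
  rw [← Matrix.mulVec_smul]
  rfl

theorem Phi_inj (e : ι ≃ Fin n₁ × Fin n₂) (P : Matrix.GeneralLinearGroup ι F)
    (x y : Fin n₁ × Fin n₂ → F) (h : Phi e P x = Phi e P y) : x = y := by
  unfold Phi at h
  have h1 := congrArg (fun v => ((P⁻¹ : Matrix.GeneralLinearGroup ι F) : Matrix ι ι F) *ᵥ v) h
  simp only [Matrix.mulVec_mulVec, ← Units.val_mul, inv_mul_cancel, Units.val_one,
    Matrix.one_mulVec] at h1
  funext a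
  have h2 := congrFun h1 (e.symm a)
  simpa using h2

theorem kron_pt (a : Matrix (Fin n₁) (Fin n₁) F) (b : Matrix (Fin n₂) (Fin n₂) F)
    (u : Fin n₁ → F) (w : Fin n₂ → F) :
    (a ⊗ₖ b) *ᵥ pt u w = pt (a *ᵥ u) (b *ᵥ w) := by
  funext ⟨i, j⟩
  show ∑ p : Fin n₁ × Fin n₂, (a ⊗ₖ b) (i, j) p * pt u w p
    = (∑ i', a i i' * u i') * (∑ j', b j j' * w j')
  rw [Fintype.sum_prod_type, Finset.sum_mul_sum]
  apply Finset.sum_congr rfl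
  intro i' _
  apply Finset.sum_congr rfl
  intro j' _
  simp only [pt, Matrix.kroneckerMap_apply]
  ring

theorem mem_tensor (e : ι ≃ Fin n₁ × Fin n₂) (P : Matrix.GeneralLinearGroup ι F)
    (g : Matrix.GeneralLinearGroup ι F)
    (hg : g ∈ Cfsg.Geo.tensorProductSubgroup n₁ n₂ e P) :
    ∃ (a : Matrix.GeneralLinearGroup (Fin n₁) F) (b : Matrix.GeneralLinearGroup (Fin n₂) F),
      ∀ x : Fin n₁ × Fin n₂ → F, (g : Matrix ι ι F) *ᵥ Phi e P x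
        = Phi e P (((a : Matrix (Fin n₁) (Fin n₁) F) ⊗ₖ (b : Matrix (Fin n₂) (Fin n₂) F)) *ᵥ x) := by
  obtain ⟨h, hh, hgh⟩ := Subgroup.mem_map.mp hg
  obtain ⟨k, ⟨a, b, hk⟩, hkh⟩ := Subgroup.mem_map.mp hh
  refine ⟨a, b, fun x => ?_⟩
  have hgv : g = P * (Cfsg.Geo.glReindex e.symm k) * P⁻¹ := by
    rw [← hgh, ← hkh]
    rfl
  have h1 : (g : Matrix ι ι F) * (P : Matrix ι ι F)
      = (P : Matrix ι ι F) *
        ((k : Matrix (Fin n₁ × Fin n₂) (Fin n₁ × Fin n₂) F).submatrix e e) := by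
    rw [hgv, ← Units.val_mul, inv_mul_cancel_right, Units.val_mul]
    rfl
  have h2 : (x ∘ e) ∘ e.symm = x := by
    funext a
    simp
  unfold Phi
  rw [Matrix.mulVec_mulVec, h1, ← Matrix.mulVec_mulVec, Matrix.submatrix_mulVec_equiv, hk, h2]

/-- A bilinear form as a bundled bilinear map. -/
noncomputable def bl {κ : Type} [Fintype κ] (f : (κ → F) → (κ → F) → F)
    (hf : Cfsg.Geo.IsBilinearForm f) : (κ → F) →ₗ[F] (κ → F) →ₗ[F] F :=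
  LinearMap.mk₂ F f hf.add_left
    (fun c m n => by rw [smul_eq_mul]; exact hf.smul_left c m n)
    hf.add_right
    (fun c m n => by rw [smul_eq_mul]; exact hf.smul_right c m n)

theorem f_zero_left {κ : Type} [Fintype κ] (f : (κ → F) → (κ → F) → F)
    (hf : Cfsg.Geo.IsBilinearForm f) (v : κ → F) : f 0 v = 0 := by
  have h := hf.smul_left 0 0 v
  rwa [zero_smul, zero_mul] at h

theorem gram_form {κ : Type} [Fintype κ] [DecidableEq κ] (f : (κ → F) → (κ → F) → F)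
    (hf : Cfsg.Geo.IsBilinearForm f) (u u' : κ → F) :
    Cfsg.Geo.formOfGram id (Cfsg.Geo.gramMatrix f) u u' = f u u' := by
  have hs : ∀ i : κ, (fun j => if i = j then (1 : F) else 0) = Pi.single i 1 := by
    intro i
    funext j
    rw [Pi.single_apply]
    simp only [eq_comm]
  have h1 : f u u' = ∑ i, u i * f (Pi.single i 1) u' := by
    have h := LinearMap.pi_apply_eq_sum_univ ((bl f hf).flip u') u
    simp only [LinearMap.flip_apply, smul_eq_mul, hs] at h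
    exact h
  have h2 : ∀ i, f (Pi.single i 1) u' = ∑ j, u' j * f (Pi.single i 1) (Pi.single j 1) := by
    intro i
    have h := LinearMap.pi_apply_eq_sum_univ (bl f hf (Pi.single i 1)) u'
    simp only [smul_eq_mul, hs] at h
    exact h
  unfold Cfsg.Geo.formOfGram Cfsg.Geo.gramMatrix
  rw [h1]
  apply Finset.sum_congr rfl
  intro i _
  rw [h2 i, Finset.mul_sum]
  apply Finset.sum_congr rfl
  intro j _
  simp only [id_eq]
  ring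

theorem kron_form (G₁ : Matrix (Fin n₁) (Fin n₁) F) (G₂ : Matrix (Fin n₂) (Fin n₂) F)
    (u u' : Fin n₁ → F) (w w' : Fin n₂ → F) :
    Cfsg.Geo.formOfGram id (G₁ ⊗ₖ G₂) (pt u w) (pt u' w')
      = Cfsg.Geo.formOfGram id G₁ u u' * Cfsg.Geo.formOfGram id G₂ w w' := by
  unfold Cfsg.Geo.formOfGram
  simp only [Fintype.sum_prod_type, pt, Matrix.kroneckerMap_apply, id_eq]
  rw [Finset.sum_mul_sum]
  apply Finset.sum_congr rfl
  intro i _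
  apply Finset.sum_congr rfl
  intro j _
  rw [Finset.sum_mul_sum]
  apply Finset.sum_congr rfl
  intro i' _
  apply Finset.sum_congr rfl
  intro j' _
  ring

/-- Tensor vectors. -/
def TP (e : ι ≃ Fin n₁ × Fin n₂) (P : Matrix.GeneralLinearGroup ι F) (u : Fin n₁ → F)
    (w : Fin n₂ → F) : ι → F :=
  Phi e P (pt u w)

theorem TP_add_right (e : ι ≃ Fin n₁ × Fin n₂) (P : Matrix.GeneralLinearGroup ι F)
    (u : Fin n₁ → F) (w w' : Fin n₂ → F) :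
    TP e P u (w + w') = TP e P u w + TP e P u w' := by
  unfold TP
  rw [pt_add_right, Phi_add]

theorem TP_sub_right (e : ι ≃ Fin n₁ × Fin n₂) (P : Matrix.GeneralLinearGroup ι F)
    (u : Fin n₁ → F) (w w' : Fin n₂ → F) :
    TP e P u (w - w') = TP e P u w - TP e P u w' := by
  unfold TP
  rw [pt_sub_right, Phi_sub]

theorem TP_smul_right (e : ι ≃ Fin n₁ × Fin n₂) (P : Matrix.GeneralLinearGroup ι F) (c : F)
    (u : Fin n₁ → F) (w : Fin n₂ → F) :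
    TP e P u (c • w) = c • TP e P u w := by
  unfold TP
  rw [pt_smul_right, Phi_smul]

theorem TP_add_left (e : ι ≃ Fin n₁ × Fin n₂) (P : Matrix.GeneralLinearGroup ι F)
    (u u' : Fin n₁ → F) (w : Fin n₂ → F) :
    TP e P (u + u') w = TP e P u w + TP e P u' w := by
  unfold TP
  rw [pt_add_left, Phi_add]

theorem TP_sub_left (e : ι ≃ Fin n₁ × Fin n₂) (P : Matrix.GeneralLinearGroup ι F)
    (u u' : Fin n₁ → F) (w : Fin n₂ → F) :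
    TP e P (u - u') w = TP e P u w - TP e P u' w := by
  unfold TP
  rw [pt_sub_left, Phi_sub]

theorem TP_smul_left (e : ι ≃ Fin n₁ × Fin n₂) (P : Matrix.GeneralLinearGroup ι F) (c : F)
    (u : Fin n₁ → F) (w : Fin n₂ → F) :
    TP e P (c • u) w = c • TP e P u w := by
  unfold TP
  rw [pt_smul_left, Phi_smul]

theorem TP_neg_left (e : ι ≃ Fin n₁ × Fin n₂) (P : Matrix.GeneralLinearGroup ι F)
    (u : Fin n₁ → F) (w : Fin n₂ → F) : TP e P (-u) w = TP e P u (-w) := by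
  unfold TP
  rw [pt_neg_left]

theorem TP_coord (e : ι ≃ Fin n₁ × Fin n₂) (P : Matrix.GeneralLinearGroup ι F)
    {u u' : Fin n₁ → F} {w w' : Fin n₂ → F} (h : TP e P u w = TP e P u' w') (i : Fin n₁)
    (j : Fin n₂) : u i * w j = u' i * w' j := by
  have h1 := Phi_inj e P _ _ h
  exact congrFun h1 (i, j)

theorem mem_tensor' (e : ι ≃ Fin n₁ × Fin n₂) (P : Matrix.GeneralLinearGroup ι F)
    (g : Matrix.GeneralLinearGroup ι F)
    (hg : g ∈ Cfsg.Geo.tensorProductSubgroup n₁ n₂ e P) :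
    ∃ (a : Matrix (Fin n₁) (Fin n₁) F) (b : Matrix (Fin n₂) (Fin n₂) F), a.det ≠ 0 ∧
      b.det ≠ 0 ∧
      ∀ (u : Fin n₁ → F) (w : Fin n₂ → F),
        (g : Matrix ι ι F) *ᵥ TP e P u w = TP e P (a *ᵥ u) (b *ᵥ w) := by
  obtain ⟨a, b, hab⟩ := mem_tensor e P g hg
  refine ⟨a, b, ((Matrix.isUnit_iff_isUnit_det _).mp a.isUnit).ne_zero,
    ((Matrix.isUnit_iff_isUnit_det _).mp b.isUnit).ne_zero, fun u w => ?_⟩
  unfold TP
  rw [hab, kron_pt]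

theorem tensor_form (e : ι ≃ Fin n₁ × Fin n₂) (P : Matrix.GeneralLinearGroup ι F)
    (f : (ι → F) → (ι → F) → F)
    (f₁ : (Fin n₁ → F) → (Fin n₁ → F) → F) (f₂ : (Fin n₂ → F) → (Fin n₂ → F) → F)
    (hf₁ : Cfsg.Geo.IsBilinearForm f₁) (hf₂ : Cfsg.Geo.IsBilinearForm f₂)
    (hT : Cfsg.Geo.IsTensorFormStructure id f f₁ f₂ e P) :
    ∃ c : F, c ≠ 0 ∧ ∀ (u : Fin n₁ → F) (w : Fin n₂ → F) (u' : Fin n₁ → F) (w' : Fin n₂ → F),
      f (TP e P u w) (TP e P u' w') = c * (f₁ u u' * f₂ w w') := by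
  obtain ⟨c, hc, h⟩ := hT
  refine ⟨c, hc, fun u w u' w' => ?_⟩
  rw [← gram_form f₁ hf₁, ← gram_form f₂ hf₂, ← kron_form]
  exact h (pt u w) (pt u' w')

theorem polar_symm {κ : Type} [Fintype κ] (f : (κ → F) → (κ → F) → F)
    (hf : Cfsg.Geo.IsSymmetricForm f) (u v : κ → F) :
    QuadraticMap.polar (fun v => f v v) u v = 2 * f u v := by
  unfold QuadraticMap.polar
  show f (u + v) (u + v) - f u u - f v v = 2 * f u v
  rw [hf.bilinear.add_left, hf.bilinear.add_right, hf.bilinear.add_right, hf.symm v u]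
  ring

theorem qf_of_symm {κ : Type} [Fintype κ] (f : (κ → F) → (κ → F) → F)
    (hf : Cfsg.Geo.IsSymmetricForm f) (h2 : (2 : F) ≠ 0) :
    Cfsg.Geo.IsNondegenerateQuadraticForm (fun v => f v v) := by
  have hp : QuadraticMap.polar (fun v : κ → F => f v v) = fun u v => 2 * f u v := by
    funext u v
    exact polar_symm f hf u v
  refine ⟨?_, ?_, ?_⟩
  · intro c v
    show f (c • v) (c • v) = c ^ 2 * f v v
    rw [hf.bilinear.smul_left, hf.bilinear.smul_right]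
    ring
  · rw [hp]
    refine ⟨?_, ?_, ?_, ?_⟩
    · intro x y v
      show 2 * f (x + y) v = 2 * f x v + 2 * f y v
      rw [hf.bilinear.add_left]
      ring
    · intro c x v
      show 2 * f (c • x) v = c * (2 * f x v)
      rw [hf.bilinear.smul_left]
      ring
    · intro v x y
      show 2 * f v (x + y) = 2 * f v x + 2 * f v y
      rw [hf.bilinear.add_right]
      ring
    · intro c v x
      show 2 * f v (c • x) = c * (2 * f v x)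
      rw [hf.bilinear.smul_right]
      ring
  · rw [hp]
    intro v hv
    obtain ⟨⟨x, hx⟩, ⟨y, hy⟩⟩ := hf.nondegenerate v hv
    exact ⟨⟨x, mul_ne_zero h2 hx⟩, ⟨y, mul_ne_zero h2 hy⟩⟩

theorem orth_of_Bf {κ : Type} [Fintype κ] [DecidableEq κ] (f : (κ → F) → (κ → F) → F)
    (hf : Cfsg.Geo.IsSymmetricForm f) (h2 : (2 : F) ≠ 0)
    (hQf : Cfsg.Geo.IsNondegenerateQuadraticForm (fun v => f v v)) (u v : κ → F)
    (h : Bf (fun v => f v v) hQf u v = 0) : f u v = 0 := by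
  rw [Bf_apply, polar_symm f hf] at h
  exact (mul_eq_zero.mp h).resolve_left h2

theorem nd_top (Q : (ι → F) → F) (hQ : Cfsg.Geo.IsNondegenerateQuadraticForm Q) :
    Cfsg.Geo.IsNondegenerateOn (QuadraticMap.polar Q) ⊤ := by
  intro w _ hw
  obtain ⟨⟨x, hx⟩, ⟨y, hy⟩⟩ := hQ.nondegenerate w hw
  exact ⟨⟨x, Submodule.mem_top, hx⟩, ⟨y, Submodule.mem_top, hy⟩⟩

theorem gram_dot {κ : Type} [Fintype κ] [DecidableEq κ] (f : (κ → F) → (κ → F) → F)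
    (hf : Cfsg.Geo.IsBilinearForm f) (u u' : κ → F) :
    f u u' = u ⬝ᵥ (Cfsg.Geo.gramMatrix f *ᵥ u') := by
  rw [← gram_form f hf u u']
  unfold Cfsg.Geo.formOfGram
  show ∑ a, ∑ b, u a * Cfsg.Geo.gramMatrix f a b * id (u' b)
    = ∑ a, u a * ∑ b, Cfsg.Geo.gramMatrix f a b * u' b
  apply Finset.sum_congr rfl
  intro a _
  rw [Finset.mul_sum]
  apply Finset.sum_congr rfl
  intro b _
  simp only [id_eq]
  ring

theorem entry_ext {κ : Type} [Fintype κ] [DecidableEq κ] (M₁ M₂ : Matrix κ κ F)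
    (h : ∀ u u' : κ → F, u ⬝ᵥ (M₁ *ᵥ u') = u ⬝ᵥ (M₂ *ᵥ u')) : M₁ = M₂ := by
  ext i j
  have h1 := h (Pi.single i 1) (Pi.single j 1)
  simpa [Matrix.mulVec, dotProduct, Pi.single_apply] using h1

/-- A similitude of a 3-dimensional symmetric form over `F₃` is an isometry. -/
theorem simil_one [Fintype F] (hq : Fintype.card F = 3) (f : (Fin 3 → F) → (Fin 3 → F) → F)
    (hf : Cfsg.Geo.IsSymmetricForm f) (A : Matrix (Fin 3) (Fin 3) F) (hA : A.det ≠ 0) (μ : F)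
    (hμ : μ ≠ 0) (h : ∀ u u' : Fin 3 → F, f (A *ᵥ u) (A *ᵥ u') = μ * f u u') : μ = 1 := by
  obtain ⟨G, hG⟩ : ∃ G : Matrix (Fin 3) (Fin 3) F, G = Cfsg.Geo.gramMatrix f := ⟨_, rfl⟩
  have hGf : ∀ u u' : Fin 3 → F, f u u' = u ⬝ᵥ (G *ᵥ u') := by
    intro u u'
    rw [hG]
    exact gram_dot f hf.bilinear u u'
  have hdet : G.det ≠ 0 := by
    intro h0
    obtain ⟨v, hv0, hv⟩ := Matrix.exists_mulVec_eq_zero_iff.mpr h0
    obtain ⟨x, hx⟩ := (hf.nondegenerate v hv0).1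
    apply hx
    rw [hGf, hv, dotProduct_zero]
  have hmat : Aᵀ * G * A = μ • G := by
    apply entry_ext
    intro u u'
    have h1 := h u u'
    rw [hGf, hGf] at h1
    rw [← Matrix.mulVec_mulVec, ← Matrix.mulVec_mulVec, Matrix.dotProduct_mulVec u Aᵀ,
      Matrix.vecMul_transpose, h1, Matrix.smul_mulVec, dotProduct_smul, smul_eq_mul]
  have h3 := congrArg Matrix.det hmat
  rw [Matrix.det_mul, Matrix.det_mul, Matrix.det_transpose, Matrix.det_smul,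
    Fintype.card_fin] at h3
  have h4 : A.det ^ 2 = μ ^ 3 := by
    have h5 : (A.det ^ 2 - μ ^ 3) * G.det = 0 := by linear_combination h3
    rcases mul_eq_zero.mp h5 with h6 | h6
    · linear_combination h6
    · exact absurd h6 hdet
  have h5 : A.det ^ 2 = 1 := sq_of_ne hq _ hA
  have h6 : μ ^ 2 = 1 := sq_of_ne hq μ hμ
  have h7 : μ ^ 3 = 1 := by rw [← h4, h5]
  linear_combination h7 - μ * h6

section quad

variable (Q : (ι → F) → F)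

theorem exists_orth3 (hQ : Cfsg.Geo.IsNondegenerateQuadraticForm Q) [Fintype F]
    (hq : Fintype.card F = 3) (U : Submodule F (ι → F))
    (hdim : 3 ≤ Module.finrank F U)
    (hnd : Cfsg.Geo.IsNondegenerateOn (QuadraticMap.polar Q) U) :
    ∃ (c : F) (a₀ a₁ a₂ : ι → F), c ≠ 0 ∧ a₀ ∈ U ∧ a₁ ∈ U ∧ a₂ ∈ U ∧ Q a₀ = c ∧ Q a₁ = c ∧
      Q a₂ = c ∧ Bf Q hQ a₀ a₁ = 0 ∧ Bf Q hQ a₀ a₂ = 0 ∧ Bf Q hQ a₁ a₂ = 0 := by
  have h2 := two_ne_zero3 hq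
  obtain ⟨v₁, hv₁U, hQv₁, -⟩ := exists_next Q hQ h2 U hnd 0 (fun m => m.elim0)
    (fun m => m.elim0) (fun m => m.elim0) (fun m => m.elim0) (by omega)
  obtain ⟨v₂, hv₂U, hQv₂, hv₂⟩ := exists_next Q hQ h2 U hnd 1 (fun _ => v₁) (fun _ => hv₁U)
    (fun _ => hQv₁) (fun m m' hne => absurd (Subsingleton.elim m m') hne) (by omega)
  have h12 : Bf Q hQ v₁ v₂ = 0 := hv₂ 0
  have h21 : Bf Q hQ v₂ v₁ = 0 := by
    rw [Bf_symm Q hQ v₂ v₁]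
    exact h12
  obtain ⟨v₃, hv₃U, hQv₃, hv₃⟩ := exists_next Q hQ h2 U hnd 2 ![v₁, v₂]
    (by intro m; fin_cases m; exact hv₁U; exact hv₂U)
    (by intro m; fin_cases m; exact hQv₁; exact hQv₂)
    (by
      intro m m' hne
      fin_cases m <;> fin_cases m'
      · exact absurd rfl hne
      · exact h12
      · exact h21
      · exact absurd rfl hne) (by omega)
  have h13 : Bf Q hQ v₁ v₃ = 0 := hv₃ 0
  have h23 : Bf Q hQ v₂ v₃ = 0 := hv₃ 1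
  have h31 : Bf Q hQ v₃ v₁ = 0 := by
    rw [Bf_symm Q hQ v₃ v₁]
    exact h13
  have h32 : Bf Q hQ v₃ v₂ = 0 := by
    rw [Bf_symm Q hQ v₃ v₂]
    exact h23
  by_cases e21 : Q v₂ = Q v₁
  · exact frame3_key Q hQ hq U v₁ v₂ v₃ hv₁U hv₂U hv₃U hQv₁ hQv₃ e21 h12 h13 h23
  · by_cases e31 : Q v₃ = Q v₁
    · exact frame3_key Q hQ hq U v₁ v₃ v₂ hv₁U hv₃U hv₂U hQv₁ hQv₂ e31 h13 h12 h32
    · have n2 := neg_of_ne hq (Q v₂) (Q v₁) hQv₂ hQv₁ e21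
      have n3 := neg_of_ne hq (Q v₃) (Q v₁) hQv₃ hQv₁ e31
      exact frame3_key Q hQ hq U v₂ v₃ v₁ hv₂U hv₃U hv₁U hQv₂ hQv₁ (n3.trans n2.symm) h23
        h21 h31

/-- The `3`-cycle on three pairwise orthogonal vectors of the same non-zero value, as an element
of `Ω`. -/
theorem three_cycle (hQ : Cfsg.Geo.IsNondegenerateQuadraticForm Q) (h2 : (2 : F) ≠ 0)
    (c : F) (hc : c ≠ 0) (p₁ p₂ p₃ : ι → F)
    (hQ₁ : Q p₁ = c) (hQ₂ : Q p₂ = c) (hQ₃ : Q p₃ = c)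
    (h12 : Bf Q hQ p₁ p₂ = 0) (h13 : Bf Q hQ p₁ p₃ = 0) (h23 : Bf Q hQ p₂ p₃ = 0) :
    ∃ g : Matrix.GeneralLinearGroup ι F, g ∈ Cfsg.Geo.omegaGL Q ∧
      (g : Matrix ι ι F) *ᵥ p₁ = p₂ ∧ (g : Matrix ι ι F) *ᵥ p₂ = p₃ ∧
      (g : Matrix ι ι F) *ᵥ p₃ = p₁ ∧
      (∀ z, Bf Q hQ p₁ z = 0 → Bf Q hQ p₂ z = 0 → Bf Q hQ p₃ z = 0 →
        (g : Matrix ι ι F) *ᵥ z = z) ∧
      (∀ u, (g : Matrix ι ι F) *ᵥ u = R Q hQ (p₁ - p₃) *ᵥ (R Q hQ (p₃ - p₂) *ᵥ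
        (R Q hQ (p₁ - p₃) *ᵥ (R Q hQ (p₃ - p₂) *ᵥ u)))) := by
  have h2c : (2 : F) * c ≠ 0 := mul_ne_zero h2 hc
  have h21 : Bf Q hQ p₂ p₁ = 0 := by
    rw [Bf_symm Q hQ p₂ p₁]
    exact h12
  have h31 : Bf Q hQ p₃ p₁ = 0 := by
    rw [Bf_symm Q hQ p₃ p₁]
    exact h13
  have h32 : Bf Q hQ p₃ p₂ = 0 := by
    rw [Bf_symm Q hQ p₃ p₂]
    exact h23
  have hQ13 : Q (p₁ - p₃) ≠ 0 := by
    rw [Q_diff Q hQ p₁ p₃ c hQ₁ hQ₃ h13]
    exact h2c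
  have hQ32 : Q (p₃ - p₂) ≠ 0 := by
    rw [Q_diff Q hQ p₃ p₂ c hQ₃ hQ₂ h32]
    exact h2c
  obtain ⟨g₁, hg₁def⟩ : ∃ g₁ : Matrix.GeneralLinearGroup ι F,
      g₁ = rG Q hQ (p₁ - p₃) hQ13 * rG Q hQ (p₃ - p₂) hQ32 * (rG Q hQ (p₁ - p₃) hQ13)⁻¹
        * (rG Q hQ (p₃ - p₂) hQ32)⁻¹ := ⟨_, rfl⟩
  have hg₁val : ∀ u, (g₁ : Matrix ι ι F) *ᵥ u
      = R Q hQ (p₁ - p₃) *ᵥ (R Q hQ (p₃ - p₂) *ᵥ (R Q hQ (p₁ - p₃) *ᵥ
          (R Q hQ (p₃ - p₂) *ᵥ u))) := by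
    intro u
    rw [hg₁def]
    show (R Q hQ (p₁ - p₃) * R Q hQ (p₃ - p₂) * R Q hQ (p₁ - p₃) * R Q hQ (p₃ - p₂)) *ᵥ u = _
    simp only [← Matrix.mulVec_mulVec]
  have hg₁Ω : g₁ ∈ Cfsg.Geo.omegaGL Q := by
    rw [hg₁def]
    exact comm_mem_omega Q _ _ (rG_mem Q hQ _ hQ13) (rG_mem Q hQ _ hQ32)
  have a1 : R Q hQ (p₁ - p₃) *ᵥ p₁ = p₃ := swap_left Q hQ h2 p₁ p₃ c hc hQ₁ hQ₃ h13
  have a3 : R Q hQ (p₁ - p₃) *ᵥ p₃ = p₁ := swap_right Q hQ h2 p₁ p₃ c hc hQ₁ hQ₃ h13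
  have a2 : R Q hQ (p₁ - p₃) *ᵥ p₂ = p₂ := swap_fix Q hQ p₁ p₃ p₂ h12 h32
  have b3 : R Q hQ (p₃ - p₂) *ᵥ p₃ = p₂ := swap_left Q hQ h2 p₃ p₂ c hc hQ₃ hQ₂ h32
  have b2 : R Q hQ (p₃ - p₂) *ᵥ p₂ = p₃ := swap_right Q hQ h2 p₃ p₂ c hc hQ₃ hQ₂ h32
  have b1 : R Q hQ (p₃ - p₂) *ᵥ p₁ = p₁ := swap_fix Q hQ p₃ p₂ p₁ h31 h21
  refine ⟨g₁, hg₁Ω, ?_, ?_, ?_, ?_, hg₁val⟩
  · rw [hg₁val, b1, a1, b3, a2]
  · rw [hg₁val, b2, a3, b1, a1]
  · rw [hg₁val, b3, a2, b2, a3]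
  · intro z hz1 hz2 hz3
    rw [hg₁val, swap_fix Q hQ p₃ p₂ z hz3 hz2, swap_fix Q hQ p₁ p₃ z hz1 hz3,
      swap_fix Q hQ p₃ p₂ z hz3 hz2, swap_fix Q hQ p₁ p₃ z hz1 hz3]

/-- `O₃(3) ⊗ O_{n₂}(3)` is not maximal in `Ω`: it stabilises the decomposition into three
`n₂`-spaces given by the orthogonal frame of the `3`-dimensional factor. -/
theorem tensor_core (hQ : Cfsg.Geo.IsNondegenerateQuadraticForm Q) [Fintype F]
    (hq : Fintype.card F = 3) (n₂ : ℕ) (hn₂ : 3 ≤ n₂)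
    (e : ι ≃ Fin 3 × Fin n₂) (P : Matrix.GeneralLinearGroup ι F)
    (f₁ : (Fin 3 → F) → (Fin 3 → F) → F) (f₂ : (Fin n₂ → F) → (Fin n₂ → F) → F)
    (hf₁ : Cfsg.Geo.IsSymmetricForm f₁) (hf₂ : Cfsg.Geo.IsSymmetricForm f₂)
    (hT : Cfsg.Geo.IsTensorFormStructure id (QuadraticMap.polar Q) f₁ f₂ e P) :
    ∃ K : Subgroup (Matrix.GeneralLinearGroup ι F),
      Cfsg.Geo.tensorProductSubgroup 3 n₂ e P ⊓ Cfsg.Geo.omegaGL Q < K ∧
        K < Cfsg.Geo.omegaGL Q := by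
  classical
  have h2 : (2 : F) ≠ 0 := two_ne_zero3 hq
  obtain ⟨c, hc, hform⟩ := tensor_form e P (QuadraticMap.polar Q) f₁ f₂ hf₁.bilinear
    hf₂.bilinear hT
  have hB : ∀ (u : Fin 3 → F) (w : Fin n₂ → F) (u' : Fin 3 → F) (w' : Fin n₂ → F),
      Bf Q hQ (TP e P u w) (TP e P u' w') = c * (f₁ u u' * f₂ w w') := hform
  have hQ₁ := qf_of_symm f₁ hf₁ h2
  have hQ₂ := qf_of_symm f₂ hf₂ h2
  obtain ⟨c₁, a₀, a₁, a₂, hc₁, -, -, -, q₀, q₁, q₂, b01, b02, b12, hsp⟩ :=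
    exists_frame3 (fun v => f₁ v v) hQ₁ hq ⊤ (by rw [finrank_top, Module.finrank_fin_fun])
      (nd_top _ hQ₁)
  obtain ⟨d, w₁, w₂, w₃, hd, -, -, -, r₁, r₂, r₃, s12, s13, s23⟩ :=
    exists_orth3 (fun v => f₂ v v) hQ₂ hq ⊤
      (by rw [finrank_top, Module.finrank_fin_fun]; exact hn₂) (nd_top _ hQ₂)
  have q₀' : f₁ a₀ a₀ = c₁ := q₀
  have q₁' : f₁ a₁ a₁ = c₁ := q₁
  have q₂' : f₁ a₂ a₂ = c₁ := q₂
  have r₁' : f₂ w₁ w₁ = d := r₁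
  have r₂' : f₂ w₂ w₂ = d := r₂
  have r₃' : f₂ w₃ w₃ = d := r₃
  have o01 : f₁ a₀ a₁ = 0 := orth_of_Bf f₁ hf₁ h2 hQ₁ a₀ a₁ b01
  have o02 : f₁ a₀ a₂ = 0 := orth_of_Bf f₁ hf₁ h2 hQ₁ a₀ a₂ b02
  have o10 : f₁ a₁ a₀ = 0 := by
    rw [hf₁.symm a₁ a₀]
    exact o01
  have o20 : f₁ a₂ a₀ = 0 := by
    rw [hf₁.symm a₂ a₀]
    exact o02
  have t12 : f₂ w₁ w₂ = 0 := orth_of_Bf f₂ hf₂ h2 hQ₂ w₁ w₂ s12
  have t13 : f₂ w₁ w₃ = 0 := orth_of_Bf f₂ hf₂ h2 hQ₂ w₁ w₃ s13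
  have t23 : f₂ w₂ w₃ = 0 := orth_of_Bf f₂ hf₂ h2 hQ₂ w₂ w₃ s23
  -- values of `Q`
  have hQv : ∀ (u : Fin 3 → F) (w : Fin n₂ → F),
      2 * Q (TP e P u w) = c * (f₁ u u * f₂ w w) := by
    intro u w
    rw [← Bf_self Q hQ, hB]
  obtain ⟨γ, hγ⟩ : ∃ γ : F, γ = Q (TP e P a₀ w₁) := ⟨_, rfl⟩
  have h2γ : 2 * γ = c * (c₁ * d) := by rw [hγ, hQv, q₀', r₁']
  have hγ0 : γ ≠ 0 := by
    intro h0
    rw [h0, mul_zero] at h2γ
    exact mul_ne_zero hc (mul_ne_zero hc₁ hd) h2γ.symm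
  have hQp : ∀ (u : Fin 3 → F) (w : Fin n₂ → F), f₁ u u = c₁ → f₂ w w = d →
      Q (TP e P u w) = γ := by
    intro u w hu hw
    apply mul_left_cancel₀ h2
    rw [hQv, hu, hw, h2γ]
  have hp₁ : Q (TP e P a₀ w₁) = γ := hQp _ _ q₀' r₁'
  have hp₂ : Q (TP e P a₀ w₂) = γ := hQp _ _ q₀' r₂'
  have hp₃ : Q (TP e P a₀ w₃) = γ := hQp _ _ q₀' r₃'
  have hq₃ : Q (TP e P a₁ w₁) = γ := hQp _ _ q₁' r₁'
  have e12 : Bf Q hQ (TP e P a₀ w₁) (TP e P a₀ w₂) = 0 := by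
    rw [hB, t12, mul_zero, mul_zero]
  have e13 : Bf Q hQ (TP e P a₀ w₁) (TP e P a₀ w₃) = 0 := by
    rw [hB, t13, mul_zero, mul_zero]
  have e23 : Bf Q hQ (TP e P a₀ w₂) (TP e P a₀ w₃) = 0 := by
    rw [hB, t23, mul_zero, mul_zero]
  have e1q : Bf Q hQ (TP e P a₀ w₁) (TP e P a₁ w₁) = 0 := by
    rw [hB, o01, zero_mul, mul_zero]
  have e2q : Bf Q hQ (TP e P a₀ w₂) (TP e P a₁ w₁) = 0 := by
    rw [hB, o01, zero_mul, mul_zero]
  obtain ⟨g₁, hg₁Ω, hg₁p₁, -, -, hg₁fix, hg₁val⟩ :=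
    three_cycle Q hQ h2 γ hγ0 _ _ _ hp₁ hp₂ hp₃ e12 e13 e23
  obtain ⟨g₂, hg₂Ω, hg₂p₁, hg₂p₂, -, -, -⟩ :=
    three_cycle Q hQ h2 γ hγ0 _ _ _ hp₁ hp₂ hq₃ e12 e1q e2q
  -- the set `S`
  obtain ⟨S, hS⟩ : ∃ S : Set (ι → F), S = {v | ∃ (u : Fin 3 → F) (w : Fin n₂ → F),
      (u = a₀ ∨ u = a₁ ∨ u = a₂) ∧ v = TP e P u w} := ⟨_, rfl⟩
  have hSmem : ∀ v : ι → F, v ∈ S ↔ ∃ (u : Fin 3 → F) (w : Fin n₂ → F),
      (u = a₀ ∨ u = a₁ ∨ u = a₂) ∧ v = TP e P u w := by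
    intro v
    rw [hS]
    exact Iff.rfl
  have hS6 : ∀ (u : Fin 3 → F) (w : Fin n₂ → F),
      (u = a₀ ∨ u = -a₀ ∨ u = a₁ ∨ u = -a₁ ∨ u = a₂ ∨ u = -a₂) → TP e P u w ∈ S := by
    intro u w hu
    rcases hu with h | h | h | h | h | h
    · exact (hSmem _).mpr ⟨a₀, w, Or.inl rfl, by rw [h]⟩
    · exact (hSmem _).mpr ⟨a₀, -w, Or.inl rfl, by rw [h, TP_neg_left]⟩
    · exact (hSmem _).mpr ⟨a₁, w, Or.inr (Or.inl rfl), by rw [h]⟩
    · exact (hSmem _).mpr ⟨a₁, -w, Or.inr (Or.inl rfl), by rw [h, TP_neg_left]⟩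
    · exact (hSmem _).mpr ⟨a₂, w, Or.inr (Or.inr rfl), by rw [h]⟩
    · exact (hSmem _).mpr ⟨a₂, -w, Or.inr (Or.inr rfl), by rw [h, TP_neg_left]⟩
  have hfr : ∀ u : Fin 3 → F, (u = a₀ ∨ u = a₁ ∨ u = a₂) → f₁ u u = c₁ := by
    intro u hu
    rcases hu with h | h | h
    · rw [h]
      exact q₀'
    · rw [h]
      exact q₁'
    · rw [h]
      exact q₂'
  have hisoQ : ∀ g : Matrix.GeneralLinearGroup ι F, g ∈ Cfsg.Geo.omegaGL Q →
      ∀ u : ι → F, Q ((g : Matrix ι ι F) *ᵥ u) = Q u := by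
    intro g hg u
    exact omega_le_isom Q g hg u u
  have hle : Cfsg.Geo.tensorProductSubgroup 3 n₂ e P ⊓ Cfsg.Geo.omegaGL Q
      ≤ Cfsg.stabilizing (Cfsg.glToMat ι F) S ⊓ Cfsg.Geo.omegaGL Q := by
    rintro g ⟨hgT, hgΩ⟩
    refine ⟨?_, hgΩ⟩
    obtain ⟨a, b, hdet, -, hab⟩ := mem_tensor' e P g hgT
    have hiso := hisoQ g hgΩ
    have hBg : ∀ v v' : ι → F, Bf Q hQ ((g : Matrix ι ι F) *ᵥ v) ((g : Matrix ι ι F) *ᵥ v')
        = Bf Q hQ v v' := by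
      intro v v'
      rw [Bf_apply, Bf_apply]
      unfold QuadraticMap.polar
      rw [← Matrix.mulVec_add, hiso, hiso, hiso]
    have key : ∀ (u u' : Fin 3 → F) (w w' : Fin n₂ → F),
        f₁ (a *ᵥ u) (a *ᵥ u') * f₂ (b *ᵥ w) (b *ᵥ w') = f₁ u u' * f₂ w w' := by
      intro u u' w w'
      apply mul_left_cancel₀ hc
      rw [← hB, ← hB, ← hab, ← hab, hBg]
    obtain ⟨ν, hν⟩ : ∃ ν : F, ν = f₂ (b *ᵥ w₁) (b *ᵥ w₁) := ⟨_, rfl⟩
    have hν0 : ν ≠ 0 := by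
      intro h0
      have h5 := key a₀ a₀ w₁ w₁
      rw [← hν, h0, mul_zero, q₀', r₁'] at h5
      exact mul_ne_zero hc₁ hd h5.symm
    have hinv : ν * ν⁻¹ = 1 := mul_inv_cancel₀ hν0
    have hsim : ∀ u u' : Fin 3 → F, f₁ (a *ᵥ u) (a *ᵥ u') = (d * ν⁻¹) * f₁ u u' := by
      intro u u'
      have h5 := key u u' w₁ w₁
      rw [← hν, r₁'] at h5
      linear_combination ν⁻¹ * h5 - f₁ (a *ᵥ u) (a *ᵥ u') * hinv
    have hμ : d * ν⁻¹ = 1 :=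
      simil_one hq f₁ hf₁ a hdet (d * ν⁻¹) (mul_ne_zero hd (inv_ne_zero hν0)) hsim
    have hcls : ∀ u : Fin 3 → F, f₁ u u = c₁ →
        (a *ᵥ u = a₀ ∨ a *ᵥ u = -a₀ ∨ a *ᵥ u = a₁ ∨ a *ᵥ u = -a₁ ∨ a *ᵥ u = a₂ ∨
          a *ᵥ u = -a₂) := by
      intro u hu
      obtain ⟨α₀, α₁, α₂, hα⟩ := hsp (a *ᵥ u) Submodule.mem_top
      have hv : (fun v : Fin 3 → F => f₁ v v) (α₀ • a₀ + α₁ • a₁ + α₂ • a₂) = c₁ := by
        show f₁ (α₀ • a₀ + α₁ • a₁ + α₂ • a₂) (α₀ • a₀ + α₁ • a₁ + α₂ • a₂) = c₁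
        rw [← hα, hsim, hμ, one_mul, hu]
      have h6 := cls3 (fun v : Fin 3 → F => f₁ v v) hQ₁ hq c₁ hc₁ a₀ a₁ a₂ q₀ q₁ q₂ b01 b02
        b12 α₀ α₁ α₂ hv
      rw [← hα] at h6
      exact h6
    apply stab_of_maps
    intro v hv
    obtain ⟨u, w, hu, rfl⟩ := (hSmem v).mp hv
    rw [hab]
    exact hS6 _ _ (hcls u (hfr u hu))
  have hblk : ∀ (wx w : Fin n₂ → F), ∃ w' : Fin n₂ → F,
      R Q hQ (TP e P a₀ wx) *ᵥ TP e P a₀ w = TP e P a₀ w' := by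
    intro wx w
    refine ⟨w - ((Q (TP e P a₀ wx))⁻¹ * Bf Q hQ (TP e P a₀ wx) (TP e P a₀ w)) • wx, ?_⟩
    rw [R_mulVec, TP_sub_right, TP_smul_right]
  have hg₁S : g₁ ∈ Cfsg.stabilizing (Cfsg.glToMat ι F) S := by
    apply stab_of_maps
    intro v hv
    obtain ⟨u, w, hu, rfl⟩ := (hSmem v).mp hv
    rcases hu with h | h | h
    · rw [h, hg₁val, ← TP_sub_right, ← TP_sub_right]
      obtain ⟨x₁, h₁⟩ := hblk (w₃ - w₂) w
      obtain ⟨x₂, h₂⟩ := hblk (w₁ - w₃) x₁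
      obtain ⟨x₃, h₃⟩ := hblk (w₃ - w₂) x₂
      obtain ⟨x₄, h₄⟩ := hblk (w₁ - w₃) x₃
      rw [h₁, h₂, h₃, h₄]
      exact hS6 _ _ (Or.inl rfl)
    · rw [h, hg₁fix]
      · exact hS6 _ _ (Or.inr (Or.inr (Or.inl rfl)))
      · rw [hB, o01, zero_mul, mul_zero]
      · rw [hB, o01, zero_mul, mul_zero]
      · rw [hB, o01, zero_mul, mul_zero]
    · rw [h, hg₁fix]
      · exact hS6 _ _ (Or.inr (Or.inr (Or.inr (Or.inr (Or.inl rfl)))))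
      · rw [hB, o02, zero_mul, mul_zero]
      · rw [hB, o02, zero_mul, mul_zero]
      · rw [hB, o02, zero_mul, mul_zero]
  have hg₁T : g₁ ∉ Cfsg.Geo.tensorProductSubgroup 3 n₂ e P := by
    intro hmem
    obtain ⟨a, b, -, -, hab⟩ := mem_tensor' e P g₁ hmem
    have h1 : ∀ w : Fin n₂ → F, TP e P (a *ᵥ a₁) (b *ᵥ w) = TP e P a₁ w := by
      intro w
      rw [← hab]
      apply hg₁fix
      · rw [hB, o01, zero_mul, mul_zero]
      · rw [hB, o01, zero_mul, mul_zero]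
      · rw [hB, o01, zero_mul, mul_zero]
    have h2' : TP e P (a *ᵥ a₀) (b *ᵥ w₁) = TP e P a₀ w₂ := by
      rw [← hab]
      exact hg₁p₁
    have ha₁0 : ∃ i₁, a₁ i₁ ≠ 0 := by
      by_contra hcon
      push_neg at hcon
      have h0 : a₁ = 0 := funext hcon
      rw [h0, f_zero_left f₁ hf₁.bilinear] at q₁'
      exact hc₁ q₁'.symm
    obtain ⟨i₁, hi₁⟩ := ha₁0
    have hα0 : (a *ᵥ a₁) i₁ ≠ 0 := by
      intro h0
      have h5 : ∀ j, w₁ j = 0 := by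
        intro j
        have h6 := TP_coord e P (h1 w₁) i₁ j
        rw [h0, zero_mul] at h6
        rcases mul_eq_zero.mp h6.symm with h7 | h7
        · exact absurd h7 hi₁
        · exact h7
      have h0' : w₁ = 0 := funext h5
      rw [h0', f_zero_left f₂ hf₂.bilinear] at r₁'
      exact hd r₁'.symm
    have h8 : ∀ i, a₀ i = 0 := by
      intro i
      have h9 : ((a *ᵥ a₀) i * a₁ i₁) • w₁ = ((a *ᵥ a₁) i₁ * a₀ i) • w₂ := by
        funext j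
        have h6 := TP_coord e P (h1 w₁) i₁ j
        have h7 := TP_coord e P h2' i j
        simp only [Pi.smul_apply, smul_eq_mul]
        linear_combination (a *ᵥ a₁) i₁ * h7 - (a *ᵥ a₀) i * h6
      have h10 := congrArg (fun x => f₂ x w₂) h9
      simp only [hf₂.bilinear.smul_left, t12, r₂', mul_zero] at h10
      rcases mul_eq_zero.mp h10.symm with h11 | h11
      · rcases mul_eq_zero.mp h11 with h12 | h12
        · exact absurd h12 hα0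
        · exact h12
      · exact absurd h11 hd
    have h0 : a₀ = 0 := funext h8
    rw [h0, f_zero_left f₁ hf₁.bilinear] at q₀'
    exact hc₁ q₀'.symm
  have hg₂S : g₂ ∉ Cfsg.stabilizing (Cfsg.glToMat ι F) S := by
    intro hmem
    have h1 : (g₂ : Matrix ι ι F) *ᵥ TP e P a₀ (w₁ + w₂) ∈ S :=
      (hmem _).mp (hS6 _ _ (Or.inl rfl))
    rw [TP_add_right, Matrix.mulVec_add, hg₂p₁, hg₂p₂] at h1
    obtain ⟨u, w, hu, huw⟩ := (hSmem _).mp h1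
    have hqq : Bf Q hQ (TP e P a₁ w₁) (TP e P a₁ w₁) = 2 * γ := by rw [Bf_self, hq₃]
    have hpp : Bf Q hQ (TP e P a₀ w₂) (TP e P a₀ w₂) = 2 * γ := by rw [Bf_self, hp₂]
    have h2γ0 : (2 : F) * γ ≠ 0 := mul_ne_zero h2 hγ0
    have t1 : Bf Q hQ (TP e P a₀ w₂ + TP e P a₁ w₁) (TP e P a₁ w₁) = 2 * γ := by
      rw [map_add, LinearMap.add_apply, e2q, hqq, zero_add]
    have t2 : Bf Q hQ (TP e P a₀ w₂ + TP e P a₁ w₁) (TP e P a₀ w₂) = 2 * γ := by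
      rw [map_add, LinearMap.add_apply, hpp, Bf_symm Q hQ (TP e P a₁ w₁) (TP e P a₀ w₂), e2q,
        add_zero]
    rcases hu with h | h | h
    · rw [huw, h, hB, o01, zero_mul, mul_zero] at t1
      exact h2γ0 t1.symm
    · rw [huw, h, hB, o10, zero_mul, mul_zero] at t2
      exact h2γ0 t2.symm
    · rw [huw, h, hB, o20, zero_mul, mul_zero] at t2
      exact h2γ0 t2.symm
  refine ⟨Cfsg.stabilizing (Cfsg.glToMat ι F) S ⊓ Cfsg.Geo.omegaGL Q, ?_, ?_⟩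
  · refine lt_of_le_of_ne hle (fun heq => hg₁T ?_)
    have h5 : g₁ ∈ Cfsg.Geo.tensorProductSubgroup 3 n₂ e P ⊓ Cfsg.Geo.omegaGL Q := by
      rw [heq]
      exact ⟨hg₁S, hg₁Ω⟩
    exact h5.1
  · refine lt_of_le_of_ne inf_le_right (fun heq => hg₂S ?_)
    have h5 : g₂ ∈ Cfsg.stabilizing (Cfsg.glToMat ι F) S ⊓ Cfsg.Geo.omegaGL Q := by
      rw [heq]
      exact hg₂Ω
    exact h5.1

end quad

end Cfsg.Agent.Helper4.TensorO3
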