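import Mathlib
import Cfsg.Prelude.Def_GeometricClasses
import Cfsg.Agent.Helper4.OrthPlane

set_option autoImplicit false
open Cfsg

/-!
Two families of maximal totally singular subspaces for an abstract non-degenerate quadratic form
(port of the parity argument of `Cfsg.Agent.Helper2.TwoFam` from the standard form to an arbitrary
form), the resulting invariance of the families under `Ω`, and some explicit elements of `Ω`.
-/

namespace Cfsg.Agent.Helper4.TwoFamQ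

open Module Matrix Cfsg.Agent.Helper4.OrthPlane

variable {ι : Type} [Fintype ι] [DecidableEq ι] {F : Type*} [Field F] {m : ℕ}
variable {U U' W X Z H Y : Submodule F (ι → F)} {x : ι → F}

theorem finrank_V (hcard : Fintype.card ι = 2 * m) : finrank F (ι → F) = 2 * m := by
  rw [Module.finrank_fintype_fun_eq_card, hcard]

theorem le_or_le_of_forall (h : ∀ y ∈ Y, y ∈ U ∨ y ∈ U') : Y ≤ U ∨ Y ≤ U' := by
  by_contra hcon
  rw [not_or] at hcon
  obtain ⟨a, haY, haU⟩ := SetLike.not_le_iff_exists.1 hcon.1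
  obtain ⟨b, hbY, hbU'⟩ := SetLike.not_le_iff_exists.1 hcon.2
  have ha' : a ∈ U' := (h a haY).resolve_left haU
  have hb' : b ∈ U := (h b hbY).resolve_right hbU'
  rcases h (a + b) (Y.add_mem haY hbY) with h1 | h1
  · exact haU (by simpa using U.sub_mem h1 hb')
  · exact hbU' (by simpa using U'.sub_mem h1 ha')

theorem toLin_inj (g : Matrix.GeneralLinearGroup ι F) :
    Function.Injective (Matrix.toLin' (g : Matrix ι ι F)) := by
  intro a b hab
  have h1 := congrArg (fun v => ((g⁻¹ : Matrix.GeneralLinearGroup ι F) : Matrix ι ι F) *ᵥ v) hab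
  simp only [Matrix.toLin'_apply, Matrix.mulVec_mulVec, ← Units.val_mul, inv_mul_cancel,
    Units.val_one, Matrix.one_mulVec] at h1
  exact h1

theorem stab_mem_iff (W : Submodule F (ι → F)) (g : Matrix.GeneralLinearGroup ι F)
    (hg : g ∈ Cfsg.Geo.subspaceStabilizer W) (v : ι → F) :
    v ∈ W ↔ (g : Matrix ι ι F) *ᵥ v ∈ W := hg v

theorem map_eq_of_stab (W : Submodule F (ι → F)) (g : Matrix.GeneralLinearGroup ι F)
    (hg : g ∈ Cfsg.Geo.subspaceStabilizer W) :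
    W.map (Matrix.toLin' (g : Matrix ι ι F)) = W := by
  apply le_antisymm
  · intro y hy
    obtain ⟨v, hv, rfl⟩ := Submodule.mem_map.1 hy
    rw [Matrix.toLin'_apply]
    exact (stab_mem_iff W g hg v).mp hv
  · intro w hw
    refine Submodule.mem_map.2 ⟨((g⁻¹ : Matrix.GeneralLinearGroup ι F) : Matrix ι ι F) *ᵥ w,
      (stab_mem_iff W g⁻¹ (Subgroup.inv_mem _ hg) w).mp hw, ?_⟩
    rw [Matrix.toLin'_apply, Matrix.mulVec_mulVec, ← Units.val_mul, mul_inv_cancel,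
      Units.val_one, Matrix.one_mulVec]

theorem stab_of_map_eq [Fintype F] (W : Submodule F (ι → F))
    (g : Matrix.GeneralLinearGroup ι F)
    (h : W.map (Matrix.toLin' (g : Matrix ι ι F)) = W) :
    g ∈ Cfsg.Geo.subspaceStabilizer W := by
  apply stab_of_maps
  intro v hv
  have h1 : (g : Matrix ι ι F) *ᵥ v ∈ W.map (Matrix.toLin' (g : Matrix ι ι F)) :=
    Submodule.mem_map.2 ⟨v, hv, Matrix.toLin'_apply _ _⟩
  rw [h] at h1
  exact h1

theorem indep_pair (U : Submodule F (ι → F)) (h : 2 ≤ finrank F U) :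
    ∃ a ∈ U, ∃ b ∈ U, a ≠ 0 ∧ b ≠ 0 ∧ b ∉ Submodule.span F {a} ∧ a ∉ Submodule.span F {b} := by
  have hne : U ≠ ⊥ := by
    intro h0
    rw [h0, finrank_bot] at h
    omega
  obtain ⟨a, haU, ha0⟩ := (Submodule.ne_bot_iff U).mp hne
  have hex : ∃ b ∈ U, b ∉ Submodule.span F {a} := by
    by_contra hcon
    push_neg at hcon
    have hle : U ≤ Submodule.span F {a} := hcon
    have h1 := Submodule.finrank_mono hle
    rw [finrank_span_singleton ha0] at h1
    omega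
  obtain ⟨b, hbU, hb⟩ := hex
  have hb0 : b ≠ 0 := by
    intro h0
    apply hb
    rw [h0]
    exact Submodule.zero_mem _
  refine ⟨a, haU, b, hbU, ha0, hb0, hb, ?_⟩
  intro hab
  obtain ⟨c, hc⟩ := Submodule.mem_span_singleton.1 hab
  have hc0 : c ≠ 0 := by
    intro h0
    rw [h0, zero_smul] at hc
    exact ha0 hc.symm
  apply hb
  rw [Submodule.mem_span_singleton]
  refine ⟨c⁻¹, ?_⟩
  rw [← hc, smul_smul, inv_mul_cancel₀ hc0, one_smul]

section base

variable (Q : (ι → F) → F)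

/-- Maximal totally singular subspaces (of dimension `m`). -/
def IsM (m : ℕ) (U : Submodule F (ι → F)) : Prop :=
  finrank F U = m ∧ ∀ w ∈ U, Q w = 0

variable (hQ : Cfsg.Geo.IsNondegenerateQuadraticForm Q)

/-- The polar form as a bilinear form. -/
noncomputable def BF : LinearMap.BilinForm F (ι → F) := Bf Q hQ

theorem BF_nondeg : (BF Q hQ).Nondegenerate := by
  constructor
  · intro a ha
    by_contra h0
    obtain ⟨-, ⟨y, hy⟩⟩ := hQ.nondegenerate a h0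
    exact hy (ha y)
  · intro b hb
    by_contra h0
    obtain ⟨⟨y, hy⟩, -⟩ := hQ.nondegenerate b h0
    exact hy (hb y)

theorem BF_symm (v w : ι → F) : BF Q hQ v w = BF Q hQ w v := Bf_symm Q hQ v w

theorem Q_add' (v w : ι → F) : Q (v + w) = Q v + Q w + BF Q hQ v w := Q_add Q hQ v w

include hQ in
theorem Q_smul' (c : F) (v : ι → F) : Q (c • v) = c * c * Q v := by
  rw [hQ.smul]
  ring

theorem finrank_perp (hcard : Fintype.card ι = 2 * m) (W : Submodule F (ι → F)) :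
    finrank F ((BF Q hQ).orthogonal W) = 2 * m - finrank F W := by
  rw [LinearMap.BilinForm.finrank_orthogonal (BF_nondeg Q hQ), finrank_V hcard]

theorem ts_ortho (hU : ∀ w ∈ U, Q w = 0) {u u' : ι → F} (hu : u ∈ U) (hu' : u' ∈ U) :
    BF Q hQ u u' = 0 := by
  have h := Q_add' Q hQ u u'
  rw [hU _ (U.add_mem hu hu'), hU _ hu, hU _ hu', zero_add, zero_add] at h
  exact h.symm

theorem le_perp (hU : ∀ w ∈ U, Q w = 0) : U ≤ (BF Q hQ).orthogonal U := by
  intro u hu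
  rw [LinearMap.BilinForm.mem_orthogonal_iff]
  intro n hn
  exact ts_ortho Q hQ hU hn hu

include hQ in
theorem ts_le (hcard : Fintype.card ι = 2 * m) (hU : ∀ w ∈ U, Q w = 0) : finrank F U ≤ m := by
  have h1 := Submodule.finrank_mono (le_perp Q hQ hU)
  rw [finrank_perp Q hQ hcard] at h1
  omega

theorem perp_self (hcard : Fintype.card ι = 2 * m) (hU : IsM Q m U) :
    (BF Q hQ).orthogonal U = U := by
  symm
  apply Submodule.eq_of_le_of_finrank_le (le_perp Q hQ hU.2)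
  rw [finrank_perp Q hQ hcard, hU.1]
  omega

theorem mem_H {v : ι → F} :
    v ∈ (BF Q hQ).orthogonal (Submodule.span F {x}) ↔ BF Q hQ x v = 0 := by
  constructor
  · intro h
    exact h x (Submodule.mem_span_singleton_self x)
  · intro h
    rw [LinearMap.BilinForm.mem_orthogonal_iff]
    intro n hn
    obtain ⟨c, rfl⟩ := Submodule.mem_span_singleton.1 hn
    rw [map_smul, LinearMap.smul_apply, h, smul_zero]

theorem not_le_H (hcard : Fintype.card ι = 2 * m) (hU : IsM Q m U) (hxU : x ∉ U)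
    (hH : ∀ v, v ∈ H ↔ BF Q hQ x v = 0) : ¬ U ≤ H := by
  intro hle
  apply hxU
  rw [← perp_self Q hQ hcard hU, LinearMap.BilinForm.mem_orthogonal_iff]
  intro n hn
  rw [BF_symm Q hQ]
  exact (hH n).1 (hle hn)

theorem finrank_inf_H (hcard : Fintype.card ι = 2 * m) (hU : IsM Q m U) (hxU : x ∉ U)
    (hH : ∀ v, v ∈ H ↔ BF Q hQ x v = 0) (hHd : finrank F H = 2 * m - 1) :
    finrank F ↥(U ⊓ H) + 1 = m := by
  have h2 := Submodule.finrank_sup_add_finrank_inf_eq U H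
  have h3 := Submodule.finrank_le (U ⊔ H)
  rw [finrank_V hcard] at h3
  have h4 : finrank F ↥(U ⊓ H) < finrank F U := by
    apply Submodule.finrank_lt_finrank_of_lt
    exact lt_of_le_of_ne inf_le_left
      (fun h => not_le_H Q hQ hcard hU hxU hH (inf_eq_left.1 h))
  rw [hU.1] at h2 h4
  omega

theorem move_ts (hU : IsM Q m U) (hx : Q x = 0) (hH : ∀ v, v ∈ H ↔ BF Q hQ x v = 0) :
    ∀ w ∈ U ⊓ H ⊔ Submodule.span F {x}, Q w = 0 := by
  intro w hw
  obtain ⟨a, ha, s, hs, rfl⟩ := Submodule.mem_sup.1 hw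
  obtain ⟨c, rfl⟩ := Submodule.mem_span_singleton.1 hs
  obtain ⟨haU, haH⟩ := Submodule.mem_inf.1 ha
  rw [Q_add' Q hQ, hU.2 a haU, Q_smul' Q hQ, hx, map_smul, smul_eq_mul, BF_symm Q hQ,
    (hH a).1 haH]
  ring

theorem move_isM (hcard : Fintype.card ι = 2 * m) (hU : IsM Q m U) (hx : Q x = 0)
    (hxU : x ∉ U) (hH : ∀ v, v ∈ H ↔ BF Q hQ x v = 0) (hHd : finrank F H = 2 * m - 1) :
    IsM Q m (U ⊓ H ⊔ Submodule.span F {x}) := by
  have hts := move_ts Q hQ hU hx hH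
  refine ⟨?_, hts⟩
  have h1 := ts_le Q hQ hcard hts
  have h2 := finrank_inf_H Q hQ hcard hU hxU hH hHd
  have h3 : finrank F ↥(U ⊓ H) < finrank F ↥(U ⊓ H ⊔ Submodule.span F {x}) := by
    apply Submodule.finrank_lt_finrank_of_lt
    refine lt_of_le_of_ne le_sup_left (fun h => hxU ?_)
    have hxm : x ∈ U ⊓ H ⊔ Submodule.span F {x} :=
      Submodule.mem_sup_right (Submodule.mem_span_singleton_self x)
    rw [← h] at hxm
    exact (Submodule.mem_inf.1 hxm).1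
  omega

theorem move_adj (hcard : Fintype.card ι = 2 * m) (hU : IsM Q m U) (hx : Q x = 0)
    (hxU : x ∉ U) (hH : ∀ v, v ∈ H ↔ BF Q hQ x v = 0) (hHd : finrank F H = 2 * m - 1) :
    finrank F ↥(U ⊓ (U ⊓ H ⊔ Submodule.span F {x})) + 1 = m := by
  have h2 := finrank_inf_H Q hQ hcard hU hxU hH hHd
  have h3 : finrank F ↥(U ⊓ H) ≤ finrank F ↥(U ⊓ (U ⊓ H ⊔ Submodule.span F {x})) :=
    Submodule.finrank_mono (le_inf inf_le_left le_sup_left)
  have h4 : finrank F ↥(U ⊓ (U ⊓ H ⊔ Submodule.span F {x})) < finrank F U := by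
    apply Submodule.finrank_lt_finrank_of_lt
    refine lt_of_le_of_ne inf_le_left (fun h => hxU ?_)
    have hle : U ≤ U ⊓ H ⊔ Submodule.span F {x} := inf_eq_left.1 h
    have heq : U = U ⊓ H ⊔ Submodule.span F {x} :=
      Submodule.eq_of_le_of_finrank_le hle
        (by rw [(move_isM Q hQ hcard hU hx hxU hH hHd).1, hU.1])
    rw [heq]
    exact Submodule.mem_sup_right (Submodule.mem_span_singleton_self x)
  rw [hU.1] at h4
  omega

theorem move_W (hU : IsM Q m U) (hxU : x ∉ U) (hH : ∀ v, v ∈ H ↔ BF Q hQ x v = 0)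
    (hW : IsM Q m W) (hxW : x ∈ W) :
    finrank F ↥((U ⊓ H ⊔ Submodule.span F {x}) ⊓ W) = finrank F ↥(U ⊓ W) + 1 := by
  have hx0 : x ≠ 0 := fun h => hxU (by rw [h]; exact U.zero_mem)
  have heq : (U ⊓ H ⊔ Submodule.span F {x}) ⊓ W = (U ⊓ W) ⊔ Submodule.span F {x} := by
    apply le_antisymm
    · intro v hv
      obtain ⟨hv1, hvW⟩ := Submodule.mem_inf.1 hv
      obtain ⟨a, ha, s, hs, rfl⟩ := Submodule.mem_sup.1 hv1
      obtain ⟨haU, haH⟩ := Submodule.mem_inf.1 ha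
      have hsW : s ∈ W := (Submodule.span_singleton_le_iff_mem x W).2 hxW hs
      have haW : a ∈ W := by simpa using W.sub_mem hvW hsW
      exact Submodule.add_mem_sup (Submodule.mem_inf.2 ⟨haU, haW⟩) hs
    · apply sup_le
      · intro v hv
        obtain ⟨hvU, hvW⟩ := Submodule.mem_inf.1 hv
        refine Submodule.mem_inf.2
          ⟨Submodule.mem_sup_left (Submodule.mem_inf.2 ⟨hvU, (hH v).2 ?_⟩), hvW⟩
        exact ts_ortho Q hQ hW.2 hxW hvW
      · rw [Submodule.span_singleton_le_iff_mem]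
        exact Submodule.mem_inf.2
          ⟨Submodule.mem_sup_right (Submodule.mem_span_singleton_self x), hxW⟩
  rw [heq]
  have hdisj : (U ⊓ W) ⊓ Submodule.span F {x} = ⊥ :=
    disjoint_iff.1 ((Submodule.disjoint_span_singleton' hx0).2
      (fun h => hxU (Submodule.mem_inf.1 h).1))
  have h1 := Submodule.finrank_sup_add_finrank_inf_eq (U ⊓ W) (Submodule.span F {x})
  rw [hdisj, finrank_bot, finrank_span_singleton hx0] at h1
  omega

theorem AL_mem (hcard : Fintype.card ι = 2 * m) (hU : IsM Q m U) (hU' : IsM Q m U')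
    (hX : IsM Q m X) (hZU : Z ≤ U) (hZU' : Z ≤ U') (hZ : finrank F Z + 1 = m)
    (hcap : U ⊓ U' ≤ Z) :
    ∀ y ∈ (BF Q hQ).orthogonal (X ⊔ Z), y ∈ U ∨ y ∈ U' := by
  intro y hy
  have hyX : y ∈ X := by
    rw [← perp_self Q hQ hcard hX]
    exact LinearMap.BilinForm.orthogonal_le le_sup_left hy
  have hyZ : y ∈ (BF Q hQ).orthogonal Z := LinearMap.BilinForm.orthogonal_le le_sup_right hy
  have hUU' : U ⊓ U' = Z := le_antisymm hcap (le_inf hZU hZU')
  have hsupdim : finrank F ↥(U ⊔ U') = m + 1 := by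
    have h := Submodule.finrank_sup_add_finrank_inf_eq U U'
    rw [hUU', hU.1, hU'.1] at h
    omega
  have hle : U ⊔ U' ≤ (BF Q hQ).orthogonal Z := by
    apply sup_le
    · intro u hu
      rw [LinearMap.BilinForm.mem_orthogonal_iff]
      intro n hn
      exact ts_ortho Q hQ hU.2 (hZU hn) hu
    · intro u hu
      rw [LinearMap.BilinForm.mem_orthogonal_iff]
      intro n hn
      exact ts_ortho Q hQ hU'.2 (hZU' hn) hu
  have hperpZ : U ⊔ U' = (BF Q hQ).orthogonal Z := by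
    apply Submodule.eq_of_le_of_finrank_le hle
    rw [finrank_perp Q hQ hcard, hsupdim]
    omega
  rw [← hperpZ] at hyZ
  obtain ⟨a, ha, b, hb, rfl⟩ := Submodule.mem_sup.1 hyZ
  have hab : BF Q hQ a b = 0 := by
    have h := Q_add' Q hQ a b
    rw [hX.2 _ hyX, hU.2 a ha, hU'.2 b hb, zero_add, zero_add] at h
    exact h.symm
  by_cases hbZ : b ∈ Z
  · left
    exact U.add_mem ha (hZU hbZ)
  · right
    have hU'eq : Z ⊔ Submodule.span F {b} = U' := by
      apply Submodule.eq_of_le_of_finrank_le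
        (sup_le hZU' ((Submodule.span_singleton_le_iff_mem b U').2 hb))
      have hlt : finrank F Z < finrank F ↥(Z ⊔ Submodule.span F {b}) := by
        apply Submodule.finrank_lt_finrank_of_lt
        refine lt_of_le_of_ne le_sup_left (fun h => hbZ ?_)
        rw [h]
        exact Submodule.mem_sup_right (Submodule.mem_span_singleton_self b)
      rw [hU'.1]
      omega
    have haU' : a ∈ U' := by
      rw [← perp_self Q hQ hcard hU', LinearMap.BilinForm.mem_orthogonal_iff]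
      intro n hn
      rw [← hU'eq] at hn
      obtain ⟨z, hz, s, hs, rfl⟩ := Submodule.mem_sup.1 hn
      obtain ⟨c, rfl⟩ := Submodule.mem_span_singleton.1 hs
      rw [map_add, LinearMap.add_apply, map_smul, LinearMap.smul_apply,
        ts_ortho Q hQ hU.2 (hZU hz) ha, BF_symm Q hQ b a, hab, smul_zero, add_zero]
    exact U'.add_mem haU' hb

theorem AL_aux (hcard : Fintype.card ι = 2 * m) (hU : IsM Q m U) (hU' : IsM Q m U')
    (hX : IsM Q m X) (hZU : Z ≤ U) (hZU' : Z ≤ U') (hZ : finrank F Z + 1 = m)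
    (hcap : U ⊓ U' ≤ Z) (hY : (BF Q hQ).orthogonal (X ⊔ Z) ≤ U) :
    finrank F ↥(U ⊓ X) = finrank F ↥(U' ⊓ X) + 1 := by
  have hYd : finrank F ↥((BF Q hQ).orthogonal (X ⊔ Z)) = finrank F ↥(X ⊓ Z) + 1 := by
    have h := Submodule.finrank_sup_add_finrank_inf_eq X Z
    have h1 := Submodule.finrank_le (X ⊔ Z)
    rw [finrank_V hcard] at h1
    rw [finrank_perp Q hQ hcard]
    rw [hX.1] at h
    omega
  have hYX : (BF Q hQ).orthogonal (X ⊔ Z) ≤ X := by
    intro y hy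
    rw [← perp_self Q hQ hcard hX]
    exact LinearMap.BilinForm.orthogonal_le le_sup_left hy
  have h1 : U ⊓ X = (BF Q hQ).orthogonal (X ⊔ Z) := by
    apply le_antisymm
    · intro v hv
      obtain ⟨hvU, hvX⟩ := Submodule.mem_inf.1 hv
      rw [LinearMap.BilinForm.mem_orthogonal_iff]
      intro n hn
      obtain ⟨a, ha, b, hb, rfl⟩ := Submodule.mem_sup.1 hn
      rw [map_add, LinearMap.add_apply, ts_ortho Q hQ hX.2 ha hvX,
        ts_ortho Q hQ hU.2 (hZU hb) hvU, add_zero]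
    · exact le_inf hY hYX
  have h2 : U' ⊓ X = X ⊓ Z := by
    apply le_antisymm
    · intro v hv
      obtain ⟨hvU', hvX⟩ := Submodule.mem_inf.1 hv
      have hvY : v ∈ (BF Q hQ).orthogonal (X ⊔ Z) := by
        rw [LinearMap.BilinForm.mem_orthogonal_iff]
        intro n hn
        obtain ⟨a, ha, b, hb, rfl⟩ := Submodule.mem_sup.1 hn
        rw [map_add, LinearMap.add_apply, ts_ortho Q hQ hX.2 ha hvX,
          ts_ortho Q hQ hU'.2 (hZU' hb) hvU', add_zero]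
      exact Submodule.mem_inf.2 ⟨hvX, hcap (Submodule.mem_inf.2 ⟨hY hvY, hvU'⟩)⟩
    · exact le_inf (inf_le_right.trans hZU') inf_le_left
  rw [h1, h2, hYd]

include hQ in
theorem AL (hcard : Fintype.card ι = 2 * m) (hU : IsM Q m U) (hU' : IsM Q m U')
    (hX : IsM Q m X) (hadj : finrank F ↥(U ⊓ U') + 1 = m) :
    finrank F ↥(U ⊓ X) = finrank F ↥(U' ⊓ X) + 1 ∨
      finrank F ↥(U' ⊓ X) = finrank F ↥(U ⊓ X) + 1 := by
  rcases le_or_le_of_forall
    (AL_mem Q hQ hcard (Z := U ⊓ U') hU hU' hX inf_le_left inf_le_right hadj le_rfl) with h | h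
  · left
    exact AL_aux Q hQ hcard (Z := U ⊓ U') hU hU' hX inf_le_left inf_le_right hadj le_rfl h
  · right
    exact AL_aux Q hQ hcard (Z := U ⊓ U') hU' hU hX inf_le_right inf_le_left hadj
      (inf_comm U' U).le h

include hQ in
theorem parity (hcard : Fintype.card ι = 2 * m) (hm : 1 ≤ m) (hW : IsM Q m W)
    (hX : IsM Q m X) :
    ∀ (n : ℕ) (U : Submodule F (ι → F)), IsM Q m U → m - finrank F ↥(U ⊓ W) = n →
      Even ((m - finrank F ↥(U ⊓ W)) + (m - finrank F ↥(W ⊓ X)) + (m - finrank F ↥(U ⊓ X))) := by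
  intro n
  induction n with
  | zero =>
    intro U hU hn
    have hUW : U ⊓ W = U :=
      Submodule.eq_of_le_of_finrank_le inf_le_left (by rw [hU.1]; omega)
    have hle : U ≤ W := inf_eq_left.1 hUW
    have hEq : U = W := Submodule.eq_of_le_of_finrank_le hle (by rw [hU.1, hW.1])
    subst hEq
    rw [Nat.even_iff]
    omega
  | succ n ih =>
    intro U hU hn
    have h1 : finrank F ↥(U ⊓ W) < m := by omega
    have hnle : ¬ W ≤ U := by
      intro hle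
      have h : U ⊓ W = W := inf_eq_right.2 hle
      rw [h, hW.1] at h1
      exact lt_irrefl _ h1
    obtain ⟨x, hxW, hxU⟩ := SetLike.not_le_iff_exists.1 hnle
    have hx : Q x = 0 := hW.2 x hxW
    have hx0 : x ≠ 0 := fun h => hxU (by rw [h]; exact U.zero_mem)
    have hH : ∀ v, v ∈ (BF Q hQ).orthogonal (Submodule.span F {x}) ↔ BF Q hQ x v = 0 :=
      fun v => mem_H Q hQ
    have hHd : finrank F ↥((BF Q hQ).orthogonal (Submodule.span F {x})) = 2 * m - 1 := by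
      rw [finrank_perp Q hQ hcard, finrank_span_singleton hx0]
    have hU' := move_isM Q hQ hcard hU hx hxU hH hHd
    have hadj := move_adj Q hQ hcard hU hx hxU hH hHd
    have hWd := move_W Q hQ hU hxU hH hW hxW
    have hih := ih _ hU' (by rw [hWd]; omega)
    have hal := AL Q hQ hcard hU hU' hX hadj
    have b1 : finrank F ↥(U ⊓ X) ≤ m :=
      (Submodule.finrank_mono inf_le_left).trans (le_of_eq hU.1)
    have b2 : finrank F ↥((U ⊓ (BF Q hQ).orthogonal (Submodule.span F {x})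
        ⊔ Submodule.span F {x}) ⊓ X) ≤ m :=
      (Submodule.finrank_mono inf_le_left).trans (le_of_eq hU'.1)
    have b3 : finrank F ↥(W ⊓ X) ≤ m :=
      (Submodule.finrank_mono inf_le_left).trans (le_of_eq hW.1)
    rw [Nat.even_iff] at hih ⊢
    omega

/-! ### Invariance of the families under `Ω` -/

include hQ in
theorem map_isM (hU : IsM Q m U) (g : Matrix.GeneralLinearGroup ι F)
    (hg : g ∈ Cfsg.isometryGroup F Q) :
    IsM Q m (U.map (Matrix.toLin' (g : Matrix ι ι F))) := by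
  refine ⟨?_, ?_⟩
  · rw [← hU.1]
    exact (Submodule.equivMapOfInjective _ (toLin_inj g) U).finrank_eq.symm
  · intro w hw
    obtain ⟨u, hu, rfl⟩ := Submodule.mem_map.1 hw
    rw [Matrix.toLin'_apply]
    exact (hg u u).trans (hU.2 u hu)

/-- The codimension of `U ∩ gU` in `U`. -/
noncomputable def dv (m : ℕ) (U : Submodule F (ι → F)) (g : Matrix.GeneralLinearGroup ι F) : ℕ :=
  m - finrank F ↥(U ⊓ U.map (Matrix.toLin' (g : Matrix ι ι F)))

include hQ in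
theorem dv_mul (hcard : Fintype.card ι = 2 * m) (hm : 1 ≤ m) (hU : IsM Q m U)
    (g h : Matrix.GeneralLinearGroup ι F) (hg : g ∈ Cfsg.isometryGroup F Q)
    (hh : h ∈ Cfsg.isometryGroup F Q) :
    Even (dv m U g + dv m U h + dv m U (g * h)) := by
  have hgU := map_isM Q hQ hU g hg
  have hghU := map_isM Q hQ (map_isM Q hQ hU h hh) g hg
  have hpar := parity Q hQ hcard hm hgU hghU _ U hU rfl
  have e1 : (U.map (Matrix.toLin' (g : Matrix ι ι F))) ⊓
      ((U.map (Matrix.toLin' (h : Matrix ι ι F))).map (Matrix.toLin' (g : Matrix ι ι F)))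
      = (U ⊓ U.map (Matrix.toLin' (h : Matrix ι ι F))).map (Matrix.toLin' (g : Matrix ι ι F)) :=
    (Submodule.map_inf _ (toLin_inj g)).symm
  have e2 : finrank F ↥((U ⊓ U.map (Matrix.toLin' (h : Matrix ι ι F))).map
      (Matrix.toLin' (g : Matrix ι ι F)))
      = finrank F ↥(U ⊓ U.map (Matrix.toLin' (h : Matrix ι ι F))) :=
    (Submodule.equivMapOfInjective _ (toLin_inj g) _).finrank_eq.symm
  have e3 : U.map (Matrix.toLin' ((g * h : Matrix.GeneralLinearGroup ι F) : Matrix ι ι F))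
      = (U.map (Matrix.toLin' (h : Matrix ι ι F))).map (Matrix.toLin' (g : Matrix ι ι F)) := by
    rw [Units.val_mul, Matrix.toLin'_mul, Submodule.map_comp]
  rw [e1, e2] at hpar
  unfold dv
  rw [e3]
  exact hpar

/-- The Dickson-type homomorphism attached to a maximal totally singular subspace. -/
noncomputable def dick (hcard : Fintype.card ι = 2 * m) (hm : 1 ≤ m) (hU : IsM Q m U) :
    (Cfsg.isometryGroup F Q) →* Multiplicative (ZMod 2) :=
  MonoidHom.mk' (fun a => Multiplicative.ofAdd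
    ((dv m U (a : Matrix.GeneralLinearGroup ι F) : ℕ) : ZMod 2)) (by
    intro a b
    have hE := dv_mul Q hQ hcard hm hU (a : Matrix.GeneralLinearGroup ι F)
      (b : Matrix.GeneralLinearGroup ι F) a.2 b.2
    have h0 := ZMod.natCast_eq_zero_iff_even.mpr hE
    push_cast at h0
    rw [Subgroup.coe_mul, ← ofAdd_add]
    congr 1
    linear_combination h0 - ((dv m U (a : Matrix.GeneralLinearGroup ι F) : ZMod 2)
      + (dv m U (b : Matrix.GeneralLinearGroup ι F) : ZMod 2)) * (CharTwo.two_eq_zero (R := ZMod 2)))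

include hQ in
/-- Elements of `Ω` preserve the family of a maximal totally singular subspace. -/
theorem omega_parity (hcard : Fintype.card ι = 2 * m) (hm : 1 ≤ m) (hU : IsM Q m U)
    (g : Matrix.GeneralLinearGroup ι F) (hg : g ∈ Cfsg.Geo.omegaGL Q) :
    Even (m - finrank F ↥(U ⊓ U.map (Matrix.toLin' (g : Matrix ι ι F)))) := by
  obtain ⟨a, ha, rfl⟩ := Subgroup.mem_map.mp hg
  have h1 := Abelianization.commutator_subset_ker (dick Q hQ hcard hm hU) ha
  rw [MonoidHom.mem_ker] at h1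
  have h2 : Multiplicative.ofAdd ((dv m U (a : Matrix.GeneralLinearGroup ι F) : ℕ) : ZMod 2)
      = 1 := h1
  exact ZMod.natCast_eq_zero_iff_even.mp (ofAdd_eq_one.mp h2)

/-! ### Vectors with prescribed inner products -/

theorem exists_dual (p : Submodule F (ι → F)) (x : ι → F) (hx : x ∉ p) :
    ∃ u : ι → F, Bf Q hQ u x = 1 ∧ ∀ y ∈ p, Bf Q hQ u y = 0 := by
  obtain ⟨f, hfx, hf⟩ := Submodule.exists_dual_map_eq_bot_of_notMem hx inferInstance
  obtain ⟨u₀, hu₀⟩ : ∃ u₀ : ι → F, ∀ y, Bf Q hQ u₀ y = f y :=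
    ⟨(LinearMap.BilinForm.toDual (BF Q hQ) (BF_nondeg Q hQ)).symm f,
      fun y => LinearMap.BilinForm.apply_toDual_symm_apply (B := BF Q hQ)
        (hB := BF_nondeg Q hQ) f y⟩
  refine ⟨(f x)⁻¹ • u₀, ?_, ?_⟩
  · rw [map_smul, LinearMap.smul_apply, smul_eq_mul, hu₀, inv_mul_cancel₀ hfx]
  · intro y hy
    have h0 : f y = 0 := by
      have h1 : f y ∈ p.map f := Submodule.mem_map_of_mem hy
      rw [hf] at h1
      exact (Submodule.mem_bot F).mp h1
    rw [map_smul, LinearMap.smul_apply, smul_eq_mul, hu₀, h0, mul_zero]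

theorem norm_vec (u₀ t : ι → F) (ht : Q t = 0) (h : Bf Q hQ u₀ t = 1) :
    Q (u₀ + (1 - Q u₀) • t) = 1 := by
  rw [Q_add_smul Q hQ, ht, h]
  ring

theorem ext_ts (W : Submodule F (ι → F)) (x : ι → F) (hW : ∀ w ∈ W, Q w = 0) (hx : Q x = 0)
    (hxW : x ∉ W) (horth : ∀ a ∈ W, Bf Q hQ a x = 0) :
    (∀ w ∈ W ⊔ Submodule.span F {x}, Q w = 0) ∧
      finrank F ↥(W ⊔ Submodule.span F {x}) = finrank F W + 1 := by
  constructor
  · intro w hw
    obtain ⟨a, ha, s, hs, rfl⟩ := Submodule.mem_sup.1 hw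
    obtain ⟨c, rfl⟩ := Submodule.mem_span_singleton.1 hs
    rw [Q_add_smul Q hQ, hW a ha, hx, horth a ha]
    ring
  · have hx0 : x ≠ 0 := fun h => hxW (by rw [h]; exact W.zero_mem)
    have hdisj : W ⊓ Submodule.span F {x} = ⊥ :=
      disjoint_iff.1 ((Submodule.disjoint_span_singleton' hx0).2 hxW)
    have h1 := Submodule.finrank_sup_add_finrank_inf_eq W (Submodule.span F {x})
    rw [hdisj, finrank_bot, finrank_span_singleton hx0] at h1
    omega

/-! ### Siegel elements as products of two reflections -/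

theorem E_act (u s x : ι → F) (hu : Q u = 1) (hs : Q s = 0) (hus : Bf Q hQ u s = 0)
    (hsx : Bf Q hQ s x = 0) :
    R Q hQ u *ᵥ (R Q hQ (u + s) *ᵥ x) = x - Bf Q hQ u x • s ∧
    R Q hQ (u + s) *ᵥ (R Q hQ u *ᵥ x) = x + Bf Q hQ u x • s := by
  have hQus : Q (u + s) = 1 := by
    rw [Q_add Q hQ, hu, hs, hus]
    ring
  have e1 : Bf Q hQ (u + s) x = Bf Q hQ u x := by
    rw [map_add, LinearMap.add_apply, hsx, add_zero]
  have hsu : Bf Q hQ s u = 0 := by rw [Bf_symm Q hQ s u, hus]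
  constructor
  · have e2 : Bf Q hQ u (x - Bf Q hQ u x • (u + s)) = -Bf Q hQ u x := by
      simp only [map_sub, map_add, map_smul, smul_eq_mul, Bf_self Q hQ, hu, hus]
      ring
    rw [R_mulVec Q hQ (u + s) x, hQus, inv_one, one_mul, e1, R_mulVec, hu, inv_one, one_mul, e2]
    module
  · have e2 : Bf Q hQ (u + s) (x - Bf Q hQ u x • u) = -Bf Q hQ u x := by
      simp only [map_sub, map_add, map_smul, smul_eq_mul, LinearMap.add_apply, Bf_self Q hQ, hu,
        hsx, hsu]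
      ring
    rw [R_mulVec Q hQ u x, hu, inv_one, one_mul, R_mulVec, hQus, inv_one, one_mul, e2]
    module

/-- The commutator of two Siegel elements, as an element of `Ω` with an explicit action on
`⟨s₁, s₂⟩^⊥`. -/
theorem EC (s₁ s₂ u₁ u₂ : ι → F) (hs₁ : Q s₁ = 0) (hs₂ : Q s₂ = 0) (h12 : Bf Q hQ s₁ s₂ = 0)
    (hu₁ : Q u₁ = 1) (hu₂ : Q u₂ = 1) (h11 : Bf Q hQ u₁ s₁ = 0) (h22 : Bf Q hQ u₂ s₂ = 0)
    (h1s2 : Bf Q hQ u₁ s₂ = 1) (h2s1 : Bf Q hQ u₂ s₁ = 0) :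
    ∃ g : Matrix.GeneralLinearGroup ι F, g ∈ Cfsg.Geo.omegaGL Q ∧
      ∀ x, Bf Q hQ s₁ x = 0 → Bf Q hQ s₂ x = 0 →
        (g : Matrix ι ι F) *ᵥ x = x + Bf Q hQ u₂ x • s₁ := by
  have hq1 : Q (u₁ + s₁) = 1 := by
    rw [Q_add Q hQ, hu₁, hs₁, h11]
    ring
  have hq2 : Q (u₂ + s₂) = 1 := by
    rw [Q_add Q hQ, hu₂, hs₂, h22]
    ring
  have n1 : Q u₁ ≠ 0 := by
    rw [hu₁]
    exact one_ne_zero
  have n2 : Q u₂ ≠ 0 := by
    rw [hu₂]
    exact one_ne_zero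
  have n1' : Q (u₁ + s₁) ≠ 0 := by
    rw [hq1]
    exact one_ne_zero
  have n2' : Q (u₂ + s₂) ≠ 0 := by
    rw [hq2]
    exact one_ne_zero
  have h21 : Bf Q hQ s₂ s₁ = 0 := by rw [Bf_symm Q hQ s₂ s₁, h12]
  have hs11 : Bf Q hQ s₁ s₁ = 0 := by rw [Bf_self Q hQ, hs₁, mul_zero]
  have hs22 : Bf Q hQ s₂ s₂ = 0 := by rw [Bf_self Q hQ, hs₂, mul_zero]
  refine ⟨rG Q hQ u₁ n1 * rG Q hQ (u₁ + s₁) n1' * (rG Q hQ u₂ n2 * rG Q hQ (u₂ + s₂) n2')
      * (rG Q hQ u₁ n1 * rG Q hQ (u₁ + s₁) n1')⁻¹ * (rG Q hQ u₂ n2 * rG Q hQ (u₂ + s₂) n2')⁻¹,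
    comm_mem_omega Q _ _ (Subgroup.mul_mem _ (rG_mem Q hQ _ n1) (rG_mem Q hQ _ n1'))
      (Subgroup.mul_mem _ (rG_mem Q hQ _ n2) (rG_mem Q hQ _ n2')), fun x hx1 hx2 => ?_⟩
  show (R Q hQ u₁ * R Q hQ (u₁ + s₁) * (R Q hQ u₂ * R Q hQ (u₂ + s₂))
      * (R Q hQ (u₁ + s₁) * R Q hQ u₁) * (R Q hQ (u₂ + s₂) * R Q hQ u₂)) *ᵥ x = _
  simp only [← Matrix.mulVec_mulVec]
  obtain ⟨α, hα⟩ : ∃ α : F, α = Bf Q hQ u₁ x := ⟨_, rfl⟩
  obtain ⟨β, hβ⟩ : ∃ β : F, β = Bf Q hQ u₂ x := ⟨_, rfl⟩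
  have t1 : R Q hQ (u₂ + s₂) *ᵥ (R Q hQ u₂ *ᵥ x) = x + β • s₂ := by
    rw [(E_act Q hQ u₂ s₂ x hu₂ hs₂ h22 hx2).2, hβ]
  have o2 : Bf Q hQ s₁ (x + β • s₂) = 0 := by
    simp only [map_add, map_smul, smul_eq_mul, hx1, h12]
    ring
  have b2 : Bf Q hQ u₁ (x + β • s₂) = α + β := by
    simp only [map_add, map_smul, smul_eq_mul, h1s2, ← hα]
    ring
  have t2 : R Q hQ (u₁ + s₁) *ᵥ (R Q hQ u₁ *ᵥ (x + β • s₂)) = x + β • s₂ + (α + β) • s₁ := by
    rw [(E_act Q hQ u₁ s₁ (x + β • s₂) hu₁ hs₁ h11 o2).2, b2]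
  have o3 : Bf Q hQ s₂ (x + β • s₂ + (α + β) • s₁) = 0 := by
    simp only [map_add, map_smul, smul_eq_mul, hx2, hs22, h21]
    ring
  have b3 : Bf Q hQ u₂ (x + β • s₂ + (α + β) • s₁) = β := by
    simp only [map_add, map_smul, smul_eq_mul, h22, h2s1, ← hβ]
    ring
  have t3 : R Q hQ u₂ *ᵥ (R Q hQ (u₂ + s₂) *ᵥ (x + β • s₂ + (α + β) • s₁))
      = x + β • s₂ + (α + β) • s₁ - β • s₂ := by
    rw [(E_act Q hQ u₂ s₂ _ hu₂ hs₂ h22 o3).1, b3]
  have o4 : Bf Q hQ s₁ (x + β • s₂ + (α + β) • s₁ - β • s₂) = 0 := by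
    simp only [map_sub, map_add, map_smul, smul_eq_mul, hx1, h12, hs11]
    ring
  have b4 : Bf Q hQ u₁ (x + β • s₂ + (α + β) • s₁ - β • s₂) = α := by
    simp only [map_sub, map_add, map_smul, smul_eq_mul, h1s2, h11, ← hα]
    ring
  have t4 : R Q hQ u₁ *ᵥ (R Q hQ (u₁ + s₁) *ᵥ (x + β • s₂ + (α + β) • s₁ - β • s₂))
      = x + β • s₂ + (α + β) • s₁ - β • s₂ - α • s₁ := by
    rw [(E_act Q hQ u₁ s₁ _ hu₁ hs₁ h11 o4).1, b4]
  rw [t1, t2, t3, t4, ← hβ]
  module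

/-- Existence form of `EC`. -/
theorem EC' (s₁ s₂ v₀ : ι → F) (hs₁ : Q s₁ = 0) (hs₂ : Q s₂ = 0) (hv₀ : Q v₀ = 0)
    (h12 : Bf Q hQ s₁ s₂ = 0) (h1v : Bf Q hQ s₁ v₀ = 0) (h2v : Bf Q hQ s₂ v₀ = 0)
    (hi1 : s₂ ∉ Submodule.span F {s₁}) (hi2 : v₀ ∉ Submodule.span F {s₁, s₂}) :
    ∃ g : Matrix.GeneralLinearGroup ι F, g ∈ Cfsg.Geo.omegaGL Q ∧ ∃ u : ι → F,
      Bf Q hQ u v₀ = 1 ∧ ∀ x, Bf Q hQ s₁ x = 0 → Bf Q hQ s₂ x = 0 →
        (g : Matrix ι ι F) *ᵥ x = x + Bf Q hQ u x • s₁ := by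
  obtain ⟨a₀, ha₀, ha₀'⟩ := exists_dual Q hQ (Submodule.span F {s₁}) s₂ hi1
  obtain ⟨b₀, hb₀, hb₀'⟩ := exists_dual Q hQ (Submodule.span F {s₁, s₂}) v₀ hi2
  have ha1 : Bf Q hQ a₀ s₁ = 0 := ha₀' s₁ (Submodule.mem_span_singleton_self s₁)
  have hb1 : Bf Q hQ b₀ s₁ = 0 := hb₀' s₁ (Submodule.subset_span (by simp))
  have hb2 : Bf Q hQ b₀ s₂ = 0 := hb₀' s₂ (Submodule.subset_span (by simp))
  have h21 : Bf Q hQ s₂ s₁ = 0 := by rw [Bf_symm Q hQ s₂ s₁, h12]
  have hs22 : Bf Q hQ s₂ s₂ = 0 := by rw [Bf_self Q hQ, hs₂, mul_zero]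
  have hvv : Bf Q hQ v₀ v₀ = 0 := by rw [Bf_self Q hQ, hv₀, mul_zero]
  have hv1 : Bf Q hQ v₀ s₁ = 0 := by rw [Bf_symm Q hQ v₀ s₁, h1v]
  have hv2 : Bf Q hQ v₀ s₂ = 0 := by rw [Bf_symm Q hQ v₀ s₂, h2v]
  obtain ⟨u₁, hu₁d⟩ : ∃ u₁ : ι → F, u₁ = a₀ + (1 - Q a₀) • s₂ := ⟨_, rfl⟩
  obtain ⟨u₂, hu₂d⟩ : ∃ u₂ : ι → F, u₂ = b₀ + (1 - Q b₀) • v₀ := ⟨_, rfl⟩
  have hu₁ : Q u₁ = 1 := by
    rw [hu₁d]
    exact norm_vec Q hQ a₀ s₂ hs₂ ha₀
  have hu₂ : Q u₂ = 1 := by
    rw [hu₂d]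
    exact norm_vec Q hQ b₀ v₀ hv₀ hb₀
  have h11 : Bf Q hQ u₁ s₁ = 0 := by
    rw [hu₁d, map_add, map_smul, LinearMap.add_apply, LinearMap.smul_apply, ha1, h21, smul_zero,
      add_zero]
  have h1s2 : Bf Q hQ u₁ s₂ = 1 := by
    rw [hu₁d, map_add, map_smul, LinearMap.add_apply, LinearMap.smul_apply, ha₀, hs22, smul_zero,
      add_zero]
  have h22 : Bf Q hQ u₂ s₂ = 0 := by
    rw [hu₂d, map_add, map_smul, LinearMap.add_apply, LinearMap.smul_apply, hb2, hv2, smul_zero,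
      add_zero]
  have h2s1 : Bf Q hQ u₂ s₁ = 0 := by
    rw [hu₂d, map_add, map_smul, LinearMap.add_apply, LinearMap.smul_apply, hb1, hv1, smul_zero,
      add_zero]
  have h2v0 : Bf Q hQ u₂ v₀ = 1 := by
    rw [hu₂d, map_add, map_smul, LinearMap.add_apply, LinearMap.smul_apply, hb₀, hvv, smul_zero,
      add_zero]
  obtain ⟨g, hg, hgx⟩ := EC Q hQ s₁ s₂ u₁ u₂ hs₁ hs₂ h12 hu₁ hu₂ h11 h22 h1s2 h2s1
  exact ⟨g, hg, u₂, h2v0, hgx⟩

/-- A commutator of two reflections moving a singular vector by a non-singular one. -/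
theorem G2 (u v w : ι → F) (hu : Q u = 1) (hv : Q v = 1) (huv : Bf Q hQ u v = 1)
    (hvw : Bf Q hQ v w = 0) (huw : Bf Q hQ u w = 1) :
    ∃ g : Matrix.GeneralLinearGroup ι F, g ∈ Cfsg.Geo.omegaGL Q ∧
      (g : Matrix ι ι F) *ᵥ w = w - u + v := by
  have n1 : Q u ≠ 0 := by
    rw [hu]
    exact one_ne_zero
  have n2 : Q v ≠ 0 := by
    rw [hv]
    exact one_ne_zero
  have hvu : Bf Q hQ v u = 1 := by rw [Bf_symm Q hQ v u, huv]
  have hRu : ∀ y, R Q hQ u *ᵥ y = y - Bf Q hQ u y • u := by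
    intro y
    rw [R_mulVec, hu, inv_one, one_mul]
  have hRv : ∀ y, R Q hQ v *ᵥ y = y - Bf Q hQ v y • v := by
    intro y
    rw [R_mulVec, hv, inv_one, one_mul]
  refine ⟨rG Q hQ u n1 * rG Q hQ v n2 * (rG Q hQ u n1)⁻¹ * (rG Q hQ v n2)⁻¹,
    comm_mem_omega Q _ _ (rG_mem Q hQ _ n1) (rG_mem Q hQ _ n2), ?_⟩
  show (R Q hQ u * R Q hQ v * R Q hQ u * R Q hQ v) *ᵥ w = _
  simp only [← Matrix.mulVec_mulVec]
  have t1 : R Q hQ v *ᵥ w = w := by
    rw [hRv, hvw, zero_smul, sub_zero]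
  have t2 : R Q hQ u *ᵥ w = w - u := by
    rw [hRu, huw, one_smul]
  have t3 : R Q hQ v *ᵥ (w - u) = w - u + v := by
    rw [hRv, map_sub, hvw, hvu]
    module
  have t4 : R Q hQ u *ᵥ (w - u + v) = w - u + v := by
    rw [hRu, map_add, map_sub, huw, huv, Bf_self Q hQ, hu]
    module
  rw [t1, t2, t3, t4]

/-- Existence form of `G2`. -/
theorem G2' (w w' : ι → F) (hw : Q w = 0) (hw' : Q w' = 0) (hww' : Bf Q hQ w w' = 0)
    (hi1 : w' ∉ Submodule.span F {w}) (hi2 : w ∉ Submodule.span F {w'}) :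
    ∃ g : Matrix.GeneralLinearGroup ι F, g ∈ Cfsg.Geo.omegaGL Q ∧ ∃ y : ι → F, Q y ≠ 0 ∧
      (g : Matrix ι ι F) *ᵥ w = w + y := by
  obtain ⟨v₀, hv₀, hv₀'⟩ := exists_dual Q hQ (Submodule.span F {w}) w' hi1
  obtain ⟨u₀, hu₀, hu₀'⟩ := exists_dual Q hQ (Submodule.span F {w'}) w hi2
  have hv₀w : Bf Q hQ v₀ w = 0 := hv₀' w (Submodule.mem_span_singleton_self w)
  have hw'w : Bf Q hQ w' w = 0 := by rw [Bf_symm Q hQ w' w, hww']
  have hw'w' : Bf Q hQ w' w' = 0 := by rw [Bf_self Q hQ, hw', mul_zero]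
  have hwself : Bf Q hQ w w = 0 := by rw [Bf_self Q hQ, hw, mul_zero]
  obtain ⟨v, hvd⟩ : ∃ v : ι → F, v = v₀ + (1 - Q v₀) • w' := ⟨_, rfl⟩
  have hv : Q v = 1 := by
    rw [hvd]
    exact norm_vec Q hQ v₀ w' hw' hv₀
  have hvw : Bf Q hQ v w = 0 := by
    rw [hvd, map_add, map_smul, LinearMap.add_apply, LinearMap.smul_apply, hv₀w, hw'w, smul_zero,
      add_zero]
  have hvw' : Bf Q hQ v w' = 1 := by
    rw [hvd, map_add, map_smul, LinearMap.add_apply, LinearMap.smul_apply, hv₀, hw'w', smul_zero,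
      add_zero]
  have hw'v : Bf Q hQ w' v = 1 := by rw [Bf_symm Q hQ w' v, hvw']
  have hwv : Bf Q hQ w v = 0 := by rw [Bf_symm Q hQ w v, hvw]
  obtain ⟨u', hu'd⟩ : ∃ u' : ι → F, u' = u₀ + (1 - Bf Q hQ u₀ v) • w' := ⟨_, rfl⟩
  have hu'v : Bf Q hQ u' v = 1 := by
    rw [hu'd, map_add, map_smul, LinearMap.add_apply, LinearMap.smul_apply, hw'v, smul_eq_mul]
    ring
  have hu'w : Bf Q hQ u' w = 1 := by
    rw [hu'd, map_add, map_smul, LinearMap.add_apply, LinearMap.smul_apply, hu₀, hw'w, smul_zero,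
      add_zero]
  obtain ⟨u, hud⟩ : ∃ u : ι → F, u = u' + (1 - Q u') • w := ⟨_, rfl⟩
  have hu : Q u = 1 := by
    rw [hud]
    exact norm_vec Q hQ u' w hw hu'w
  have huv : Bf Q hQ u v = 1 := by
    rw [hud, map_add, map_smul, LinearMap.add_apply, LinearMap.smul_apply, hu'v, hwv, smul_zero,
      add_zero]
  have huw : Bf Q hQ u w = 1 := by
    rw [hud, map_add, map_smul, LinearMap.add_apply, LinearMap.smul_apply, hu'w, hwself,
      smul_zero, add_zero]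
  obtain ⟨g, hg, hgw⟩ := G2 Q hQ u v w hu hv huv hvw huw
  refine ⟨g, hg, v - u, ?_, ?_⟩
  · rw [Q_sub Q hQ, hv, hu, Bf_symm Q hQ v u, huv]
    norm_num
  · rw [hgw]
    abel

end base

end Cfsg.Agent.Helper4.TwoFamQ
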