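import Mathlib
import Cfsg.Prelude.Def_GeometricClasses
import Cfsg.Agent.Helper4.OrthPlane
import Cfsg.Agent.Helper4.OrthFrame
import Cfsg.Agent.Helper4.TensorO3
import Cfsg.Agent.Helper4.TwoFamQ
import Cfsg.Agent.S5705

set_option autoImplicit false
open Cfsg

/-!
Tools for showing that the stabiliser in `Ω` of an orthogonal decomposition is not maximal:
a generic criterion via an invariant set of vectors, Siegel elements in characteristic `2`,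
hyperbolic bases of `4`-dimensional plus-type spaces, and facts on the fields of order `2, 4, 5`.
-/

namespace Cfsg.Agent.Helper4.DecO

open Module Matrix Cfsg.Agent.Helper4.OrthPlane Cfsg.Agent.Helper4.OrthFrame

variable {ι : Type} [Fintype ι] [DecidableEq ι] {F : Type*} [Field F]

/-! ### Small fields -/

section fields

variable [Fintype F]

theorem two_eq_zero2 (hq : Fintype.card F = 2) : (2 : F) = 0 := by
  have h := Nat.cast_card_eq_zero F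
  rw [hq] at h
  exact_mod_cast h

theorem zero_or_one2 (hq : Fintype.card F = 2) (x : F) : x = 0 ∨ x = 1 := by
  by_contra hx
  push_neg at hx
  have h3 : 2 < Fintype.card F :=
    Fintype.two_lt_card_iff.mpr ⟨0, 1, x, zero_ne_one, hx.1.symm, hx.2.symm⟩
  omega

theorem two_eq_zero4 (hq : Fintype.card F = 4) : (2 : F) = 0 := by
  have h := Nat.cast_card_eq_zero F
  rw [hq] at h
  have h' : (4 : F) = 0 := by exact_mod_cast h
  have h4 : (2 : F) * 2 = 0 := by linear_combination h'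
  exact mul_self_eq_zero.mp h4

theorem exists_omega (hq : Fintype.card F = 4) : ∃ ω : F, ω ^ 2 + ω + 1 = 0 := by
  classical
  have hex : ∃ ω : F, ω ≠ 0 ∧ ω ≠ 1 := by
    by_contra hcon
    push_neg at hcon
    have hsub : (Finset.univ : Finset F) ⊆ {0, 1} := by
      intro x _
      by_cases hx : x = 0
      · rw [hx]
        simp
      · rw [hcon x hx]
        simp
    have h1 := Finset.card_le_card hsub
    rw [Finset.card_univ, hq] at h1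
    have h2 : ({0, 1} : Finset F).card ≤ 2 := Finset.card_le_two
    omega
  obtain ⟨ω, h0, h1⟩ := hex
  have h3 : ω ^ 3 = 1 := by
    have h := FiniteField.pow_card_sub_one_eq_one ω h0
    rw [hq] at h
    exact h
  have h4 : (ω - 1) * (ω ^ 2 + ω + 1) = 0 := by linear_combination h3
  rcases mul_eq_zero.mp h4 with h5 | h5
  · exact absurd (sub_eq_zero.mp h5) h1
  · exact ⟨ω, h5⟩

/-- Over `F₄`, the polar form of a hyperbolic plane takes values in `F₂` on pairs of vectors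
of norm `1`. -/
theorem f4_val (hq : Fintype.card F = 4) (α β γ δ : F) (h1 : α * β = 1) (h2 : γ * δ = 1) :
    α * δ + β * γ = 0 ∨ α * δ + β * γ = 1 := by
  have hch := two_eq_zero4 hq
  obtain ⟨r, hr⟩ : ∃ r : F, r = α * δ := ⟨_, rfl⟩
  obtain ⟨r', hr'⟩ : ∃ r' : F, r' = β * γ := ⟨_, rfl⟩
  have hrr : r * r' = 1 := by
    rw [hr, hr']
    linear_combination (γ * δ) * h1 + h2
  have hr0 : r ≠ 0 := by
    intro h0
    rw [h0, zero_mul] at hrr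
    exact zero_ne_one hrr
  have h3 : r ^ 3 = 1 := by
    have h := FiniteField.pow_card_sub_one_eq_one r hr0
    rw [hq] at h
    exact h
  have hr2 : r' = r ^ 2 := by linear_combination r ^ 2 * hrr - r' * h3
  have h5 : (r + r') * (r + r' + 1) = 0 := by
    rw [hr2]
    linear_combination r * h3 + (r ^ 3 + r ^ 2 + r) * hch
  rw [← hr, ← hr']
  rcases mul_eq_zero.mp h5 with h6 | h6
  · left
    exact h6
  · right
    linear_combination h6 - hch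

theorem f2_add (hch : (2 : F) = 0) (a b : F) (ha : a = 0 ∨ a = 1) (hb : b = 0 ∨ b = 1) :
    a + b = 0 ∨ a + b = 1 := by
  rcases ha with rfl | rfl <;> rcases hb with rfl | rfl
  · left
    rw [add_zero]
  · right
    rw [zero_add]
  · right
    rw [add_zero]
  · left
    linear_combination hch

theorem five_eq_zero (hq : Fintype.card F = 5) : (5 : F) = 0 := by
  have h := Nat.cast_card_eq_zero F
  rw [hq] at h
  exact_mod_cast h

theorem two_ne_zero5 (hq : Fintype.card F = 5) : (2 : F) ≠ 0 := by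
  intro h2
  have h5 := five_eq_zero hq
  have h1 : (1 : F) = 0 := by linear_combination h5 - 2 * h2
  exact one_ne_zero h1

theorem five_cases (hq : Fintype.card F = 5) (a : F) :
    a = 0 ∨ a = 1 ∨ a = 2 ∨ a = 3 ∨ a = 4 := by
  have h5 := five_eq_zero hq
  have hpow : a ^ 5 = a := by
    have h := FiniteField.pow_card a
    rw [hq] at h
    exact h
  have hprod : a * ((a - 1) * ((a - 2) * ((a - 3) * (a - 4)))) = 0 := by
    linear_combination hpow - (2 * a ^ 4 - 7 * a ^ 3 + 10 * a ^ 2 - 5 * a) * h5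
  rcases mul_eq_zero.mp hprod with h | h
  · left
    exact h
  rcases mul_eq_zero.mp h with h | h
  · right; left
    exact sub_eq_zero.mp h
  rcases mul_eq_zero.mp h with h | h
  · right; right; left
    exact sub_eq_zero.mp h
  rcases mul_eq_zero.mp h with h | h
  · right; right; right; left
    exact sub_eq_zero.mp h
  · right; right; right; right
    exact sub_eq_zero.mp h

end fields

theorem fin_ne {t : ℕ} (a b : ℕ) (ha : a < t) (hb : b < t) (hab : a ≠ b) :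
    (⟨a, ha⟩ : Fin t) ≠ ⟨b, hb⟩ := fun h => hab (congrArg Fin.val h)

theorem exists_five {t : ℕ} (ht : 5 ≤ t) :
    ∃ i₁ i₂ i₃ i₄ i₅ : Fin t, i₁ ≠ i₂ ∧ i₁ ≠ i₃ ∧ i₁ ≠ i₄ ∧ i₁ ≠ i₅ ∧ i₂ ≠ i₃ ∧ i₂ ≠ i₄ ∧
      i₂ ≠ i₅ ∧ i₃ ≠ i₄ ∧ i₃ ≠ i₅ ∧ i₄ ≠ i₅ :=
  ⟨⟨0, by omega⟩, ⟨1, by omega⟩, ⟨2, by omega⟩, ⟨3, by omega⟩, ⟨4, by omega⟩,
    fin_ne 0 1 _ _ (by omega), fin_ne 0 2 _ _ (by omega), fin_ne 0 3 _ _ (by omega),
    fin_ne 0 4 _ _ (by omega), fin_ne 1 2 _ _ (by omega), fin_ne 1 3 _ _ (by omega),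
    fin_ne 1 4 _ _ (by omega), fin_ne 2 3 _ _ (by omega), fin_ne 2 4 _ _ (by omega),
    fin_ne 3 4 _ _ (by omega)⟩

/-- A matrix mapping a set into the additive subgroup it generates preserves that subgroup. -/
theorem cl_maps (S : Set (ι → F)) (M : Matrix ι ι F)
    (h : ∀ w ∈ S, M *ᵥ w ∈ AddSubgroup.closure S) :
    ∀ w ∈ AddSubgroup.closure S, M *ᵥ w ∈ AddSubgroup.closure S := by
  intro w hw
  refine AddSubgroup.closure_induction (p := fun w _ => M *ᵥ w ∈ AddSubgroup.closure S)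
    (fun x hx => h x hx) ?_ ?_ ?_ hw
  · show M *ᵥ (0 : ι → F) ∈ AddSubgroup.closure S
    rw [Matrix.mulVec_zero]
    exact AddSubgroup.zero_mem _
  · intro x y _ _ hx hy
    show M *ᵥ (x + y) ∈ AddSubgroup.closure S
    rw [Matrix.mulVec_add]
    exact AddSubgroup.add_mem _ hx hy
  · intro x _ hx
    show M *ᵥ (-x) ∈ AddSubgroup.closure S
    rw [Matrix.mulVec_neg]
    exact AddSubgroup.neg_mem _ hx

theorem smul01 (V₀ : AddSubgroup (ι → F)) (c : F) (hc : c = 0 ∨ c = 1) (y : ι → F)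
    (hy : y ∈ V₀) : c • y ∈ V₀ := by
  rcases hc with rfl | rfl
  · rw [zero_smul]
    exact V₀.zero_mem
  · rw [one_smul]
    exact hy

section gen

variable (Q : (ι → F) → F)

/-- The generic criterion: a set `T` of vectors preserved by the decomposition stabiliser in `Ω`,
an element of `Ω` preserving `T` but not the decomposition, and an element of `Ω` not
preserving `T`. -/
theorem gen_core [Fintype F] {t : ℕ} (D : Fin t → Submodule F (ι → F)) (T : Set (ι → F))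
    (hT : ∀ g : Matrix.GeneralLinearGroup ι F, g ∈ Cfsg.Geo.decompositionStabilizer D →
      g ∈ Cfsg.Geo.omegaGL Q → ∀ w ∈ T, (g : Matrix ι ι F) *ᵥ w ∈ T)
    (g₁ g₂ : Matrix.GeneralLinearGroup ι F) (hg₁Ω : g₁ ∈ Cfsg.Geo.omegaGL Q)
    (hg₂Ω : g₂ ∈ Cfsg.Geo.omegaGL Q) (hg₁T : ∀ w ∈ T, (g₁ : Matrix ι ι F) *ᵥ w ∈ T)
    (hg₁D : g₁ ∉ Cfsg.Geo.decompositionStabilizer D)
    (w₀ : ι → F) (hw₀ : w₀ ∈ T) (hg₂T : (g₂ : Matrix ι ι F) *ᵥ w₀ ∉ T) :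
    ∃ K : Subgroup (Matrix.GeneralLinearGroup ι F),
      Cfsg.Geo.decompositionStabilizer D ⊓ Cfsg.Geo.omegaGL Q < K ∧ K < Cfsg.Geo.omegaGL Q := by
  have hle : Cfsg.Geo.decompositionStabilizer D ⊓ Cfsg.Geo.omegaGL Q
      ≤ Cfsg.stabilizing (Cfsg.glToMat ι F) T ⊓ Cfsg.Geo.omegaGL Q := by
    rintro g ⟨hgD, hgΩ⟩
    exact ⟨stab_of_maps T g (hT g hgD hgΩ), hgΩ⟩
  have hg₁S : g₁ ∈ Cfsg.stabilizing (Cfsg.glToMat ι F) T := stab_of_maps T g₁ hg₁T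
  have hg₂S : g₂ ∉ Cfsg.stabilizing (Cfsg.glToMat ι F) T := by
    intro hmem
    exact hg₂T ((hmem w₀).mp hw₀)
  refine ⟨Cfsg.stabilizing (Cfsg.glToMat ι F) T ⊓ Cfsg.Geo.omegaGL Q, ?_, ?_⟩
  · refine lt_of_le_of_ne hle (fun heq => hg₁D ?_)
    have h5 : g₁ ∈ Cfsg.Geo.decompositionStabilizer D ⊓ Cfsg.Geo.omegaGL Q := by
      rw [heq]
      exact ⟨hg₁S, hg₁Ω⟩
    exact h5.1
  · refine lt_of_le_of_ne inf_le_right (fun heq => hg₂S ?_)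
    have h5 : g₂ ∈ Cfsg.stabilizing (Cfsg.glToMat ι F) T ⊓ Cfsg.Geo.omegaGL Q := by
      rw [heq]
      exact hg₂Ω
    exact h5.1

/-- The decomposition stabiliser in `Ω` preserves the set of vectors of norm `c` lying in a
member of the decomposition. -/
theorem S_inv {t : ℕ} (D : Fin t → Submodule F (ι → F)) (c : F)
    (g : Matrix.GeneralLinearGroup ι F) (hgD : g ∈ Cfsg.Geo.decompositionStabilizer D)
    (hgΩ : g ∈ Cfsg.Geo.omegaGL Q) (w : ι → F) (hw : ∃ l, w ∈ D l ∧ Q w = c) :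
    ∃ l, (g : Matrix ι ι F) *ᵥ w ∈ D l ∧ Q ((g : Matrix ι ι F) *ᵥ w) = c := by
  obtain ⟨σ, hσ⟩ : ∃ σ : Equiv.Perm (Fin t),
      ∀ i, (D i).map (Matrix.toLin' (g : Matrix ι ι F)) = D (σ i) := hgD
  obtain ⟨l, hwl, hQw⟩ := hw
  have hiso : Q ((g : Matrix ι ι F) *ᵥ w) = Q w := omega_le_isom Q g hgΩ w w
  refine ⟨σ l, ?_, ?_⟩
  · rw [← hσ l]
    exact Submodule.mem_map.mpr ⟨w, hwl, Matrix.toLin'_apply _ _⟩
  · rw [hiso, hQw]

theorem block_eq (hQ : Cfsg.Geo.IsNondegenerateQuadraticForm Q) {t : ℕ}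
    (D : Fin t → Submodule F (ι → F))
    (horth : ∀ i j, i ≠ j → ∀ u ∈ D i, ∀ v ∈ D j, Bf Q hQ u v = 0)
    (x z : ι → F) (l j : Fin t) (hx : x ∈ D l) (hz : z ∈ D j) (h : Bf Q hQ z x ≠ 0) : l = j := by
  by_contra hne
  exact h (horth j l (Ne.symm hne) z hz x hx)

theorem not_block (hQ : Cfsg.Geo.IsNondegenerateQuadraticForm Q) {t : ℕ}
    (D : Fin t → Submodule F (ι → F))
    (horth : ∀ i j, i ≠ j → ∀ u ∈ D i, ∀ v ∈ D j, Bf Q hQ u v = 0)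
    (x z₁ z₂ : ι → F) (j₁ j₂ : Fin t) (hj : j₁ ≠ j₂) (hz₁ : z₁ ∈ D j₁) (hz₂ : z₂ ∈ D j₂)
    (h1 : Bf Q hQ z₁ x ≠ 0) (h2 : Bf Q hQ z₂ x ≠ 0) : ∀ l, x ∉ D l := by
  intro l hx
  have e1 := block_eq Q hQ D horth x z₁ l j₁ hx hz₁ h1
  have e2 := block_eq Q hQ D horth x z₂ l j₂ hx hz₂ h2
  exact hj (e1.symm.trans e2)

theorem not_stab (hQ : Cfsg.Geo.IsNondegenerateQuadraticForm Q) {t : ℕ}
    (D : Fin t → Submodule F (ι → F))
    (horth : ∀ i j, i ≠ j → ∀ u ∈ D i, ∀ v ∈ D j, Bf Q hQ u v = 0)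
    (g : Matrix.GeneralLinearGroup ι F) (i j₁ j₂ : Fin t) (hj : j₁ ≠ j₂)
    (p p' z₁ z₂ : ι → F) (hp : p ∈ D i) (hp' : p' ∈ D i) (hz₁ : z₁ ∈ D j₁) (hz₂ : z₂ ∈ D j₂)
    (h1 : Bf Q hQ z₁ ((g : Matrix ι ι F) *ᵥ p) ≠ 0)
    (h2 : Bf Q hQ z₂ ((g : Matrix ι ι F) *ᵥ p') ≠ 0) :
    g ∉ Cfsg.Geo.decompositionStabilizer D := by
  intro hmemD
  obtain ⟨σ, hσ⟩ : ∃ σ : Equiv.Perm (Fin t),
      ∀ i, (D i).map (Matrix.toLin' (g : Matrix ι ι F)) = D (σ i) := hmemD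
  have hmem : ∀ w : ι → F, w ∈ D i → (g : Matrix ι ι F) *ᵥ w ∈ D (σ i) := by
    intro w hw
    rw [← hσ i]
    exact Submodule.mem_map.mpr ⟨w, hw, Matrix.toLin'_apply _ _⟩
  have e1 := block_eq Q hQ D horth _ z₁ (σ i) j₁ (hmem p hp) hz₁ h1
  have e2 := block_eq Q hQ D horth _ z₂ (σ i) j₂ (hmem p' hp') hz₂ h2
  exact hj (e1.symm.trans e2)

/-! ### Hyperbolic coordinates -/

theorem Q_hyp (hQ : Cfsg.Geo.IsNondegenerateQuadraticForm Q) (e f : ι → F) (hQe : Q e = 0)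
    (hQf : Q f = 0) (hef : Bf Q hQ e f = 1) (α β : F) : Q (α • e + β • f) = α * β := by
  rw [Q_add_smul Q hQ, hQ.smul, hQe, hQf]
  simp only [map_smul, LinearMap.smul_apply, smul_eq_mul, hef]
  ring

theorem B_hyp (hQ : Cfsg.Geo.IsNondegenerateQuadraticForm Q) (e f : ι → F) (hQe : Q e = 0)
    (hQf : Q f = 0) (hef : Bf Q hQ e f = 1) (α β γ δ : F) :
    Bf Q hQ (α • e + β • f) (γ • e + δ • f) = α * δ + β * γ := by
  have hee : Bf Q hQ e e = 0 := by rw [Bf_self Q hQ, hQe, mul_zero]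
  have hff : Bf Q hQ f f = 0 := by rw [Bf_self Q hQ, hQf, mul_zero]
  have hfe : Bf Q hQ f e = 1 := by
    rw [Bf_symm Q hQ f e]
    exact hef
  simp only [map_add, map_smul, smul_eq_mul, LinearMap.add_apply, LinearMap.smul_apply, hee, hff,
    hef, hfe]
  ring

theorem plus_iff_sing (hQ : Cfsg.Geo.IsNondegenerateQuadraticForm Q) (W : Submodule F (ι → F))
    (hdim : Module.finrank F W = 2) :
    Cfsg.Geo.IsPlusTypeOn Q W ↔ ∃ v ∈ W, v ≠ 0 ∧ Q v = 0 := by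
  constructor
  · rintro ⟨U, hUW, hU0, hUdim⟩
    have hU1 : Module.finrank F U = 1 := by omega
    have hUne : U ≠ ⊥ := by
      intro h
      rw [h] at hU1
      simp at hU1
    obtain ⟨e, heU, he0⟩ := (Submodule.ne_bot_iff _).mp hUne
    exact ⟨e, hUW heU, he0, hU0 e heU⟩
  · rintro ⟨v, hvW, hv0, hQv⟩
    refine ⟨Submodule.span F {v}, ?_, ?_, ?_⟩
    · rw [Submodule.span_le]
      intro z hz
      rw [Set.mem_singleton_iff] at hz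
      rw [hz]
      exact hvW
    · intro w hw
      obtain ⟨c, rfl⟩ := Submodule.mem_span_singleton.mp hw
      rw [hQ.smul, hQv, mul_zero]
    · have h1 : Module.finrank F (Submodule.span F {v}) = 1 := finrank_span_singleton hv0
      omega

theorem sing_iso (W W' : Submodule F (ι → F)) (h : Cfsg.Geo.AreIsometricFor Q W W')
    (hs : ∃ v ∈ W, v ≠ 0 ∧ Q v = 0) : ∃ v ∈ W', v ≠ 0 ∧ Q v = 0 := by
  obtain ⟨ε, hε⟩ := h
  obtain ⟨v, hv, hv0, hQv⟩ := hs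
  refine ⟨((ε ⟨v, hv⟩ : W') : ι → F), (ε ⟨v, hv⟩).2, ?_, ?_⟩
  · intro h0
    have h1 : ε ⟨v, hv⟩ = 0 := Subtype.ext h0
    have h2 : (⟨v, hv⟩ : W) = 0 := ε.map_eq_zero_iff.mp h1
    exact hv0 (congrArg Subtype.val h2)
  · rw [hε ⟨v, hv⟩]
    exact hQv

/-! ### Siegel elements in characteristic 2 -/

theorem siegel (hQ : Cfsg.Geo.IsNondegenerateQuadraticForm Q) (hch : (2 : F) = 0)
    (s₁ s₂ : ι → F) (h1 : Q s₁ = 0) (h2 : Q s₂ = 0) (h12 : Bf Q hQ s₁ s₂ = 0) :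
    ∃ τ : Matrix.GeneralLinearGroup ι F, τ ∈ Cfsg.isometryGroup F Q ∧
      (∀ x, (τ : Matrix ι ι F) *ᵥ x = x + Bf Q hQ s₂ x • s₁ + Bf Q hQ s₁ x • s₂) ∧
      (∀ x, ((τ⁻¹ : Matrix.GeneralLinearGroup ι F) : Matrix ι ι F) *ᵥ x
        = x + Bf Q hQ s₂ x • s₁ + Bf Q hQ s₁ x • s₂) := by
  have h21 : Bf Q hQ s₂ s₁ = 0 := by
    rw [Bf_symm Q hQ s₂ s₁]
    exact h12
  have h11 : Bf Q hQ s₁ s₁ = 0 := by rw [Bf_self Q hQ, h1, mul_zero]
  have h22 : Bf Q hQ s₂ s₂ = 0 := by rw [Bf_self Q hQ, h2, mul_zero]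
  obtain ⟨M, hMdef⟩ : ∃ M : Matrix ι ι F, M = 1 + Matrix.vecMulVec s₁ (dualVec (Bf Q hQ s₂))
      + Matrix.vecMulVec s₂ (dualVec (Bf Q hQ s₁)) := ⟨_, rfl⟩
  have hM : ∀ x, M *ᵥ x = x + Bf Q hQ s₂ x • s₁ + Bf Q hQ s₁ x • s₂ := by
    intro x
    rw [hMdef]
    simp only [Matrix.add_mulVec, Matrix.one_mulVec, Matrix.vecMulVec_mulVec, dualVec_dot]
    ext i
    simp only [Pi.add_apply, Pi.smul_apply, smul_eq_mul, MulOpposite.smul_eq_mul_unop,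
      MulOpposite.unop_op]
    ring
  have hMM : M * M = 1 := by
    apply mat_ext
    intro x
    rw [← Matrix.mulVec_mulVec, Matrix.one_mulVec, hM x, hM]
    have e1 : Bf Q hQ s₂ (x + Bf Q hQ s₂ x • s₁ + Bf Q hQ s₁ x • s₂) = Bf Q hQ s₂ x := by
      simp only [map_add, map_smul, smul_eq_mul, h21, h22, mul_zero, add_zero]
    have e2 : Bf Q hQ s₁ (x + Bf Q hQ s₂ x • s₁ + Bf Q hQ s₁ x • s₂) = Bf Q hQ s₁ x := by
      simp only [map_add, map_smul, smul_eq_mul, h11, h12, mul_zero, add_zero]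
    rw [e1, e2]
    have e3 : x + Bf Q hQ s₂ x • s₁ + Bf Q hQ s₁ x • s₂ + Bf Q hQ s₂ x • s₁ + Bf Q hQ s₁ x • s₂
        = x + ((2 : F) * Bf Q hQ s₂ x) • s₁ + ((2 : F) * Bf Q hQ s₁ x) • s₂ := by module
    rw [e3]
    simp only [hch, zero_mul, zero_smul, add_zero]
  have hiso : ∀ x, Q (M *ᵥ x) = Q x := by
    intro x
    rw [hM, Q_add_smul Q hQ, Q_add_smul Q hQ, h1, h2]
    simp only [map_add, map_smul, smul_eq_mul, LinearMap.add_apply, LinearMap.smul_apply, h12]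
    rw [Bf_symm Q hQ x s₁, Bf_symm Q hQ x s₂]
    linear_combination (Bf Q hQ s₂ x * Bf Q hQ s₁ x) * hch
  refine ⟨⟨M, M, hMM, hMM⟩, ?_, hM, hM⟩
  show ∀ u w : ι → F, Q (M *ᵥ u) = Q u
  intro u _
  exact hiso u

/-- `M` interchanges the planes `⟨a, b⟩` and `⟨a', b'⟩` and fixes their common perp. -/
def IsSwap (hQ : Cfsg.Geo.IsNondegenerateQuadraticForm Q) (M : Matrix ι ι F)
    (a b a' b' : ι → F) : Prop :=
  M *ᵥ a = a' ∧ M *ᵥ b = b' ∧ M *ᵥ a' = a ∧ M *ᵥ b' = b ∧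
    ∀ z, Bf Q hQ a z = 0 → Bf Q hQ b z = 0 → Bf Q hQ a' z = 0 → Bf Q hQ b' z = 0 → M *ᵥ z = z

theorem swap_of_formula (hQ : Cfsg.Geo.IsNondegenerateQuadraticForm Q) (hch : (2 : F) = 0)
    (M : Matrix ι ι F) (a b a' b' : ι → F)
    (hab : Bf Q hQ a b = 1) (hab' : Bf Q hQ a' b' = 1)
    (h1 : Bf Q hQ a a' = 0) (h2 : Bf Q hQ a b' = 0) (h3 : Bf Q hQ b a' = 0)
    (h4 : Bf Q hQ b b' = 0)
    (hM : ∀ x, M *ᵥ x = x + Bf Q hQ (b + b') x • (a + a') + Bf Q hQ (a + a') x • (b + b')) :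
    IsSwap Q hQ M a b a' b' := by
  have haa : Bf Q hQ a a = 0 := by rw [Bf_self Q hQ, hch, zero_mul]
  have hbb : Bf Q hQ b b = 0 := by rw [Bf_self Q hQ, hch, zero_mul]
  have ha'a' : Bf Q hQ a' a' = 0 := by rw [Bf_self Q hQ, hch, zero_mul]
  have hb'b' : Bf Q hQ b' b' = 0 := by rw [Bf_self Q hQ, hch, zero_mul]
  have hba : Bf Q hQ b a = 1 := by
    rw [Bf_symm Q hQ b a]
    exact hab
  have hb'a' : Bf Q hQ b' a' = 1 := by
    rw [Bf_symm Q hQ b' a']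
    exact hab'
  have ha'a : Bf Q hQ a' a = 0 := by
    rw [Bf_symm Q hQ a' a]
    exact h1
  have hb'a : Bf Q hQ b' a = 0 := by
    rw [Bf_symm Q hQ b' a]
    exact h2
  have ha'b : Bf Q hQ a' b = 0 := by
    rw [Bf_symm Q hQ a' b]
    exact h3
  have hb'b : Bf Q hQ b' b = 0 := by
    rw [Bf_symm Q hQ b' b]
    exact h4
  refine ⟨?_, ?_, ?_, ?_, ?_⟩
  · rw [hM]
    simp only [map_add, LinearMap.add_apply, hba, hb'a, haa, ha'a]
    funext k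
    simp only [Pi.add_apply, Pi.smul_apply, smul_eq_mul]
    linear_combination (a k) * hch
  · rw [hM]
    simp only [map_add, LinearMap.add_apply, hbb, hb'b, hab, ha'b]
    funext k
    simp only [Pi.add_apply, Pi.smul_apply, smul_eq_mul]
    linear_combination (b k) * hch
  · rw [hM]
    simp only [map_add, LinearMap.add_apply, h3, hb'a', h1, ha'a']
    funext k
    simp only [Pi.add_apply, Pi.smul_apply, smul_eq_mul]
    linear_combination (a' k) * hch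
  · rw [hM]
    simp only [map_add, LinearMap.add_apply, h4, hb'b', h2, hab']
    funext k
    simp only [Pi.add_apply, Pi.smul_apply, smul_eq_mul]
    linear_combination (b' k) * hch
  · intro z hz1 hz2 hz3 hz4
    rw [hM]
    simp only [map_add, LinearMap.add_apply, hz1, hz2, hz3, hz4]
    funext k
    simp only [Pi.add_apply, Pi.smul_apply, smul_eq_mul]
    ring

theorem plane_swap (hQ : Cfsg.Geo.IsNondegenerateQuadraticForm Q) (hch : (2 : F) = 0)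
    (a b a' b' : ι → F)
    (Qa : Q a = 1) (Qb : Q b = 1) (Qa' : Q a' = 1) (Qb' : Q b' = 1)
    (hab : Bf Q hQ a b = 1) (hab' : Bf Q hQ a' b' = 1)
    (h1 : Bf Q hQ a a' = 0) (h2 : Bf Q hQ a b' = 0) (h3 : Bf Q hQ b a' = 0)
    (h4 : Bf Q hQ b b' = 0) :
    ∃ τ : Matrix.GeneralLinearGroup ι F, τ ∈ Cfsg.isometryGroup F Q ∧
      IsSwap Q hQ (τ : Matrix ι ι F) a b a' b' ∧
      IsSwap Q hQ ((τ⁻¹ : Matrix.GeneralLinearGroup ι F) : Matrix ι ι F) a b a' b' := by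
  have hs1 : Q (a + a') = 0 := by
    rw [Q_add Q hQ, Qa, Qa', h1]
    linear_combination hch
  have hs2 : Q (b + b') = 0 := by
    rw [Q_add Q hQ, Qb, Qb', h4]
    linear_combination hch
  have ha'b : Bf Q hQ a' b = 0 := by
    rw [Bf_symm Q hQ a' b]
    exact h3
  have hs12 : Bf Q hQ (a + a') (b + b') = 0 := by
    simp only [map_add, LinearMap.add_apply, hab, hab', h2, ha'b]
    linear_combination hch
  obtain ⟨τ, hτ, hf, hf'⟩ := siegel Q hQ hch (a + a') (b + b') hs1 hs2 hs12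
  exact ⟨τ, hτ, swap_of_formula Q hQ hch _ a b a' b' hab hab' h1 h2 h3 h4 hf,
    swap_of_formula Q hQ hch _ a b a' b' hab hab' h1 h2 h3 h4 hf'⟩

/-- A `3`-cycle on three pairwise orthogonal anisotropic planes (characteristic `2`), as an
element of `Ω`. -/
theorem plane3 (hQ : Cfsg.Geo.IsNondegenerateQuadraticForm Q) (hch : (2 : F) = 0)
    (a₁ b₁ a₂ b₂ a₃ b₃ : ι → F)
    (Qa₁ : Q a₁ = 1) (Qb₁ : Q b₁ = 1) (Qa₂ : Q a₂ = 1) (Qb₂ : Q b₂ = 1) (Qa₃ : Q a₃ = 1)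
    (Qb₃ : Q b₃ = 1)
    (h11 : Bf Q hQ a₁ b₁ = 1) (h22 : Bf Q hQ a₂ b₂ = 1) (h33 : Bf Q hQ a₃ b₃ = 1)
    (c1 : Bf Q hQ a₁ a₂ = 0) (c2 : Bf Q hQ a₁ b₂ = 0) (c3 : Bf Q hQ b₁ a₂ = 0)
    (c4 : Bf Q hQ b₁ b₂ = 0)
    (d1 : Bf Q hQ a₁ a₃ = 0) (d2 : Bf Q hQ a₁ b₃ = 0) (d3 : Bf Q hQ b₁ a₃ = 0)
    (d4 : Bf Q hQ b₁ b₃ = 0)
    (e1 : Bf Q hQ a₂ a₃ = 0) (e2 : Bf Q hQ a₂ b₃ = 0) (e3 : Bf Q hQ b₂ a₃ = 0)
    (e4 : Bf Q hQ b₂ b₃ = 0) :
    ∃ g : Matrix.GeneralLinearGroup ι F, g ∈ Cfsg.Geo.omegaGL Q ∧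
      (g : Matrix ι ι F) *ᵥ a₁ = a₃ ∧ (g : Matrix ι ι F) *ᵥ b₁ = b₃ ∧
      (g : Matrix ι ι F) *ᵥ a₂ = a₁ ∧ (g : Matrix ι ι F) *ᵥ b₂ = b₁ ∧
      (g : Matrix ι ι F) *ᵥ a₃ = a₂ ∧ (g : Matrix ι ι F) *ᵥ b₃ = b₂ ∧
      ∀ z, Bf Q hQ a₁ z = 0 → Bf Q hQ b₁ z = 0 → Bf Q hQ a₂ z = 0 → Bf Q hQ b₂ z = 0 →
        Bf Q hQ a₃ z = 0 → Bf Q hQ b₃ z = 0 → (g : Matrix ι ι F) *ᵥ z = z := by
  obtain ⟨τ, hτ, ⟨t1, t2, t3, t4, tf⟩, ⟨t1', t2', t3', t4', tf'⟩⟩ :=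
    plane_swap Q hQ hch a₁ b₁ a₂ b₂ Qa₁ Qb₁ Qa₂ Qb₂ h11 h22 c1 c2 c3 c4
  obtain ⟨ρ, hρ, ⟨r1, r2, r3, r4, rf⟩, ⟨r1', r2', r3', r4', rf'⟩⟩ :=
    plane_swap Q hQ hch a₂ b₂ a₃ b₃ Qa₂ Qb₂ Qa₃ Qb₃ h22 h33 e1 e2 e3 e4
  have sy : ∀ u v : ι → F, Bf Q hQ u v = 0 → Bf Q hQ v u = 0 := by
    intro u v h
    rw [Bf_symm Q hQ v u]
    exact h
  have hval : ∀ u, ((τ * ρ * τ⁻¹ * ρ⁻¹ : Matrix.GeneralLinearGroup ι F) : Matrix ι ι F) *ᵥ u
      = (τ : Matrix ι ι F) *ᵥ ((ρ : Matrix ι ι F) *ᵥ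
        (((τ⁻¹ : Matrix.GeneralLinearGroup ι F) : Matrix ι ι F) *ᵥ
          (((ρ⁻¹ : Matrix.GeneralLinearGroup ι F) : Matrix ι ι F) *ᵥ u))) := by
    intro u
    rw [Units.val_mul, Units.val_mul, Units.val_mul, ← Matrix.mulVec_mulVec,
      ← Matrix.mulVec_mulVec, ← Matrix.mulVec_mulVec]
  refine ⟨τ * ρ * τ⁻¹ * ρ⁻¹, comm_mem_omega Q τ ρ hτ hρ, ?_, ?_, ?_, ?_, ?_, ?_, ?_⟩
  · rw [hval, rf' a₁ (sy _ _ c1) (sy _ _ c2) (sy _ _ d1) (sy _ _ d2), t1', r1,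
      tf a₃ d1 d3 e1 e3]
  · rw [hval, rf' b₁ (sy _ _ c3) (sy _ _ c4) (sy _ _ d3) (sy _ _ d4), t2', r2,
      tf b₃ d2 d4 e2 e4]
  · rw [hval, r1', tf' a₃ d1 d3 e1 e3, r3, t3]
  · rw [hval, r2', tf' b₃ d2 d4 e2 e4, r4, t4]
  · rw [hval, r3', t3', rf a₁ (sy _ _ c1) (sy _ _ c2) (sy _ _ d1) (sy _ _ d2), t1]
  · rw [hval, r4', t4', rf b₁ (sy _ _ c3) (sy _ _ c4) (sy _ _ d3) (sy _ _ d4), t2]
  · intro z hz1 hz2 hz3 hz4 hz5 hz6
    rw [hval, rf' z hz3 hz4 hz5 hz6, tf' z hz1 hz2 hz3 hz4, rf z hz3 hz4 hz5 hz6,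
      tf z hz1 hz2 hz3 hz4]

end gen

end Cfsg.Agent.Helper4.DecO
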