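import Mathlib
import Cfsg.Prelude.Def_GeometricClasses
import Cfsg.Agent.Helper4.DecO

set_option autoImplicit false
open Cfsg

/-!
Non-maximality of the stabiliser in `Ω` of an orthogonal decomposition into plus-type planes
over the fields of order `2, 3, 4, 5`, and into plus-type `4`-spaces over the field of order `2`.
-/

namespace Cfsg.Agent.Helper4.DecO

open Module Matrix Cfsg.Agent.Helper4.OrthPlane Cfsg.Agent.Helper4.OrthFrame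

variable {ι : Type} [Fintype ι] [DecidableEq ι] {F : Type*} [Field F]

section cases

variable (Q : (ι → F) → F)

theorem hyp_partner (hQ : Cfsg.Geo.IsNondegenerateQuadraticForm Q) (W : Submodule F (ι → F))
    (e z : ι → F) (heW : e ∈ W) (hzW : z ∈ W) (hQe : Q e = 0) (hz : Bf Q hQ z e ≠ 0) :
    ∃ f : ι → F, f ∈ W ∧ Q f = 0 ∧ Bf Q hQ e f = 1 ∧ ∃ c d : F, f = c • z + d • e := by
  obtain ⟨f', hf'⟩ : ∃ f' : ι → F, f' = (Bf Q hQ z e)⁻¹ • z := ⟨_, rfl⟩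
  have hf'W : f' ∈ W := by
    rw [hf']
    exact W.smul_mem _ hzW
  have hf'e : Bf Q hQ f' e = 1 := by
    rw [hf', map_smul, LinearMap.smul_apply, smul_eq_mul, inv_mul_cancel₀ hz]
  have hee : Bf Q hQ e e = 0 := by rw [Bf_self, hQe, mul_zero]
  obtain ⟨f, hf⟩ : ∃ f : ι → F, f = f' - Q f' • e := ⟨_, rfl⟩
  have hfW : f ∈ W := by
    rw [hf]
    exact W.sub_mem hf'W (W.smul_mem _ heW)
  have hQf : Q f = 0 := by
    rw [hf, Q_sub Q hQ, hQ.smul, hQe, map_smul, smul_eq_mul, hf'e]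
    ring
  have hef : Bf Q hQ e f = 1 := by
    rw [hf, map_sub, map_smul, hee, Bf_symm Q hQ e f', hf'e, smul_zero, sub_zero]
  refine ⟨f, hfW, hQf, hef, (Bf Q hQ z e)⁻¹, -Q f', ?_⟩
  rw [hf, hf']
  module

/-- A hyperbolic basis of a non-degenerate `4`-space of plus type. -/
theorem exists_hyp4 (hQ : Cfsg.Geo.IsNondegenerateQuadraticForm Q) (W : Submodule F (ι → F))
    (hdim : Module.finrank F W = 4)
    (hW : Cfsg.Geo.IsNondegenerateOn (QuadraticMap.polar Q) W)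
    (hWp : Cfsg.Geo.IsPlusTypeOn Q W) :
    ∃ e₁ f₁ e₂ f₂ : ι → F, e₁ ∈ W ∧ f₁ ∈ W ∧ e₂ ∈ W ∧ f₂ ∈ W ∧
      Q e₁ = 0 ∧ Q f₁ = 0 ∧ Q e₂ = 0 ∧ Q f₂ = 0 ∧
      Bf Q hQ e₁ f₁ = 1 ∧ Bf Q hQ e₂ f₂ = 1 ∧ Bf Q hQ e₁ e₂ = 0 ∧ Bf Q hQ e₁ f₂ = 0 ∧
      Bf Q hQ f₁ e₂ = 0 ∧ Bf Q hQ f₁ f₂ = 0 ∧
      ∀ w ∈ W, ∃ α₁ β₁ α₂ β₂ : F, w = α₁ • e₁ + β₁ • f₁ + α₂ • e₂ + β₂ • f₂ := by
  obtain ⟨U, hUW, hU0, hUdim⟩ := hWp
  have hU2 : Module.finrank F U = 2 := by omega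
  obtain ⟨e₁, he₁U, e₂', he₂'U, he₁0, -, hind, -⟩ :=
    Cfsg.Agent.Helper4.TwoFamQ.indep_pair U (by omega)
  have he₁W : e₁ ∈ W := hUW he₁U
  have hQe₁ : Q e₁ = 0 := hU0 e₁ he₁U
  have hUorth : ∀ u ∈ U, ∀ u' ∈ U, Bf Q hQ u u' = 0 := by
    intro u hu u' hu'
    have h := Q_add Q hQ u u'
    rw [hU0 _ (U.add_mem hu hu'), hU0 u hu, hU0 u' hu'] at h
    linear_combination (-1 : F) * h
  obtain ⟨⟨x₀, hx₀W, hx₀⟩, -⟩ := hW e₁ he₁W he₁0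
  have hx₀' : Bf Q hQ x₀ e₁ ≠ 0 := hx₀
  obtain ⟨f₁, hf₁W, hQf₁, he₁f₁, -⟩ := hyp_partner Q hQ W e₁ x₀ he₁W hx₀W hQe₁ hx₀'
  have hf₁e₁ : Bf Q hQ f₁ e₁ = 1 := by
    rw [Bf_symm Q hQ f₁ e₁]
    exact he₁f₁
  have he₁e₁ : Bf Q hQ e₁ e₁ = 0 := by rw [Bf_self Q hQ, hQe₁, mul_zero]
  have hf₁f₁ : Bf Q hQ f₁ f₁ = 0 := by rw [Bf_self Q hQ, hQf₁, mul_zero]
  obtain ⟨e₂, he₂⟩ : ∃ e₂ : ι → F, e₂ = e₂' - Bf Q hQ e₂' f₁ • e₁ := ⟨_, rfl⟩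
  have he₂U : e₂ ∈ U := by
    rw [he₂]
    exact U.sub_mem he₂'U (U.smul_mem _ he₁U)
  have he₂W : e₂ ∈ W := hUW he₂U
  have hQe₂ : Q e₂ = 0 := hU0 e₂ he₂U
  have he₂0 : e₂ ≠ 0 := by
    intro h0
    apply hind
    rw [Submodule.mem_span_singleton]
    refine ⟨Bf Q hQ e₂' f₁, ?_⟩
    rw [he₂] at h0
    exact (sub_eq_zero.mp h0).symm
  have he₁e₂ : Bf Q hQ e₁ e₂ = 0 := hUorth e₁ he₁U e₂ he₂U
  have he₂e₁ : Bf Q hQ e₂ e₁ = 0 := hUorth e₂ he₂U e₁ he₁U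
  have he₂e₂ : Bf Q hQ e₂ e₂ = 0 := by rw [Bf_self Q hQ, hQe₂, mul_zero]
  have he₂f₁ : Bf Q hQ e₂ f₁ = 0 := by
    rw [he₂, map_sub, map_smul, LinearMap.sub_apply, LinearMap.smul_apply, smul_eq_mul, he₁f₁,
      mul_one, sub_self]
  have hf₁e₂ : Bf Q hQ f₁ e₂ = 0 := by
    rw [Bf_symm Q hQ f₁ e₂]
    exact he₂f₁
  obtain ⟨⟨z, hzW, hz⟩, -⟩ := hW e₂ he₂W he₂0
  have hz' : Bf Q hQ z e₂ ≠ 0 := hz
  obtain ⟨z', hz'def⟩ : ∃ z' : ι → F, z' = z - Bf Q hQ z f₁ • e₁ - Bf Q hQ z e₁ • f₁ :=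
    ⟨_, rfl⟩
  have hz'W : z' ∈ W := by
    rw [hz'def]
    exact W.sub_mem (W.sub_mem hzW (W.smul_mem _ he₁W)) (W.smul_mem _ hf₁W)
  have hz'e₂ : Bf Q hQ z' e₂ = Bf Q hQ z e₂ := by
    rw [hz'def]
    simp only [map_sub, map_smul, LinearMap.sub_apply, LinearMap.smul_apply, smul_eq_mul, he₁e₂,
      hf₁e₂]
    ring
  have hz'e₁ : Bf Q hQ z' e₁ = 0 := by
    rw [hz'def]
    simp only [map_sub, map_smul, LinearMap.sub_apply, LinearMap.smul_apply, smul_eq_mul, he₁e₁,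
      hf₁e₁]
    ring
  have hz'f₁ : Bf Q hQ z' f₁ = 0 := by
    rw [hz'def]
    simp only [map_sub, map_smul, LinearMap.sub_apply, LinearMap.smul_apply, smul_eq_mul, he₁f₁,
      hf₁f₁]
    ring
  have hz'ne : Bf Q hQ z' e₂ ≠ 0 := by
    rw [hz'e₂]
    exact hz'
  obtain ⟨f₂, hf₂W, hQf₂, he₂f₂, c, d, hf₂⟩ := hyp_partner Q hQ W e₂ z' he₂W hz'W hQe₂ hz'ne
  have he₁z' : Bf Q hQ e₁ z' = 0 := by
    rw [Bf_symm Q hQ e₁ z']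
    exact hz'e₁
  have hf₁z' : Bf Q hQ f₁ z' = 0 := by
    rw [Bf_symm Q hQ f₁ z']
    exact hz'f₁
  have he₁f₂ : Bf Q hQ e₁ f₂ = 0 := by
    rw [hf₂]
    simp only [map_add, map_smul, smul_eq_mul, he₁z', he₁e₂, mul_zero, add_zero]
  have hf₁f₂ : Bf Q hQ f₁ f₂ = 0 := by
    rw [hf₂]
    simp only [map_add, map_smul, smul_eq_mul, hf₁z', hf₁e₂, mul_zero, add_zero]
  have hf₂e₁ : Bf Q hQ f₂ e₁ = 0 := by
    rw [Bf_symm Q hQ f₂ e₁]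
    exact he₁f₂
  have hf₂f₁ : Bf Q hQ f₂ f₁ = 0 := by
    rw [Bf_symm Q hQ f₂ f₁]
    exact hf₁f₂
  have hf₂e₂ : Bf Q hQ f₂ e₂ = 1 := by
    rw [Bf_symm Q hQ f₂ e₂]
    exact he₂f₂
  have hf₂f₂ : Bf Q hQ f₂ f₂ = 0 := by rw [Bf_self Q hQ, hQf₂, mul_zero]
  have hli : LinearIndependent F ![e₁, f₁, e₂, f₂] := by
    rw [Fintype.linearIndependent_iff]
    intro c hc
    have hc' : c 0 • e₁ + c 1 • f₁ + c 2 • e₂ + c 3 • f₂ = 0 := by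
      rw [← hc, Fin.sum_univ_four]
      rfl
    have k0 : c 0 = 0 := by
      have h := congrArg (fun v => Bf Q hQ f₁ v) hc'
      simp only [map_add, map_smul, smul_eq_mul, map_zero, hf₁e₁, hf₁f₁, hf₁e₂, hf₁f₂] at h
      linear_combination h
    have k1 : c 1 = 0 := by
      have h := congrArg (fun v => Bf Q hQ e₁ v) hc'
      simp only [map_add, map_smul, smul_eq_mul, map_zero, he₁e₁, he₁f₁, he₁e₂, he₁f₂] at h
      linear_combination h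
    have k2 : c 2 = 0 := by
      have h := congrArg (fun v => Bf Q hQ f₂ v) hc'
      simp only [map_add, map_smul, smul_eq_mul, map_zero, hf₂e₁, hf₂f₁, hf₂e₂, hf₂f₂] at h
      linear_combination h
    have k3 : c 3 = 0 := by
      have h := congrArg (fun v => Bf Q hQ e₂ v) hc'
      simp only [map_add, map_smul, smul_eq_mul, map_zero, he₂e₁, he₂f₁, he₂e₂, he₂f₂] at h
      linear_combination h
    intro i
    fin_cases i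
    · exact k0
    · exact k1
    · exact k2
    · exact k3
  have hspan : Submodule.span F (Set.range ![e₁, f₁, e₂, f₂]) = W := by
    apply Submodule.eq_of_le_of_finrank_eq
    · rw [Submodule.span_le]
      rintro x ⟨i, rfl⟩
      fin_cases i
      · exact he₁W
      · exact hf₁W
      · exact he₂W
      · exact hf₂W
    · rw [hdim, finrank_span_eq_card hli]
      simp
  refine ⟨e₁, f₁, e₂, f₂, he₁W, hf₁W, he₂W, hf₂W, hQe₁, hQf₁, hQe₂, hQf₂, he₁f₁, he₂f₂, he₁e₂,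
    he₁f₂, hf₁e₂, hf₁f₂, ?_⟩
  intro w hw
  rw [← hspan] at hw
  obtain ⟨c, hc⟩ := (Submodule.mem_span_range_iff_exists_fun F).mp hw
  refine ⟨c 0, c 1, c 2, c 3, ?_⟩
  rw [← hc, Fin.sum_univ_four]
  rfl

/-- A plus-type `4`-space over `F₂` is the orthogonal sum of two anisotropic planes, whose
non-zero vectors are its only non-singular vectors. -/
theorem block4 (hQ : Cfsg.Geo.IsNondegenerateQuadraticForm Q) (hch : (2 : F) = 0)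
    (h01 : ∀ x : F, x = 0 ∨ x = 1) (W : Submodule F (ι → F))
    (hdim : Module.finrank F W = 4)
    (hW : Cfsg.Geo.IsNondegenerateOn (QuadraticMap.polar Q) W)
    (hWp : Cfsg.Geo.IsPlusTypeOn Q W) :
    ∃ pa pb pc pd : ι → F, pa ∈ W ∧ pb ∈ W ∧ pc ∈ W ∧ pd ∈ W ∧
      Q pa = 1 ∧ Q pb = 1 ∧ Q pc = 1 ∧ Q pd = 1 ∧
      Bf Q hQ pa pb = 1 ∧ Bf Q hQ pc pd = 1 ∧ Bf Q hQ pa pc = 0 ∧ Bf Q hQ pa pd = 0 ∧
      Bf Q hQ pb pc = 0 ∧ Bf Q hQ pb pd = 0 ∧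
      ∀ v ∈ W, Q v = 1 → v = pa ∨ v = pb ∨ v = pa + pb ∨ v = pc ∨ v = pd ∨ v = pc + pd := by
  obtain ⟨e₁, f₁, e₂, f₂, he₁W, hf₁W, he₂W, hf₂W, hQe₁, hQf₁, hQe₂, hQf₂, he₁f₁, he₂f₂, he₁e₂,
    he₁f₂, hf₁e₂, hf₁f₂, hsp⟩ := exists_hyp4 Q hQ W hdim hW hWp
  have sy : ∀ (u v : ι → F) (c : F), Bf Q hQ u v = c → Bf Q hQ v u = c := by
    intro u v c h
    rw [Bf_symm Q hQ v u]
    exact h
  have hf₁e₁ := sy _ _ _ he₁f₁
  have hf₂e₂ := sy _ _ _ he₂f₂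
  have he₂e₁ := sy _ _ _ he₁e₂
  have hf₂e₁ := sy _ _ _ he₁f₂
  have he₂f₁ := sy _ _ _ hf₁e₂
  have hf₂f₁ := sy _ _ _ hf₁f₂
  have he₁e₁ : Bf Q hQ e₁ e₁ = 0 := by rw [Bf_self Q hQ, hQe₁, mul_zero]
  have hf₁f₁ : Bf Q hQ f₁ f₁ = 0 := by rw [Bf_self Q hQ, hQf₁, mul_zero]
  have he₂e₂ : Bf Q hQ e₂ e₂ = 0 := by rw [Bf_self Q hQ, hQe₂, mul_zero]
  have hf₂f₂ : Bf Q hQ f₂ f₂ = 0 := by rw [Bf_self Q hQ, hQf₂, mul_zero]
  have hQ4 : ∀ α₁ β₁ α₂ β₂ : F,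
      Q (α₁ • e₁ + β₁ • f₁ + α₂ • e₂ + β₂ • f₂) = α₁ * β₁ + α₂ * β₂ := by
    intro α₁ β₁ α₂ β₂
    rw [Q_add_smul Q hQ, Q_add_smul Q hQ, Q_add_smul Q hQ, hQ.smul, hQe₁, hQf₁, hQe₂, hQf₂]
    simp only [map_add, map_smul, smul_eq_mul, LinearMap.add_apply, LinearMap.smul_apply,
      he₁f₁, he₁e₂, he₁f₂, hf₁e₂, hf₁f₂, he₂f₂]
    ring
  have hB4 : ∀ α₁ β₁ α₂ β₂ α₁' β₁' α₂' β₂' : F,
      Bf Q hQ (α₁ • e₁ + β₁ • f₁ + α₂ • e₂ + β₂ • f₂)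
        (α₁' • e₁ + β₁' • f₁ + α₂' • e₂ + β₂' • f₂)
        = α₁ * β₁' + β₁ * α₁' + α₂ * β₂' + β₂ * α₂' := by
    intro α₁ β₁ α₂ β₂ α₁' β₁' α₂' β₂'
    simp only [map_add, map_smul, smul_eq_mul, LinearMap.add_apply, LinearMap.smul_apply,
      he₁e₁, he₁f₁, he₁e₂, he₁f₂, hf₁e₁, hf₁f₁, hf₁e₂, hf₁f₂, he₂e₁, he₂f₁, he₂e₂, he₂f₂,
      hf₂e₁, hf₂f₁, hf₂e₂, hf₂f₂]
    ring
  have hmem : ∀ α₁ β₁ α₂ β₂ : F, α₁ • e₁ + β₁ • f₁ + α₂ • e₂ + β₂ • f₂ ∈ W := by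
    intro α₁ β₁ α₂ β₂
    exact W.add_mem (W.add_mem (W.add_mem (W.smul_mem _ he₁W) (W.smul_mem _ hf₁W))
      (W.smul_mem _ he₂W)) (W.smul_mem _ hf₂W)
  obtain ⟨pa, hpa⟩ : ∃ pa : ι → F,
      pa = (1 : F) • e₁ + (1 : F) • f₁ + (0 : F) • e₂ + (0 : F) • f₂ := ⟨_, rfl⟩
  obtain ⟨pb, hpb⟩ : ∃ pb : ι → F,
      pb = (1 : F) • e₁ + (0 : F) • f₁ + (1 : F) • e₂ + (1 : F) • f₂ := ⟨_, rfl⟩
  obtain ⟨pc, hpc⟩ : ∃ pc : ι → F,
      pc = (0 : F) • e₁ + (0 : F) • f₁ + (1 : F) • e₂ + (1 : F) • f₂ := ⟨_, rfl⟩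
  obtain ⟨pd, hpd⟩ : ∃ pd : ι → F,
      pd = (1 : F) • e₁ + (1 : F) • f₁ + (1 : F) • e₂ + (0 : F) • f₂ := ⟨_, rfl⟩
  have hab_sum : pa + pb = (0 : F) • e₁ + (1 : F) • f₁ + (1 : F) • e₂ + (1 : F) • f₂ := by
    rw [hpa, hpb]
    have h2 : (1 : F) • e₁ + (1 : F) • f₁ + (0 : F) • e₂ + (0 : F) • f₂
        + ((1 : F) • e₁ + (0 : F) • f₁ + (1 : F) • e₂ + (1 : F) • f₂)
        = (0 : F) • e₁ + (1 : F) • f₁ + (1 : F) • e₂ + (1 : F) • f₂ + (2 : F) • e₁ := by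
      module
    rw [h2, hch, zero_smul, add_zero]
  have hcd_sum : pc + pd = (1 : F) • e₁ + (1 : F) • f₁ + (0 : F) • e₂ + (1 : F) • f₂ := by
    rw [hpc, hpd]
    have h2 : (0 : F) • e₁ + (0 : F) • f₁ + (1 : F) • e₂ + (1 : F) • f₂
        + ((1 : F) • e₁ + (1 : F) • f₁ + (1 : F) • e₂ + (0 : F) • f₂)
        = (1 : F) • e₁ + (1 : F) • f₁ + (0 : F) • e₂ + (1 : F) • f₂ + (2 : F) • e₂ := by
      module
    rw [h2, hch, zero_smul, add_zero]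
  refine ⟨pa, pb, pc, pd, ?_, ?_, ?_, ?_, ?_, ?_, ?_, ?_, ?_, ?_, ?_, ?_, ?_, ?_, ?_⟩
  · rw [hpa]
    exact hmem _ _ _ _
  · rw [hpb]
    exact hmem _ _ _ _
  · rw [hpc]
    exact hmem _ _ _ _
  · rw [hpd]
    exact hmem _ _ _ _
  · rw [hpa, hQ4]
    ring
  · rw [hpb, hQ4]
    ring
  · rw [hpc, hQ4]
    ring
  · rw [hpd, hQ4]
    ring
  · rw [hpa, hpb, hB4]
    ring
  · rw [hpc, hpd, hB4]
    ring
  · rw [hpa, hpc, hB4]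
    ring
  · rw [hpa, hpd, hB4]
    linear_combination hch
  · rw [hpb, hpc, hB4]
    linear_combination hch
  · rw [hpb, hpd, hB4]
    linear_combination hch
  · intro v hv hQv
    obtain ⟨α₁, β₁, α₂, β₂, rfl⟩ := hsp v hv
    rw [hQ4] at hQv
    rcases h01 α₁ with rfl | rfl <;> rcases h01 β₁ with rfl | rfl <;>
      rcases h01 α₂ with rfl | rfl <;> rcases h01 β₂ with rfl | rfl
    · exact absurd (by linear_combination hQv : (0 : F) = 1) zero_ne_one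
    · exact absurd (by linear_combination hQv : (0 : F) = 1) zero_ne_one
    · exact absurd (by linear_combination hQv : (0 : F) = 1) zero_ne_one
    · right; right; right; left
      exact hpc.symm
    · exact absurd (by linear_combination hQv : (0 : F) = 1) zero_ne_one
    · exact absurd (by linear_combination hQv : (0 : F) = 1) zero_ne_one
    · exact absurd (by linear_combination hQv : (0 : F) = 1) zero_ne_one
    · right; right; left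
      exact hab_sum.symm
    · exact absurd (by linear_combination hQv : (0 : F) = 1) zero_ne_one
    · exact absurd (by linear_combination hQv : (0 : F) = 1) zero_ne_one
    · exact absurd (by linear_combination hQv : (0 : F) = 1) zero_ne_one
    · right; left
      exact hpb.symm
    · left
      exact hpa.symm
    · right; right; right; right; right
      exact hcd_sum.symm
    · right; right; right; right; left
      exact hpd.symm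
    · exact absurd (by linear_combination hQv : (1 : F) = 0) one_ne_zero

/-- The first half of the frame argument in odd characteristic: a `3`-cycle on three frame
vectors, two of them in the same member. -/
theorem frame_g1 (hQ : Cfsg.Geo.IsNondegenerateQuadraticForm Q) (h2 : (2 : F) ≠ 0) {t : ℕ}
    (D : Fin t → Submodule F (ι → F))
    (horth : ∀ i j, i ≠ j → ∀ u ∈ D i, ∀ v ∈ D j, Bf Q hQ u v = 0)
    (c : F) (hc : c ≠ 0) (i j : Fin t) (hij : i ≠ j)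
    (p₁ p₂ p₃ : ι → F) (hp₁ : p₁ ∈ D i) (hp₂ : p₂ ∈ D i) (hp₃ : p₃ ∈ D j)
    (hQ₁ : Q p₁ = c) (hQ₂ : Q p₂ = c) (hQ₃ : Q p₃ = c) (h12 : Bf Q hQ p₁ p₂ = 0)
    (hcls_i : ∀ v ∈ D i, Q v = c →
      v = p₁ ∨ v = -p₁ ∨ v = p₂ ∨ v = -p₂ ∨ (Bf Q hQ p₁ v = 0 ∧ Bf Q hQ p₂ v = 0))
    (hcls_j : ∀ v ∈ D j, Q v = c → v = p₃ ∨ v = -p₃ ∨ Bf Q hQ p₃ v = 0) :
    ∃ g₁ : Matrix.GeneralLinearGroup ι F, g₁ ∈ Cfsg.Geo.omegaGL Q ∧
      (∀ w : ι → F, (∃ l, w ∈ D l ∧ Q w = c) →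
        ∃ l, (g₁ : Matrix ι ι F) *ᵥ w ∈ D l ∧ Q ((g₁ : Matrix ι ι F) *ᵥ w) = c) ∧
      g₁ ∉ Cfsg.Geo.decompositionStabilizer D := by
  have h2c : (2 : F) * c ≠ 0 := mul_ne_zero h2 hc
  have h13 : Bf Q hQ p₁ p₃ = 0 := horth i j hij p₁ hp₁ p₃ hp₃
  have h23 : Bf Q hQ p₂ p₃ = 0 := horth i j hij p₂ hp₂ p₃ hp₃
  have h22 : Bf Q hQ p₂ p₂ = 2 * c := by rw [Bf_self, hQ₂]
  have h33 : Bf Q hQ p₃ p₃ = 2 * c := by rw [Bf_self, hQ₃]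
  obtain ⟨g₁, hg₁Ω, hg₁p₁, hg₁p₂, hg₁p₃, hg₁fix, -⟩ :=
    Cfsg.Agent.Helper4.TensorO3.three_cycle Q hQ h2 c hc p₁ p₂ p₃ hQ₁ hQ₂ hQ₃ h12 h13 h23
  have hisoQ : ∀ u : ι → F, Q ((g₁ : Matrix ι ι F) *ᵥ u) = Q u :=
    fun u => omega_le_isom Q g₁ hg₁Ω u u
  refine ⟨g₁, hg₁Ω, ?_, ?_⟩
  · rintro w ⟨l, hwl, hQw⟩
    have hQg : Q ((g₁ : Matrix ι ι F) *ᵥ w) = c := by rw [hisoQ, hQw]
    by_cases hli : l = i
    · rw [hli] at hwl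
      rcases hcls_i w hwl hQw with h | h | h | h | ⟨h, h'⟩
      · refine ⟨i, ?_, hQg⟩
        rw [h, hg₁p₁]
        exact hp₂
      · refine ⟨i, ?_, hQg⟩
        rw [h, Matrix.mulVec_neg, hg₁p₁]
        exact (D i).neg_mem hp₂
      · refine ⟨j, ?_, hQg⟩
        rw [h, hg₁p₂]
        exact hp₃
      · refine ⟨j, ?_, hQg⟩
        rw [h, Matrix.mulVec_neg, hg₁p₂]
        exact (D j).neg_mem hp₃
      · refine ⟨i, ?_, hQg⟩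
        rw [hg₁fix w h h' (horth j i (Ne.symm hij) p₃ hp₃ w hwl)]
        exact hwl
    · by_cases hlj : l = j
      · rw [hlj] at hwl
        rcases hcls_j w hwl hQw with h | h | h
        · refine ⟨i, ?_, hQg⟩
          rw [h, hg₁p₃]
          exact hp₁
        · refine ⟨i, ?_, hQg⟩
          rw [h, Matrix.mulVec_neg, hg₁p₃]
          exact (D i).neg_mem hp₁
        · refine ⟨j, ?_, hQg⟩
          rw [hg₁fix w (horth i j hij p₁ hp₁ w hwl) (horth i j hij p₂ hp₂ w hwl) h]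
          exact hwl
      · refine ⟨l, ?_, hQg⟩
        rw [hg₁fix w (horth i l (Ne.symm hli) p₁ hp₁ w hwl)
          (horth i l (Ne.symm hli) p₂ hp₂ w hwl) (horth j l (Ne.symm hlj) p₃ hp₃ w hwl)]
        exact hwl
  · refine not_stab Q hQ D horth g₁ i i j hij p₁ p₂ p₂ p₃ hp₁ hp₂ hp₂ hp₃ ?_ ?_
    · rw [hg₁p₁, h22]
      exact h2c
    · rw [hg₁p₂, h33]
      exact h2c

end cases

end Cfsg.Agent.Helper4.DecO
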