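import Mathlib
import Cfsg.Prelude.Def_GeometricClasses
import Cfsg.Agent.Helper4.DecO2

set_option autoImplicit false
open Cfsg

/-!
The individual cases: decompositions into plus-type planes over `F₃`, `F₅`, `F₂`, `F₄` and into
plus-type `4`-spaces over `F₂`.
-/

namespace Cfsg.Agent.Helper4.DecO

open Module Matrix Cfsg.Agent.Helper4.OrthPlane Cfsg.Agent.Helper4.OrthFrame

variable {ι : Type} [Fintype ι] [DecidableEq ι] {F : Type*} [Field F]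

section cases

variable (Q : (ι → F) → F)

/-- Plus-type planes over `F₃`: the overgroup stabilises the set of vectors `±(e + f)`. -/
theorem caseC (hQ : Cfsg.Geo.IsNondegenerateQuadraticForm Q) [Fintype F]
    (hq : Fintype.card F = 3) {t : ℕ} (D : Fin t → Submodule F (ι → F))
    (hD : Cfsg.Geo.IsOrthogonalMDecomposition Q 2 D)
    (hplus : ∀ i, Cfsg.Geo.IsPlusTypeOn Q (D i)) (ht : 5 ≤ t) :
    ∃ K : Subgroup (Matrix.GeneralLinearGroup ι F),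
      Cfsg.Geo.decompositionStabilizer D ⊓ Cfsg.Geo.omegaGL Q < K ∧ K < Cfsg.Geo.omegaGL Q := by
  have h3 : (3 : F) = 0 := three_eq_zero hq
  have h2 : (2 : F) ≠ 0 := two_ne_zero3 hq
  have horth : ∀ i j, i ≠ j → ∀ u ∈ D i, ∀ v ∈ D j, Bf Q hQ u v = 0 :=
    fun i j hij u hu v hv => hD.decomp.orthogonal i j hij u hu v hv
  have hhyp := fun l => exists_hyp Q hQ (D l) (hD.decomp.decomp.finrank_eq l)
    (hD.decomp.nondegenerate l) (hplus l)
  choose e f he hf hQe hQf hef hsp using hhyp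
  obtain ⟨d, hd⟩ : ∃ d : Fin t → (ι → F), ∀ l, d l = (1 : F) • e l + (1 : F) • f l :=
    ⟨fun l => (1 : F) • e l + (1 : F) • f l, fun l => rfl⟩
  obtain ⟨d', hd'⟩ : ∃ d' : Fin t → (ι → F), ∀ l, d' l = (1 : F) • e l + (-1 : F) • f l :=
    ⟨fun l => (1 : F) • e l + (-1 : F) • f l, fun l => rfl⟩
  have hdD : ∀ l, d l ∈ D l := fun l => by
    rw [hd l]
    exact (D l).add_mem ((D l).smul_mem _ (he l)) ((D l).smul_mem _ (hf l))
  have hd'D : ∀ l, d' l ∈ D l := fun l => by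
    rw [hd' l]
    exact (D l).add_mem ((D l).smul_mem _ (he l)) ((D l).smul_mem _ (hf l))
  have Qd : ∀ l, Q (d l) = 1 := by
    intro l
    rw [hd l, Q_hyp Q hQ (e l) (f l) (hQe l) (hQf l) (hef l)]
    ring
  have Qd' : ∀ l, Q (d' l) = -1 := by
    intro l
    rw [hd' l, Q_hyp Q hQ (e l) (f l) (hQe l) (hQf l) (hef l)]
    ring
  have cls : ∀ l, ∀ v ∈ D l, Q v = 1 → Bf Q hQ (d' l) v = 0 := by
    intro l v hv hQv
    obtain ⟨α, β, rfl⟩ := hsp l v hv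
    rw [Q_hyp Q hQ (e l) (f l) (hQe l) (hQf l) (hef l)] at hQv
    have hα : α ≠ 0 := by
      intro h0
      rw [h0, zero_mul] at hQv
      exact zero_ne_one hQv
    have hsq := sq_of_ne hq α hα
    rw [hd' l, B_hyp Q hQ (e l) (f l) (hQe l) (hQf l) (hef l)]
    linear_combination (-β) * hsq + α * hQv
  obtain ⟨i₁, i₂, i₃, i₄, i₅, h12, h13, h14, h15, h23, h24, h25, h34, h35, h45⟩ :=
    exists_five ht
  have hneg : (-1 : F) ≠ 0 := neg_ne_zero.mpr one_ne_zero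
  obtain ⟨g₁, hg₁Ω, g11, -, -, g1fix, -⟩ :=
    Cfsg.Agent.Helper4.TensorO3.three_cycle Q hQ h2 (-1) hneg (d' i₁) (d' i₂) (d' i₃)
      (Qd' i₁) (Qd' i₂) (Qd' i₃) (horth i₁ i₂ h12 _ (hd'D i₁) _ (hd'D i₂))
      (horth i₁ i₃ h13 _ (hd'D i₁) _ (hd'D i₃)) (horth i₂ i₃ h23 _ (hd'D i₂) _ (hd'D i₃))
  have hperp : ∀ l, ∀ w ∈ D l, Q w = 1 → ∀ k, Bf Q hQ (d' k) w = 0 := by
    intro l w hwl hQw k
    by_cases hk : k = l
    · rw [hk]
      exact cls l w hwl hQw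
    · exact horth k l hk (d' k) (hd'D k) w hwl
  have hg₁fixS : ∀ l, ∀ w ∈ D l, Q w = 1 → (g₁ : Matrix ι ι F) *ᵥ w = w :=
    fun l w hwl hQw => g1fix w (hperp l w hwl hQw i₁) (hperp l w hwl hQw i₂)
      (hperp l w hwl hQw i₃)
  have hg₁T : ∀ w ∈ {v : ι → F | ∃ l, v ∈ D l ∧ Q v = 1},
      (g₁ : Matrix ι ι F) *ᵥ w ∈ {v : ι → F | ∃ l, v ∈ D l ∧ Q v = 1} := by
    rintro w ⟨l, hwl, hQw⟩
    rw [hg₁fixS l w hwl hQw]
    exact ⟨l, hwl, hQw⟩
  have hg₁D : g₁ ∉ Cfsg.Geo.decompositionStabilizer D := by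
    refine not_stab Q hQ D horth g₁ i₁ i₂ i₁ (Ne.symm h12) (d' i₁) (d i₁) (d' i₂) (d i₁)
      (hd'D i₁) (hdD i₁) (hd'D i₂) (hdD i₁) ?_ ?_
    · rw [g11, Bf_self Q hQ, Qd' i₂]
      intro h
      exact h2 (by linear_combination (-1 : F) * h)
    · rw [hg₁fixS i₁ (d i₁) (hdD i₁) (Qd i₁), Bf_self Q hQ, Qd i₁, mul_one]
      exact h2
  have hQs : Q (d' i₂ + d' i₃) = 1 := by
    rw [Q_add Q hQ, Qd' i₂, Qd' i₃, horth i₂ i₃ h23 _ (hd'D i₂) _ (hd'D i₃)]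
    linear_combination (-1 : F) * h3
  have hB1 : Bf Q hQ (d i₁) (d' i₂ + d' i₃) = 0 := by
    rw [map_add, horth i₁ i₂ h12 _ (hdD i₁) _ (hd'D i₂),
      horth i₁ i₃ h13 _ (hdD i₁) _ (hd'D i₃), add_zero]
  have hB3 : Bf Q hQ (d' i₂ + d' i₃) (d i₄) = 0 := by
    rw [map_add, LinearMap.add_apply, horth i₂ i₄ h24 _ (hd'D i₂) _ (hdD i₄),
      horth i₃ i₄ h34 _ (hd'D i₃) _ (hdD i₄), add_zero]
  obtain ⟨g₂, hg₂Ω, g21, -, -, -, -⟩ :=
    Cfsg.Agent.Helper4.TensorO3.three_cycle Q hQ h2 1 one_ne_zero (d i₁) (d' i₂ + d' i₃)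
      (d i₄) (Qd i₁) hQs (Qd i₄) hB1 (horth i₁ i₄ h14 _ (hdD i₁) _ (hdD i₄)) hB3
  have hg₂T : (g₂ : Matrix ι ι F) *ᵥ d i₁ ∉ {v : ι → F | ∃ l, v ∈ D l ∧ Q v = 1} := by
    rw [g21]
    rintro ⟨l, hl, -⟩
    refine not_block Q hQ D horth (d' i₂ + d' i₃) (d' i₂) (d' i₃) i₂ i₃ h23 (hd'D i₂)
      (hd'D i₃) ?_ ?_ l hl
    · rw [map_add, Bf_self Q hQ, Qd' i₂, horth i₂ i₃ h23 _ (hd'D i₂) _ (hd'D i₃), add_zero]
      intro h
      exact h2 (by linear_combination (-1 : F) * h)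
    · rw [map_add, horth i₃ i₂ (Ne.symm h23) _ (hd'D i₃) _ (hd'D i₂), Bf_self Q hQ, Qd' i₃,
        zero_add]
      intro h
      exact h2 (by linear_combination (-1 : F) * h)
  exact gen_core Q D {v : ι → F | ∃ l, v ∈ D l ∧ Q v = 1}
    (fun g hgD hgΩ w hw => S_inv Q D 1 g hgD hgΩ w hw) g₁ g₂ hg₁Ω hg₂Ω hg₁T hg₁D (d i₁)
    ⟨i₁, hdD i₁, Qd i₁⟩ hg₂T

/-- Plus-type planes over `F₅`: the overgroup stabilises an orthonormal frame. -/
theorem caseD (hQ : Cfsg.Geo.IsNondegenerateQuadraticForm Q) [Fintype F]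
    (hq : Fintype.card F = 5) {t : ℕ} (D : Fin t → Submodule F (ι → F))
    (hD : Cfsg.Geo.IsOrthogonalMDecomposition Q 2 D)
    (hplus : ∀ i, Cfsg.Geo.IsPlusTypeOn Q (D i)) (ht : 3 ≤ t) :
    ∃ K : Subgroup (Matrix.GeneralLinearGroup ι F),
      Cfsg.Geo.decompositionStabilizer D ⊓ Cfsg.Geo.omegaGL Q < K ∧ K < Cfsg.Geo.omegaGL Q := by
  have h5 : (5 : F) = 0 := five_eq_zero hq
  have h2 : (2 : F) ≠ 0 := two_ne_zero5 hq
  have horth : ∀ i j, i ≠ j → ∀ u ∈ D i, ∀ v ∈ D j, Bf Q hQ u v = 0 :=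
    fun i j hij u hu v hv => hD.decomp.orthogonal i j hij u hu v hv
  have hhyp := fun l => exists_hyp Q hQ (D l) (hD.decomp.decomp.finrank_eq l)
    (hD.decomp.nondegenerate l) (hplus l)
  choose e f he hf hQe hQf hef hsp using hhyp
  obtain ⟨x, hx⟩ : ∃ x : Fin t → (ι → F), ∀ l, x l = (1 : F) • e l + (1 : F) • f l :=
    ⟨fun l => (1 : F) • e l + (1 : F) • f l, fun l => rfl⟩
  obtain ⟨y, hy⟩ : ∃ y : Fin t → (ι → F), ∀ l, y l = (2 : F) • e l + (3 : F) • f l :=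
    ⟨fun l => (2 : F) • e l + (3 : F) • f l, fun l => rfl⟩
  have hxD : ∀ l, x l ∈ D l := fun l => by
    rw [hx l]
    exact (D l).add_mem ((D l).smul_mem _ (he l)) ((D l).smul_mem _ (hf l))
  have hyD : ∀ l, y l ∈ D l := fun l => by
    rw [hy l]
    exact (D l).add_mem ((D l).smul_mem _ (he l)) ((D l).smul_mem _ (hf l))
  have Qx : ∀ l, Q (x l) = 1 := by
    intro l
    rw [hx l, Q_hyp Q hQ (e l) (f l) (hQe l) (hQf l) (hef l)]
    ring
  have Qy : ∀ l, Q (y l) = 1 := by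
    intro l
    rw [hy l, Q_hyp Q hQ (e l) (f l) (hQe l) (hQf l) (hef l)]
    linear_combination h5
  have Bxy : ∀ l, Bf Q hQ (x l) (y l) = 0 := by
    intro l
    rw [hx l, hy l, B_hyp Q hQ (e l) (f l) (hQe l) (hQf l) (hef l)]
    linear_combination h5
  have cls : ∀ l, ∀ v ∈ D l, Q v = 1 → v = x l ∨ v = -x l ∨ v = y l ∨ v = -y l := by
    intro l v hv hQv
    obtain ⟨α, β, rfl⟩ := hsp l v hv
    rw [Q_hyp Q hQ (e l) (f l) (hQe l) (hQf l) (hef l)] at hQv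
    rcases five_cases hq α with rfl | rfl | rfl | rfl | rfl
    · exact absurd (by linear_combination hQv : (0 : F) = 1) zero_ne_one
    · have hβ : β = 1 := by linear_combination hQv
      left
      rw [hβ, hx l]
    · have hβ : β = 3 := by linear_combination 3 * hQv - β * h5
      right; right; left
      rw [hβ, hy l]
    · have hβ : β = 2 := by linear_combination 2 * hQv - β * h5
      right; right; right
      rw [hβ, hy l]
      have h' : (3 : F) • e l + (2 : F) • f l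
          = -((2 : F) • e l + (3 : F) • f l) + (5 : F) • (e l + f l) := by module
      rw [h', h5, zero_smul, add_zero]
    · have hβ : β = 4 := by linear_combination 4 * hQv - (3 * β) * h5
      right; left
      rw [hβ, hx l]
      have h' : (4 : F) • e l + (4 : F) • f l
          = -((1 : F) • e l + (1 : F) • f l) + (5 : F) • (e l + f l) := by module
      rw [h', h5, zero_smul, add_zero]
  obtain ⟨i₁, i₂, i₃, h12, h13, h23⟩ := exists_three ht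
  have hxx : ∀ l, Bf Q hQ (x l) (x l) = 2 := fun l => by rw [Bf_self Q hQ, Qx l, mul_one]
  have hyy : ∀ l, Bf Q hQ (y l) (y l) = 2 := fun l => by rw [Bf_self Q hQ, Qy l, mul_one]
  obtain ⟨g₁, hg₁Ω, hg₁T, hg₁D⟩ := frame_g1 Q hQ h2 D horth 1 one_ne_zero i₁ i₂ h12
    (x i₁) (y i₁) (x i₂) (hxD i₁) (hyD i₁) (hxD i₂) (Qx i₁) (Qy i₁) (Qx i₂) (Bxy i₁)
    (by
      intro v hv hQv
      rcases cls i₁ v hv hQv with h | h | h | h
      · left
        exact h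
      · right; left
        exact h
      · right; right; left
        exact h
      · right; right; right; left
        exact h)
    (by
      intro v hv hQv
      rcases cls i₂ v hv hQv with h | h | h | h
      · left
        exact h
      · right; left
        exact h
      · right; right
        rw [h]
        exact Bxy i₂
      · right; right
        rw [h, map_neg, Bxy i₂, neg_zero])
  obtain ⟨s, hs⟩ : ∃ s : ι → F, s = y i₁ + x i₂ + (2 : F) • y i₂ := ⟨_, rfl⟩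
  have hQs : Q s = 1 := by
    rw [hs, Q_add_smul Q hQ, Q_add Q hQ, Qy i₁, Qx i₂, Qy i₂]
    simp only [map_add, LinearMap.add_apply, horth i₁ i₂ h12 _ (hyD i₁) _ (hxD i₂),
      horth i₁ i₂ h12 _ (hyD i₁) _ (hyD i₂), Bxy i₂]
    linear_combination h5
  have hB1 : Bf Q hQ (x i₁) s = 0 := by
    rw [hs]
    simp only [map_add, map_smul, smul_eq_mul, Bxy i₁, horth i₁ i₂ h12 _ (hxD i₁) _ (hxD i₂),
      horth i₁ i₂ h12 _ (hxD i₁) _ (hyD i₂)]
    ring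
  have hB3 : Bf Q hQ s (x i₃) = 0 := by
    rw [hs]
    simp only [map_add, map_smul, smul_eq_mul, LinearMap.add_apply, LinearMap.smul_apply,
      horth i₁ i₃ h13 _ (hyD i₁) _ (hxD i₃), horth i₂ i₃ h23 _ (hxD i₂) _ (hxD i₃),
      horth i₂ i₃ h23 _ (hyD i₂) _ (hxD i₃)]
    ring
  obtain ⟨g₂, hg₂Ω, g21, -, -, -, -⟩ :=
    Cfsg.Agent.Helper4.TensorO3.three_cycle Q hQ h2 1 one_ne_zero (x i₁) s (x i₃)
      (Qx i₁) hQs (Qx i₃) hB1 (horth i₁ i₃ h13 _ (hxD i₁) _ (hxD i₃)) hB3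
  have hg₂T : (g₂ : Matrix ι ι F) *ᵥ x i₁ ∉ {v : ι → F | ∃ l, v ∈ D l ∧ Q v = 1} := by
    rw [g21]
    rintro ⟨l, hl, -⟩
    refine not_block Q hQ D horth s (y i₁) (x i₂) i₁ i₂ h12 (hyD i₁) (hxD i₂) ?_ ?_ l hl
    · have hv : Bf Q hQ (y i₁) s = 2 := by
        rw [hs]
        simp only [map_add, map_smul, smul_eq_mul, hyy i₁,
          horth i₁ i₂ h12 _ (hyD i₁) _ (hxD i₂), horth i₁ i₂ h12 _ (hyD i₁) _ (hyD i₂)]
        ring
      rw [hv]
      exact h2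
    · have hv : Bf Q hQ (x i₂) s = 2 := by
        rw [hs]
        simp only [map_add, map_smul, smul_eq_mul, hxx i₂,
          horth i₂ i₁ (Ne.symm h12) _ (hxD i₂) _ (hyD i₁), Bxy i₂]
        ring
      rw [hv]
      exact h2
  exact gen_core Q D {v : ι → F | ∃ l, v ∈ D l ∧ Q v = 1}
    (fun g hgD hgΩ w hw => S_inv Q D 1 g hgD hgΩ w hw) g₁ g₂ hg₁Ω hg₂Ω hg₁T hg₁D (x i₁)
    ⟨i₁, hxD i₁, Qx i₁⟩ hg₂T

/-- Plus-type planes over `F₂`: the overgroup stabilises the set of the non-singular vectors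
of the members. -/
theorem caseE (hQ : Cfsg.Geo.IsNondegenerateQuadraticForm Q) [Fintype F]
    (hq : Fintype.card F = 2) {t : ℕ} (D : Fin t → Submodule F (ι → F))
    (hD : Cfsg.Geo.IsOrthogonalMDecomposition Q 2 D)
    (hplus : ∀ i, Cfsg.Geo.IsPlusTypeOn Q (D i)) (ht : 5 ≤ t) :
    ∃ K : Subgroup (Matrix.GeneralLinearGroup ι F),
      Cfsg.Geo.decompositionStabilizer D ⊓ Cfsg.Geo.omegaGL Q < K ∧ K < Cfsg.Geo.omegaGL Q := by
  have hch : (2 : F) = 0 := two_eq_zero2 hq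
  have h01 := zero_or_one2 hq
  have horth : ∀ i j, i ≠ j → ∀ u ∈ D i, ∀ v ∈ D j, Bf Q hQ u v = 0 :=
    fun i j hij u hu v hv => hD.decomp.orthogonal i j hij u hu v hv
  have hhyp := fun l => exists_hyp Q hQ (D l) (hD.decomp.decomp.finrank_eq l)
    (hD.decomp.nondegenerate l) (hplus l)
  choose e f he hf hQe hQf hef hsp using hhyp
  have hee : ∀ l, Bf Q hQ (e l) (e l) = 0 := fun l => by rw [Bf_self Q hQ, hQe l, mul_zero]
  obtain ⟨d, hd⟩ : ∃ d : Fin t → (ι → F), ∀ l, d l = (1 : F) • e l + (1 : F) • f l :=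
    ⟨fun l => (1 : F) • e l + (1 : F) • f l, fun l => rfl⟩
  have hdD : ∀ l, d l ∈ D l := fun l => by
    rw [hd l]
    exact (D l).add_mem ((D l).smul_mem _ (he l)) ((D l).smul_mem _ (hf l))
  have Qd : ∀ l, Q (d l) = 1 := by
    intro l
    rw [hd l, Q_hyp Q hQ (e l) (f l) (hQe l) (hQf l) (hef l)]
    ring
  have cls : ∀ l, ∀ v ∈ D l, Q v = 1 → v = d l := by
    intro l v hv hQv
    obtain ⟨α, β, rfl⟩ := hsp l v hv
    rw [Q_hyp Q hQ (e l) (f l) (hQe l) (hQf l) (hef l)] at hQv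
    rcases h01 α with rfl | rfl
    · exact absurd (by linear_combination hQv : (0 : F) = 1) zero_ne_one
    · rcases h01 β with rfl | rfl
      · exact absurd (by linear_combination hQv : (0 : F) = 1) zero_ne_one
      · rw [hd l]
  have Bdd : ∀ a b, Bf Q hQ (d a) (d b) = 0 := by
    intro a b
    by_cases hab : a = b
    · rw [hab, Bf_self Q hQ, Qd b, mul_one]
      exact hch
    · exact horth a b hab _ (hdD a) _ (hdD b)
  have Bed : ∀ l, Bf Q hQ (e l) (d l) = 1 := by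
    intro l
    rw [hd l]
    simp only [map_add, map_smul, smul_eq_mul, hee l, hef l]
    ring
  have Bde : ∀ l, Bf Q hQ (d l) (e l) = 1 := fun l => by
    rw [Bf_symm Q hQ (d l) (e l)]
    exact Bed l
  obtain ⟨i₁, i₂, i₃, i₄, i₅, h12, h13, h14, h15, h23, h24, h25, h34, h35, h45⟩ :=
    exists_five ht
  have hs₁ : Q (d i₁ + d i₂) = 0 := by
    rw [Q_add Q hQ, Qd i₁, Qd i₂, Bdd i₁ i₂]
    linear_combination hch
  have hs₂ : Q (d i₃ + d i₄) = 0 := by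
    rw [Q_add Q hQ, Qd i₃, Qd i₄, Bdd i₃ i₄]
    linear_combination hch
  have h12' : Bf Q hQ (d i₁ + d i₂) (d i₃ + d i₄) = 0 := by
    simp only [map_add, LinearMap.add_apply, Bdd]
    ring
  have hu₁ : Q (e i₃ + d i₅) = 1 := by
    rw [Q_add Q hQ, hQe i₃, Qd i₅, horth i₃ i₅ h35 _ (he i₃) _ (hdD i₅)]
    ring
  have h11 : Bf Q hQ (e i₃ + d i₅) (d i₁ + d i₂) = 0 := by
    simp only [map_add, LinearMap.add_apply, Bdd,
      horth i₃ i₁ (Ne.symm h13) _ (he i₃) _ (hdD i₁),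
      horth i₃ i₂ (Ne.symm h23) _ (he i₃) _ (hdD i₂)]
    ring
  have h22 : Bf Q hQ (d i₅) (d i₃ + d i₄) = 0 := by
    simp only [map_add, Bdd]
    ring
  have h1s2 : Bf Q hQ (e i₃ + d i₅) (d i₃ + d i₄) = 1 := by
    simp only [map_add, LinearMap.add_apply, Bdd, Bed i₃, horth i₃ i₄ h34 _ (he i₃) _ (hdD i₄)]
    ring
  have h2s1 : Bf Q hQ (d i₅) (d i₁ + d i₂) = 0 := by
    simp only [map_add, Bdd]
    ring
  obtain ⟨g₁, hg₁Ω, hg₁⟩ := Cfsg.Agent.Helper4.TwoFamQ.EC Q hQ (d i₁ + d i₂) (d i₃ + d i₄)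
    (e i₃ + d i₅) (d i₅) hs₁ hs₂ h12' hu₁ (Qd i₅) h11 h22 h1s2 h2s1
  have hs₁d : ∀ l, Bf Q hQ (d i₁ + d i₂) (d l) = 0 := by
    intro l
    simp only [map_add, LinearMap.add_apply, Bdd]
    ring
  have hs₂d : ∀ l, Bf Q hQ (d i₃ + d i₄) (d l) = 0 := by
    intro l
    simp only [map_add, LinearMap.add_apply, Bdd]
    ring
  have hg₁d : ∀ l, (g₁ : Matrix ι ι F) *ᵥ d l = d l := by
    intro l
    rw [hg₁ (d l) (hs₁d l) (hs₂d l), Bdd, zero_smul, add_zero]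
  have hg₁T : ∀ w ∈ {v : ι → F | ∃ l, v ∈ D l ∧ Q v = 1},
      (g₁ : Matrix ι ι F) *ᵥ w ∈ {v : ι → F | ∃ l, v ∈ D l ∧ Q v = 1} := by
    rintro w ⟨l, hwl, hQw⟩
    rw [cls l w hwl hQw, hg₁d l]
    exact ⟨l, hdD l, Qd l⟩
  have hs₁e : Bf Q hQ (d i₁ + d i₂) (e i₅) = 0 := by
    simp only [map_add, LinearMap.add_apply, horth i₁ i₅ h15 _ (hdD i₁) _ (he i₅),
      horth i₂ i₅ h25 _ (hdD i₂) _ (he i₅)]
    ring
  have hs₂e : Bf Q hQ (d i₃ + d i₄) (e i₅) = 0 := by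
    simp only [map_add, LinearMap.add_apply, horth i₃ i₅ h35 _ (hdD i₃) _ (he i₅),
      horth i₄ i₅ h45 _ (hdD i₄) _ (he i₅)]
    ring
  have hg₁D : g₁ ∉ Cfsg.Geo.decompositionStabilizer D := by
    refine not_stab Q hQ D horth g₁ i₅ i₅ i₁ (Ne.symm h15) (d i₅) (e i₅) (e i₅) (e i₁)
      (hdD i₅) (he i₅) (he i₅) (he i₁) ?_ ?_
    · rw [hg₁d i₅, Bed i₅]
      exact one_ne_zero
    · have hv : Bf Q hQ (e i₁) ((g₁ : Matrix ι ι F) *ᵥ e i₅) = 1 := by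
        rw [hg₁ (e i₅) hs₁e hs₂e]
        simp only [map_add, map_smul, smul_eq_mul, Bde i₅, Bed i₁,
          horth i₁ i₅ h15 _ (he i₁) _ (he i₅), horth i₁ i₂ h12 _ (he i₁) _ (hdD i₂)]
        ring
      rw [hv]
      exact one_ne_zero
  have hQb : Q (e i₁ + d i₂) = 1 := by
    rw [Q_add Q hQ, hQe i₁, Qd i₂, horth i₁ i₂ h12 _ (he i₁) _ (hdD i₂)]
    ring
  have hab : Bf Q hQ (d i₁) (e i₁ + d i₂) = 1 := by
    rw [map_add, Bde i₁, Bdd, add_zero]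
  obtain ⟨g₂, hg₂Ω, hg₂⟩ := Cfsg.Agent.S5705.comm_formula Q hQ hch (d i₁) (e i₁ + d i₂)
    (Qd i₁) hQb hab
  have hg₂T : (g₂ : Matrix ι ι F) *ᵥ d i₁ ∉ {v : ι → F | ∃ l, v ∈ D l ∧ Q v = 1} := by
    rintro ⟨l, hl, -⟩
    refine not_block Q hQ D horth ((g₂ : Matrix ι ι F) *ᵥ d i₁) (e i₁) (e i₂) i₁ i₂ h12
      (he i₁) (he i₂) ?_ ?_ l hl
    · have hv : Bf Q hQ (e i₁) ((g₂ : Matrix ι ι F) *ᵥ d i₁) = 1 := by
        rw [hg₂]
        simp only [map_add, map_smul, smul_eq_mul, LinearMap.add_apply, Bdd, Bed i₁, hee i₁,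
          horth i₁ i₂ h12 _ (he i₁) _ (hdD i₂)]
        ring
      rw [hv]
      exact one_ne_zero
    · have hv : Bf Q hQ (e i₂) ((g₂ : Matrix ι ι F) *ᵥ d i₁) = 1 := by
        rw [hg₂]
        simp only [map_add, map_smul, smul_eq_mul, LinearMap.add_apply, Bdd, Bed i₁, Bed i₂,
          horth i₂ i₁ (Ne.symm h12) _ (he i₂) _ (hdD i₁),
          horth i₂ i₁ (Ne.symm h12) _ (he i₂) _ (he i₁)]
        ring
      rw [hv]
      exact one_ne_zero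
  exact gen_core Q D {v : ι → F | ∃ l, v ∈ D l ∧ Q v = 1}
    (fun g hgD hgΩ w hw => S_inv Q D 1 g hgD hgΩ w hw) g₁ g₂ hg₁Ω hg₂Ω hg₁T hg₁D (d i₁)
    ⟨i₁, hdD i₁, Qd i₁⟩ hg₂T

end cases

end Cfsg.Agent.Helper4.DecO
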