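import Mathlib
import Cfsg.Prelude.Def_GeometricClasses
import Cfsg.Agent.Helper4.DecO2

set_option autoImplicit false
open Cfsg

/-!
Decompositions into plus-type planes over `F₄` (the overgroup is the stabiliser of an
`F₂`-structure) and into plus-type `4`-spaces over `F₂` (the overgroup stabilises the
decomposition into anisotropic planes).
-/

namespace Cfsg.Agent.Helper4.DecO

open Module Matrix Cfsg.Agent.Helper4.OrthPlane Cfsg.Agent.Helper4.OrthFrame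

variable {ι : Type} [Fintype ι] [DecidableEq ι] {F : Type*} [Field F]

section cases

variable (Q : (ι → F) → F)

/-- Plus-type planes over `F₄`: the overgroup stabilises the additive group generated by the
vectors of norm `1` of the members (an `F₂`-form of the space). -/
theorem caseF (hQ : Cfsg.Geo.IsNondegenerateQuadraticForm Q) [Fintype F]
    (hq : Fintype.card F = 4) {t : ℕ} (D : Fin t → Submodule F (ι → F))
    (hD : Cfsg.Geo.IsOrthogonalMDecomposition Q 2 D)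
    (hplus : ∀ i, Cfsg.Geo.IsPlusTypeOn Q (D i)) (ht : 3 ≤ t) :
    ∃ K : Subgroup (Matrix.GeneralLinearGroup ι F),
      Cfsg.Geo.decompositionStabilizer D ⊓ Cfsg.Geo.omegaGL Q < K ∧ K < Cfsg.Geo.omegaGL Q := by
  have hch : (2 : F) = 0 := two_eq_zero4 hq
  obtain ⟨ω, hω⟩ := exists_omega hq
  have horth : ∀ i j, i ≠ j → ∀ u ∈ D i, ∀ v ∈ D j, Bf Q hQ u v = 0 :=
    fun i j hij u hu v hv => hD.decomp.orthogonal i j hij u hu v hv
  have hhyp := fun l => exists_hyp Q hQ (D l) (hD.decomp.decomp.finrank_eq l)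
    (hD.decomp.nondegenerate l) (hplus l)
  choose e f he hf hQe hQf hef hsp using hhyp
  obtain ⟨v, hv⟩ : ∃ v : Fin t → (ι → F), ∀ l, v l = (1 : F) • e l + (1 : F) • f l :=
    ⟨fun l => (1 : F) • e l + (1 : F) • f l, fun l => rfl⟩
  obtain ⟨v', hv'⟩ : ∃ v' : Fin t → (ι → F), ∀ l, v' l = ω • e l + ω ^ 2 • f l :=
    ⟨fun l => ω • e l + ω ^ 2 • f l, fun l => rfl⟩
  have hvD : ∀ l, v l ∈ D l := fun l => by
    rw [hv l]
    exact (D l).add_mem ((D l).smul_mem _ (he l)) ((D l).smul_mem _ (hf l))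
  have hv'D : ∀ l, v' l ∈ D l := fun l => by
    rw [hv' l]
    exact (D l).add_mem ((D l).smul_mem _ (he l)) ((D l).smul_mem _ (hf l))
  have Qv : ∀ l, Q (v l) = 1 := by
    intro l
    rw [hv l, Q_hyp Q hQ (e l) (f l) (hQe l) (hQf l) (hef l)]
    ring
  have Qv' : ∀ l, Q (v' l) = 1 := by
    intro l
    rw [hv' l, Q_hyp Q hQ (e l) (f l) (hQe l) (hQf l) (hef l)]
    linear_combination (ω - 1) * hω
  have Bvv' : ∀ l, Bf Q hQ (v l) (v' l) = 1 := by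
    intro l
    rw [hv l, hv' l, B_hyp Q hQ (e l) (f l) (hQe l) (hQf l) (hef l)]
    linear_combination hω - hch
  have Bv'v : ∀ l, Bf Q hQ (v' l) (v l) = 1 := fun l => by
    rw [Bf_symm Q hQ (v' l) (v l)]
    exact Bvv' l
  have Bv'v' : ∀ l, Bf Q hQ (v' l) (v' l) = 0 := fun l => by
    rw [Bf_self Q hQ, hch, zero_mul]
  have KF : ∀ l, ∀ x ∈ D l, ∀ y ∈ D l, Q x = 1 → Q y = 1 →
      Bf Q hQ x y = 0 ∨ Bf Q hQ x y = 1 := by
    intro l x hx y hy hQx hQy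
    obtain ⟨α, β, rfl⟩ := hsp l x hx
    obtain ⟨γ, δ, rfl⟩ := hsp l y hy
    rw [Q_hyp Q hQ (e l) (f l) (hQe l) (hQf l) (hef l)] at hQx hQy
    rw [B_hyp Q hQ (e l) (f l) (hQe l) (hQf l) (hef l)]
    exact f4_val hq α β γ δ hQx hQy
  obtain ⟨S, hS⟩ : ∃ S : Set (ι → F), S = {w : ι → F | ∃ l, w ∈ D l ∧ Q w = 1} := ⟨_, rfl⟩
  have hSmem : ∀ w : ι → F, w ∈ S ↔ ∃ l, w ∈ D l ∧ Q w = 1 := by
    intro w
    rw [hS]
    exact Iff.rfl
  have F2v : ∀ y ∈ AddSubgroup.closure S, ∀ w ∈ S, Bf Q hQ y w = 0 ∨ Bf Q hQ y w = 1 := by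
    intro y hy w hw
    obtain ⟨l, hwl, hQw⟩ := (hSmem w).mp hw
    refine AddSubgroup.closure_induction
      (p := fun y _ => Bf Q hQ y w = 0 ∨ Bf Q hQ y w = 1) ?_ ?_ ?_ ?_ hy
    · intro x hx
      obtain ⟨m, hxm, hQx⟩ := (hSmem x).mp hx
      by_cases hml : m = l
      · rw [hml] at hxm
        exact KF l x hxm w hwl hQx hQw
      · left
        exact horth m l hml x hxm w hwl
    · left
      show Bf Q hQ 0 w = 0
      rw [map_zero, LinearMap.zero_apply]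
    · intro x y _ _ hx hy
      show Bf Q hQ (x + y) w = 0 ∨ Bf Q hQ (x + y) w = 1
      rw [map_add, LinearMap.add_apply]
      exact f2_add hch _ _ hx hy
    · intro x _ hx
      show Bf Q hQ (-x) w = 0 ∨ Bf Q hQ (-x) w = 1
      rw [map_neg, LinearMap.neg_apply]
      rcases hx with h | h
      · left
        rw [h, neg_zero]
      · right
        rw [h]
        linear_combination (-1 : F) * hch
  obtain ⟨i₁, i₂, i₃, h12, h13, h23⟩ := exists_three ht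
  have hS1 : ∀ l, v l ∈ S := fun l => (hSmem _).mpr ⟨l, hvD l, Qv l⟩
  have hS2 : ∀ l, v' l ∈ S := fun l => (hSmem _).mpr ⟨l, hv'D l, Qv' l⟩
  obtain ⟨a, ha⟩ : ∃ a : ι → F, a = v i₁ + v i₂ + v i₃ := ⟨_, rfl⟩
  have hQa : Q a = 1 := by
    rw [ha, Q_add Q hQ, Q_add Q hQ, Qv i₁, Qv i₂, Qv i₃]
    simp only [map_add, LinearMap.add_apply, horth i₁ i₂ h12 _ (hvD i₁) _ (hvD i₂),
      horth i₁ i₃ h13 _ (hvD i₁) _ (hvD i₃), horth i₂ i₃ h23 _ (hvD i₂) _ (hvD i₃)]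
    linear_combination hch
  have hab : Bf Q hQ a (v' i₁) = 1 := by
    rw [ha]
    simp only [map_add, LinearMap.add_apply, Bvv' i₁,
      horth i₂ i₁ (Ne.symm h12) _ (hvD i₂) _ (hv'D i₁),
      horth i₃ i₁ (Ne.symm h13) _ (hvD i₃) _ (hv'D i₁)]
    ring
  obtain ⟨g₁, hg₁Ω, hg₁⟩ := Cfsg.Agent.S5705.comm_formula Q hQ hch a (v' i₁) hQa (Qv' i₁) hab
  have haV : a ∈ AddSubgroup.closure S := by
    rw [ha]
    exact AddSubgroup.add_mem _ (AddSubgroup.add_mem _ (AddSubgroup.subset_closure (hS1 i₁))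
      (AddSubgroup.subset_closure (hS1 i₂))) (AddSubgroup.subset_closure (hS1 i₃))
  have hbV : v' i₁ ∈ AddSubgroup.closure S := AddSubgroup.subset_closure (hS2 i₁)
  have hg₁S : ∀ w ∈ S, (g₁ : Matrix ι ι F) *ᵥ w ∈ AddSubgroup.closure S := by
    intro w hw
    rw [hg₁ w]
    have c1 := F2v a haV w hw
    have c2 := F2v (v' i₁) hbV w hw
    exact AddSubgroup.add_mem _ (AddSubgroup.add_mem _ (AddSubgroup.subset_closure hw)
      (smul01 _ _ c1 a haV)) (smul01 _ _ (f2_add hch _ _ c1 c2) (v' i₁) hbV)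
  have hg₁T : ∀ w ∈ {w : ι → F | w ∈ AddSubgroup.closure S},
      (g₁ : Matrix ι ι F) *ᵥ w ∈ {w : ι → F | w ∈ AddSubgroup.closure S} :=
    cl_maps S (g₁ : Matrix ι ι F) hg₁S
  have hT : ∀ g : Matrix.GeneralLinearGroup ι F, g ∈ Cfsg.Geo.decompositionStabilizer D →
      g ∈ Cfsg.Geo.omegaGL Q → ∀ w ∈ {w : ι → F | w ∈ AddSubgroup.closure S},
        (g : Matrix ι ι F) *ᵥ w ∈ {w : ι → F | w ∈ AddSubgroup.closure S} := by
    intro g hgD hgΩ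
    refine cl_maps S (g : Matrix ι ι F) (fun w hw => AddSubgroup.subset_closure ?_)
    exact (hSmem _).mpr (S_inv Q D 1 g hgD hgΩ w ((hSmem w).mp hw))
  have hg₁D : g₁ ∉ Cfsg.Geo.decompositionStabilizer D := by
    refine not_stab Q hQ D horth g₁ i₁ i₁ i₂ h12 (v' i₁) (v' i₁) (v' i₁) (v' i₂)
      (hv'D i₁) (hv'D i₁) (hv'D i₁) (hv'D i₂) ?_ ?_
    · have hval : Bf Q hQ (v' i₁) ((g₁ : Matrix ι ι F) *ᵥ v' i₁) = 1 := by
        rw [hg₁, ha]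
        simp only [map_add, map_smul, smul_eq_mul, LinearMap.add_apply, Bv'v' i₁, Bvv' i₁,
          Bv'v i₁, horth i₂ i₁ (Ne.symm h12) _ (hvD i₂) _ (hv'D i₁),
          horth i₃ i₁ (Ne.symm h13) _ (hvD i₃) _ (hv'D i₁),
          horth i₁ i₂ h12 _ (hv'D i₁) _ (hvD i₂), horth i₁ i₃ h13 _ (hv'D i₁) _ (hvD i₃)]
        ring
      rw [hval]
      exact one_ne_zero
    · have hval : Bf Q hQ (v' i₂) ((g₁ : Matrix ι ι F) *ᵥ v' i₁) = 1 := by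
        rw [hg₁, ha]
        simp only [map_add, map_smul, smul_eq_mul, LinearMap.add_apply, Bv'v' i₁, Bvv' i₁,
          Bv'v i₂, horth i₂ i₁ (Ne.symm h12) _ (hvD i₂) _ (hv'D i₁),
          horth i₃ i₁ (Ne.symm h13) _ (hvD i₃) _ (hv'D i₁),
          horth i₂ i₁ (Ne.symm h12) _ (hv'D i₂) _ (hv'D i₁),
          horth i₂ i₁ (Ne.symm h12) _ (hv'D i₂) _ (hvD i₁),
          horth i₂ i₃ h23 _ (hv'D i₂) _ (hvD i₃)]
        ring
      rw [hval]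
      exact one_ne_zero
  obtain ⟨a₂, ha₂⟩ : ∃ a₂ : ι → F, a₂ = ω • v i₁ + ω ^ 2 • v i₂ := ⟨_, rfl⟩
  obtain ⟨b₂, hb₂⟩ : ∃ b₂ : ι → F, b₂ = v' i₁ + v' i₂ + v i₃ := ⟨_, rfl⟩
  have hQa₂ : Q a₂ = 1 := by
    rw [ha₂, Q_add_smul Q hQ, hQ.smul, Qv i₁, Qv i₂]
    simp only [map_smul, LinearMap.smul_apply, smul_eq_mul,
      horth i₁ i₂ h12 _ (hvD i₁) _ (hvD i₂)]
    linear_combination (ω ^ 2 - ω + 1) * hω - hch
  have hQb₂ : Q b₂ = 1 := by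
    rw [hb₂, Q_add Q hQ, Q_add Q hQ, Qv' i₁, Qv' i₂, Qv i₃]
    simp only [map_add, LinearMap.add_apply, horth i₁ i₂ h12 _ (hv'D i₁) _ (hv'D i₂),
      horth i₁ i₃ h13 _ (hv'D i₁) _ (hvD i₃), horth i₂ i₃ h23 _ (hv'D i₂) _ (hvD i₃)]
    linear_combination hch
  have hab₂ : Bf Q hQ a₂ b₂ = 1 := by
    rw [ha₂, hb₂]
    simp only [map_add, map_smul, smul_eq_mul, LinearMap.add_apply, LinearMap.smul_apply,
      Bvv' i₁, Bvv' i₂, horth i₁ i₂ h12 _ (hvD i₁) _ (hv'D i₂),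
      horth i₁ i₃ h13 _ (hvD i₁) _ (hvD i₃), horth i₂ i₁ (Ne.symm h12) _ (hvD i₂) _ (hv'D i₁),
      horth i₂ i₃ h23 _ (hvD i₂) _ (hvD i₃)]
    linear_combination hω - hch
  obtain ⟨g₂, hg₂Ω, hg₂⟩ := Cfsg.Agent.S5705.comm_formula Q hQ hch a₂ b₂ hQa₂ hQb₂ hab₂
  have hg₂T : (g₂ : Matrix ι ι F) *ᵥ v' i₁ ∉ {w : ι → F | w ∈ AddSubgroup.closure S} := by
    intro hmem
    have hzo := F2v _ hmem (v' i₃) (hS2 i₃)
    have hval : Bf Q hQ ((g₂ : Matrix ι ι F) *ᵥ v' i₁) (v' i₃) = ω := by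
      rw [hg₂, ha₂, hb₂]
      simp only [map_add, map_smul, smul_eq_mul, LinearMap.add_apply, LinearMap.smul_apply,
        horth i₁ i₃ h13 _ (hv'D i₁) _ (hv'D i₃), Bvv' i₁,
        horth i₂ i₁ (Ne.symm h12) _ (hvD i₂) _ (hv'D i₁),
        horth i₁ i₃ h13 _ (hvD i₁) _ (hv'D i₃), horth i₂ i₃ h23 _ (hvD i₂) _ (hv'D i₃),
        Bv'v' i₁, horth i₂ i₁ (Ne.symm h12) _ (hv'D i₂) _ (hv'D i₁),
        horth i₃ i₁ (Ne.symm h13) _ (hvD i₃) _ (hv'D i₁),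
        horth i₂ i₃ h23 _ (hv'D i₂) _ (hv'D i₃), Bvv' i₃]
      ring
    rw [hval] at hzo
    rcases hzo with h | h
    · rw [h] at hω
      exact one_ne_zero (by linear_combination hω : (1 : F) = 0)
    · rw [h] at hω
      exact one_ne_zero (by linear_combination hω - hch : (1 : F) = 0)
  exact gen_core Q D {w : ι → F | w ∈ AddSubgroup.closure S} hT g₁ g₂ hg₁Ω hg₂Ω hg₁T hg₁D
    (v' i₁) hbV hg₂T

/-- Plus-type `4`-spaces over `F₂`: the overgroup stabilises the set of non-singular vectors of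
the members, i.e. the decomposition into anisotropic planes. -/
theorem caseG (hQ : Cfsg.Geo.IsNondegenerateQuadraticForm Q) [Fintype F]
    (hq : Fintype.card F = 2) {t : ℕ} (D : Fin t → Submodule F (ι → F))
    (hD : Cfsg.Geo.IsOrthogonalMDecomposition Q 4 D)
    (hplus : ∀ i, Cfsg.Geo.IsPlusTypeOn Q (D i)) (ht : 3 ≤ t) :
    ∃ K : Subgroup (Matrix.GeneralLinearGroup ι F),
      Cfsg.Geo.decompositionStabilizer D ⊓ Cfsg.Geo.omegaGL Q < K ∧ K < Cfsg.Geo.omegaGL Q := by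
  have hch : (2 : F) = 0 := two_eq_zero2 hq
  have h01 := zero_or_one2 hq
  have horth : ∀ i j, i ≠ j → ∀ u ∈ D i, ∀ v ∈ D j, Bf Q hQ u v = 0 :=
    fun i j hij u hu v hv => hD.decomp.orthogonal i j hij u hu v hv
  have hblk := fun l => block4 Q hQ hch h01 (D l) (hD.decomp.decomp.finrank_eq l)
    (hD.decomp.nondegenerate l) (hplus l)
  choose pa pb pc pd hpaD hpbD hpcD hpdD Qa Qb Qc Qd Bab Bcd Bac Bad Bbc Bbd cls using hblk
  have Bba : ∀ l, Bf Q hQ (pb l) (pa l) = 1 := fun l => by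
    rw [Bf_symm Q hQ (pb l) (pa l)]
    exact Bab l
  have Bbb : ∀ l, Bf Q hQ (pb l) (pb l) = 0 := fun l => by
    rw [Bf_self Q hQ, hch, zero_mul]
  obtain ⟨i₁, i₂, i₃, h12, h13, h23⟩ := exists_three ht
  obtain ⟨g₁, hg₁Ω, ga₁, gb₁, ga₂, gb₂, ga₃, gb₃, gfix⟩ := plane3 Q hQ hch
    (pa i₁) (pb i₁) (pc i₁) (pd i₁) (pa i₂) (pb i₂) (Qa i₁) (Qb i₁) (Qc i₁) (Qd i₁) (Qa i₂)
    (Qb i₂) (Bab i₁) (Bcd i₁) (Bab i₂) (Bac i₁) (Bad i₁) (Bbc i₁) (Bbd i₁)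
    (horth i₁ i₂ h12 _ (hpaD i₁) _ (hpaD i₂)) (horth i₁ i₂ h12 _ (hpaD i₁) _ (hpbD i₂))
    (horth i₁ i₂ h12 _ (hpbD i₁) _ (hpaD i₂)) (horth i₁ i₂ h12 _ (hpbD i₁) _ (hpbD i₂))
    (horth i₁ i₂ h12 _ (hpcD i₁) _ (hpaD i₂)) (horth i₁ i₂ h12 _ (hpcD i₁) _ (hpbD i₂))
    (horth i₁ i₂ h12 _ (hpdD i₁) _ (hpaD i₂)) (horth i₁ i₂ h12 _ (hpdD i₁) _ (hpbD i₂))
  have hisoQ : ∀ u : ι → F, Q ((g₁ : Matrix ι ι F) *ᵥ u) = Q u :=
    fun u => omega_le_isom Q g₁ hg₁Ω u u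
  have hg₁T : ∀ w ∈ {v : ι → F | ∃ l, v ∈ D l ∧ Q v = 1},
      (g₁ : Matrix ι ι F) *ᵥ w ∈ {v : ι → F | ∃ l, v ∈ D l ∧ Q v = 1} := by
    rintro w ⟨l, hwl, hQw⟩
    have hQg : Q ((g₁ : Matrix ι ι F) *ᵥ w) = 1 := by rw [hisoQ, hQw]
    by_cases hl1 : l = i₁
    · rw [hl1] at hwl
      rcases cls i₁ w hwl hQw with h | h | h | h | h | h
      · refine ⟨i₂, ?_, hQg⟩
        rw [h, ga₁]
        exact hpaD i₂
      · refine ⟨i₂, ?_, hQg⟩
        rw [h, gb₁]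
        exact hpbD i₂
      · refine ⟨i₂, ?_, hQg⟩
        rw [h, Matrix.mulVec_add, ga₁, gb₁]
        exact (D i₂).add_mem (hpaD i₂) (hpbD i₂)
      · refine ⟨i₁, ?_, hQg⟩
        rw [h, ga₂]
        exact hpaD i₁
      · refine ⟨i₁, ?_, hQg⟩
        rw [h, gb₂]
        exact hpbD i₁
      · refine ⟨i₁, ?_, hQg⟩
        rw [h, Matrix.mulVec_add, ga₂, gb₂]
        exact (D i₁).add_mem (hpaD i₁) (hpbD i₁)
    · by_cases hl2 : l = i₂
      · rw [hl2] at hwl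
        have hfix2 : Bf Q hQ (pa i₂) w = 0 → Bf Q hQ (pb i₂) w = 0 →
            (g₁ : Matrix ι ι F) *ᵥ w = w := fun h5 h6 =>
          gfix w (horth i₁ i₂ h12 _ (hpaD i₁) w hwl) (horth i₁ i₂ h12 _ (hpbD i₁) w hwl)
            (horth i₁ i₂ h12 _ (hpcD i₁) w hwl) (horth i₁ i₂ h12 _ (hpdD i₁) w hwl) h5 h6
        rcases cls i₂ w hwl hQw with h | h | h | h | h | h
        · refine ⟨i₁, ?_, hQg⟩
          rw [h, ga₃]
          exact hpcD i₁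
        · refine ⟨i₁, ?_, hQg⟩
          rw [h, gb₃]
          exact hpdD i₁
        · refine ⟨i₁, ?_, hQg⟩
          rw [h, Matrix.mulVec_add, ga₃, gb₃]
          exact (D i₁).add_mem (hpcD i₁) (hpdD i₁)
        · refine ⟨i₂, ?_, hQg⟩
          rw [hfix2 (by rw [h]; exact Bac i₂) (by rw [h]; exact Bbc i₂)]
          exact hwl
        · refine ⟨i₂, ?_, hQg⟩
          rw [hfix2 (by rw [h]; exact Bad i₂) (by rw [h]; exact Bbd i₂)]
          exact hwl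
        · refine ⟨i₂, ?_, hQg⟩
          rw [hfix2 (by rw [h, map_add, Bac i₂, Bad i₂, add_zero])
            (by rw [h, map_add, Bbc i₂, Bbd i₂, add_zero])]
          exact hwl
      · refine ⟨l, ?_, hQg⟩
        rw [gfix w (horth i₁ l (Ne.symm hl1) _ (hpaD i₁) w hwl)
          (horth i₁ l (Ne.symm hl1) _ (hpbD i₁) w hwl)
          (horth i₁ l (Ne.symm hl1) _ (hpcD i₁) w hwl)
          (horth i₁ l (Ne.symm hl1) _ (hpdD i₁) w hwl)
          (horth i₂ l (Ne.symm hl2) _ (hpaD i₂) w hwl)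
          (horth i₂ l (Ne.symm hl2) _ (hpbD i₂) w hwl)]
        exact hwl
  have hg₁D : g₁ ∉ Cfsg.Geo.decompositionStabilizer D := by
    refine not_stab Q hQ D horth g₁ i₁ i₂ i₁ (Ne.symm h12) (pa i₁) (pc i₁) (pb i₂) (pb i₁)
      (hpaD i₁) (hpcD i₁) (hpbD i₂) (hpbD i₁) ?_ ?_
    · rw [ga₁, Bba i₂]
      exact one_ne_zero
    · rw [ga₂, Bba i₁]
      exact one_ne_zero
  obtain ⟨a, ha⟩ : ∃ a : ι → F, a = pa i₁ + pa i₂ + pa i₃ := ⟨_, rfl⟩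
  have hQa : Q a = 1 := by
    rw [ha, Q_add Q hQ, Q_add Q hQ, Qa i₁, Qa i₂, Qa i₃]
    simp only [map_add, LinearMap.add_apply, horth i₁ i₂ h12 _ (hpaD i₁) _ (hpaD i₂),
      horth i₁ i₃ h13 _ (hpaD i₁) _ (hpaD i₃), horth i₂ i₃ h23 _ (hpaD i₂) _ (hpaD i₃)]
    linear_combination hch
  have hab : Bf Q hQ a (pb i₁) = 1 := by
    rw [ha]
    simp only [map_add, LinearMap.add_apply, Bab i₁,
      horth i₂ i₁ (Ne.symm h12) _ (hpaD i₂) _ (hpbD i₁),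
      horth i₃ i₁ (Ne.symm h13) _ (hpaD i₃) _ (hpbD i₁)]
    ring
  obtain ⟨g₂, hg₂Ω, hg₂⟩ := Cfsg.Agent.S5705.comm_formula Q hQ hch a (pb i₁) hQa (Qb i₁) hab
  have hg₂T : (g₂ : Matrix ι ι F) *ᵥ pb i₁ ∉ {v : ι → F | ∃ l, v ∈ D l ∧ Q v = 1} := by
    rintro ⟨l, hl, -⟩
    refine not_block Q hQ D horth ((g₂ : Matrix ι ι F) *ᵥ pb i₁) (pb i₁) (pb i₂) i₁ i₂ h12
      (hpbD i₁) (hpbD i₂) ?_ ?_ l hl
    · have hval : Bf Q hQ (pb i₁) ((g₂ : Matrix ι ι F) *ᵥ pb i₁) = 1 := by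
        rw [hg₂, ha]
        simp only [map_add, map_smul, smul_eq_mul, LinearMap.add_apply, Bbb i₁, Bab i₁, Bba i₁,
          horth i₂ i₁ (Ne.symm h12) _ (hpaD i₂) _ (hpbD i₁),
          horth i₃ i₁ (Ne.symm h13) _ (hpaD i₃) _ (hpbD i₁),
          horth i₁ i₂ h12 _ (hpbD i₁) _ (hpaD i₂), horth i₁ i₃ h13 _ (hpbD i₁) _ (hpaD i₃)]
        ring
      rw [hval]
      exact one_ne_zero
    · have hval : Bf Q hQ (pb i₂) ((g₂ : Matrix ι ι F) *ᵥ pb i₁) = 1 := by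
        rw [hg₂, ha]
        simp only [map_add, map_smul, smul_eq_mul, LinearMap.add_apply, Bbb i₁, Bab i₁, Bba i₂,
          horth i₂ i₁ (Ne.symm h12) _ (hpaD i₂) _ (hpbD i₁),
          horth i₃ i₁ (Ne.symm h13) _ (hpaD i₃) _ (hpbD i₁),
          horth i₂ i₁ (Ne.symm h12) _ (hpbD i₂) _ (hpbD i₁),
          horth i₂ i₁ (Ne.symm h12) _ (hpbD i₂) _ (hpaD i₁),
          horth i₂ i₃ h23 _ (hpbD i₂) _ (hpaD i₃)]
        ring
      rw [hval]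
      exact one_ne_zero
  exact gen_core Q D {v : ι → F | ∃ l, v ∈ D l ∧ Q v = 1}
    (fun g hgD hgΩ w hw => S_inv Q D 1 g hgD hgΩ w hw) g₁ g₂ hg₁Ω hg₂Ω hg₁T hg₁D (pb i₁)
    ⟨i₁, hpbD i₁, Qb i₁⟩ hg₂T

end cases

end Cfsg.Agent.Helper4.DecO
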