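import Mathlib

set_option autoImplicit false

namespace Cfsg.Agent.Helper4.O4m

/-- Coordinates of a quadratic extension `K = F ⊕ F ω` with `ω² = a ω - b`. -/
structure Coord (F K : Type*) [Field F] [Field K] (a b : F) where
  i : F →+* K
  ω : K
  re : K → F
  im : K → F
  hω : ω * ω = i a * ω - i b
  rep : ∀ x, x = i (re x) + i (im x) * ω
  uniq : ∀ u v : F, re (i u + i v * ω) = u ∧ im (i u + i v * ω) = v

variable {F K : Type*} [Field F] [Field K] {a b : F}

namespace Coord

variable (c : Coord F K a b)

theorem add (x y : K) :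
    c.re (x + y) = c.re x + c.re y ∧ c.im (x + y) = c.im x + c.im y := by
  have hx := c.rep x
  have hy := c.rep y
  have h : x + y = c.i (c.re x + c.re y) + c.i (c.im x + c.im y) * c.ω := by
    rw [map_add, map_add]
    linear_combination hx + hy
  have h2 := c.uniq (c.re x + c.re y) (c.im x + c.im y)
  rw [← h] at h2
  exact h2

theorem mul (x y : K) :
    c.re (x * y) = c.re x * c.re y - b * (c.im x * c.im y) ∧
    c.im (x * y) = c.re x * c.im y + c.im x * c.re y + a * (c.im x * c.im y) := by
  have hx := c.rep x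
  have hy := c.rep y
  have h : x * y = c.i (c.re x * c.re y - b * (c.im x * c.im y)) +
      c.i (c.re x * c.im y + c.im x * c.re y + a * (c.im x * c.im y)) * c.ω := by
    simp only [map_add, map_sub, map_mul]
    linear_combination y * hx + (c.i (c.re x) + c.i (c.im x) * c.ω) * hy +
      c.i (c.im x) * c.i (c.im y) * c.hω
  have h2 := c.uniq (c.re x * c.re y - b * (c.im x * c.im y))
    (c.re x * c.im y + c.im x * c.re y + a * (c.im x * c.im y))
  rw [← h] at h2
  exact h2

theorem of_i (u : F) : c.re (c.i u) = u ∧ c.im (c.i u) = 0 := by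
  have h2 := c.uniq u 0
  rw [map_zero, zero_mul, add_zero] at h2
  exact h2

theorem one : c.re 1 = 1 ∧ c.im 1 = 0 := by
  have h := c.of_i 1
  rw [map_one] at h
  exact h

theorem zero : c.re 0 = 0 ∧ c.im 0 = 0 := by
  have h := c.of_i 0
  rw [map_zero] at h
  exact h

theorem neg (x : K) : c.re (-x) = -c.re x ∧ c.im (-x) = -c.im x := by
  have h := c.add x (-x)
  rw [add_neg_cancel, (c.zero).1, (c.zero).2] at h
  constructor
  · linear_combination (-1 : F) * h.1
  · linear_combination (-1 : F) * h.2

theorem sub (x y : K) :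
    c.re (x - y) = c.re x - c.re y ∧ c.im (x - y) = c.im x - c.im y := by
  rw [sub_eq_add_neg, (c.add x (-y)).1, (c.add x (-y)).2, (c.neg y).1, (c.neg y).2]
  exact ⟨(sub_eq_add_neg _ _).symm, (sub_eq_add_neg _ _).symm⟩

theorem eq_zero_of (x : K) (h1 : c.re x = 0) (h2 : c.im x = 0) : x = 0 := by
  have h := c.rep x
  rw [h1, h2, map_zero, zero_mul, add_zero] at h
  exact h

theorem re_dot (x y z w : K) :
    c.re (x * y + z * w) = c.re x * c.re y - b * (c.im x * c.im y) +
      (c.re z * c.re w - b * (c.im z * c.im w)) := by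
  rw [(c.add _ _).1, (c.mul x y).1, (c.mul z w).1]

theorem im_dot (x y z w : K) :
    c.im (x * y + z * w) = c.re x * c.im y + c.im x * c.re y + a * (c.im x * c.im y) +
      (c.re z * c.im w + c.im z * c.re w + a * (c.im z * c.im w)) := by
  rw [(c.add _ _).2, (c.mul x y).2, (c.mul z w).2]

theorem re_det (x y z w : K) :
    c.re (x * y - z * w) = c.re x * c.re y - b * (c.im x * c.im y) -
      (c.re z * c.re w - b * (c.im z * c.im w)) := by
  rw [(c.sub _ _).1, (c.mul x y).1, (c.mul z w).1]

theorem im_det (x y z w : K) :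
    c.im (x * y - z * w) = c.re x * c.im y + c.im x * c.re y + a * (c.im x * c.im y) -
      (c.re z * c.im w + c.im z * c.re w + a * (c.im z * c.im w)) := by
  rw [(c.sub _ _).2, (c.mul x y).2, (c.mul z w).2]

end Coord

theorem exists_root [Fintype F] [Fintype K] (a b : F)
    (hab : ∀ z₁ z₂ : F, z₁ ^ 2 + a * z₁ * z₂ + b * z₂ ^ 2 = 0 → z₁ = 0 ∧ z₂ = 0)
    (hK : Fintype.card K = Fintype.card F ^ 2) :
    ∃ (i : F →+* K) (ω : K), ω * ω = i a * ω - i b := by
  classical
  obtain ⟨f, hf⟩ : ∃ f : Polynomial F, f = Polynomial.C 1 * Polynomial.X ^ 2 +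
      Polynomial.C (-a) * Polynomial.X + Polynomial.C b := ⟨_, rfl⟩
  have hdeg : f.natDegree = 2 := by
    rw [hf]
    exact Polynomial.natDegree_quadratic one_ne_zero
  have hirr : Irreducible f := by
    apply Polynomial.irreducible_of_degree_le_three_of_not_isRoot
    · rw [hdeg]
      simp
    · intro x hx
      have h1 : 1 * x ^ 2 + -a * x + b = 0 := by
        have h0 := hx
        rw [Polynomial.IsRoot, hf] at h0
        simpa using h0
      have h2 := hab x (-1) (by linear_combination h1)
      exact one_ne_zero (neg_eq_zero.1 h2.2)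
  haveI : Fact (Irreducible f) := ⟨hirr⟩
  have hf0 : f ≠ 0 := hirr.ne_zero
  haveI : Module.Finite F (AdjoinRoot f) := (AdjoinRoot.powerBasis hf0).finite
  haveI : Finite (AdjoinRoot f) := Module.finite_of_finite F
  haveI : Fintype (AdjoinRoot f) := Fintype.ofFinite _
  have hcard : Fintype.card (AdjoinRoot f) = Fintype.card K := by
    rw [hK, Module.card_eq_pow_finrank (K := F) (V := AdjoinRoot f),
      (AdjoinRoot.powerBasis hf0).finrank, AdjoinRoot.powerBasis_dim, hdeg]
  obtain ⟨e⟩ : Nonempty (AdjoinRoot f ≃+* K) := ⟨FiniteField.ringEquivOfCardEq hcard⟩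
  refine ⟨(e : AdjoinRoot f →+* K).comp (AdjoinRoot.of f), e (AdjoinRoot.root f), ?_⟩
  have h1 := AdjoinRoot.eval₂_root f
  have h2 : AdjoinRoot.root f * AdjoinRoot.root f =
      AdjoinRoot.of f a * AdjoinRoot.root f - AdjoinRoot.of f b := by
    rw [hf] at h1
    simp only [Polynomial.eval₂_add, Polynomial.eval₂_mul, Polynomial.eval₂_pow,
      Polynomial.eval₂_X, Polynomial.eval₂_C, Polynomial.eval₂_one, Polynomial.eval₂_neg,
      map_one, map_neg] at h1
    rw [← hf] at h1
    linear_combination h1
  have h3 := congrArg e h2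
  rw [map_mul, map_sub, map_mul] at h3
  exact h3

theorem exists_coord [Fintype F] [Fintype K] (a b : F)
    (hab : ∀ z₁ z₂ : F, z₁ ^ 2 + a * z₁ * z₂ + b * z₂ ^ 2 = 0 → z₁ = 0 ∧ z₂ = 0)
    (hK : Fintype.card K = Fintype.card F ^ 2) : Nonempty (Coord F K a b) := by
  classical
  obtain ⟨i, ω, hω⟩ := exists_root (K := K) a b hab hK
  have hinj : Function.Injective (fun p : F × F => i p.1 + i p.2 * ω) := by
    rintro ⟨u, v⟩ ⟨u', v'⟩ h
    simp only at h
    have hv : v = v' := by
      by_contra hne
      have hd : v - v' ≠ 0 := sub_ne_zero.2 hne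
      obtain ⟨t, ht⟩ : ∃ t : F, t = (u' - u) / (v - v') := ⟨_, rfl⟩
      have ht' : (v - v') * t = u' - u := by
        rw [ht]
        field_simp
      have hωt : ω = i t := by
        have h1 : i (v - v') * ω = i (u' - u) := by
          rw [map_sub, map_sub]
          linear_combination h
        have h2 : i (v - v') ≠ 0 := (map_ne_zero i).2 hd
        have h3 : i (u' - u) = i (v - v') * i t := by
          rw [← map_mul, ht']
        exact mul_left_cancel₀ h2 (h1.trans h3)
      have h4 : i (t * t) = i (a * t - b) := by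
        rw [map_mul, map_sub, map_mul, ← hωt]
        exact hω
      have h5 := i.injective h4
      have h6 := hab t (-1) (by linear_combination h5)
      exact one_ne_zero (neg_eq_zero.1 h6.2)
    subst hv
    have hu : i u = i u' := by linear_combination h
    rw [i.injective hu]
  have hbij : Function.Bijective (fun p : F × F => i p.1 + i p.2 * ω) := by
    rw [Fintype.bijective_iff_injective_and_card]
    exact ⟨hinj, by rw [Fintype.card_prod, hK, sq]⟩
  obtain ⟨E, hE⟩ : ∃ E : F × F ≃ K, ∀ p, E p = i p.1 + i p.2 * ω :=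
    ⟨Equiv.ofBijective _ hbij, fun p => rfl⟩
  refine ⟨⟨i, ω, fun x => (E.symm x).1, fun x => (E.symm x).2, hω, ?_, ?_⟩⟩
  · intro x
    have h := E.apply_symm_apply x
    rw [hE] at h
    exact h.symm
  · intro u v
    have h := E.symm_apply_apply (u, v)
    rw [hE] at h
    exact ⟨congrArg Prod.fst h, congrArg Prod.snd h⟩

end Cfsg.Agent.Helper4.O4m
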