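import Mathlib
import Cfsg.Prelude.Def_Classical
import Cfsg.Agent.Helper4.O4mA
import Cfsg.Agent.Helper27.O4Adj

set_option autoImplicit false

namespace Cfsg.Agent.Helper4.O4m

open Matrix Cfsg.Agent.Helper27.O3Adj Cfsg.Agent.Helper27.O4Adj

variable {F K : Type*} [Field F] [Field K] {a b : F}

/-- The index type of the four-dimensional minus-type space. -/
abbrev I4 : Type := (Fin 1 ⊕ Fin 1) ⊕ Fin 2

theorem ext4 {v w : I4 → F} (h1 : v (.inl (.inl 0)) = w (.inl (.inl 0)))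
    (h2 : v (.inl (.inr 0)) = w (.inl (.inr 0)))
    (h3 : v (.inr 0) = w (.inr 0)) (h4 : v (.inr 1) = w (.inr 1)) : v = w := by
  funext i
  rcases i with (i | i) | i
  · have hi : i = 0 := Subsingleton.elim _ _
    subst hi
    exact h1
  · have hi : i = 0 := Subsingleton.elim _ _
    subst hi
    exact h2
  · fin_cases i
    · exact h3
    · exact h4

def nm (a b u v : F) : F := u ^ 2 + a * u * v + b * v ^ 2

def P1 (a b x1 x2 y1 y2 : F) : F := x1 * y1 + a * x1 * y2 + b * x2 * y2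

def P2 (x1 x2 y1 y2 : F) : F := x2 * y1 - x1 * y2

def T1 (a p1 p2 : F) : F := 2 * p1 + a * p2

def T2 (a b p1 p2 : F) : F := a * p1 + (a ^ 2 - 2 * b) * p2

/-- The action of `[[A, B], [C, D]]` (in coordinates) on hermitian matrices (in coordinates). -/
def actF (a b A1 A2 B1 B2 C1 C2 D1 D2 : F) (v : I4 → F) : I4 → F :=
  Sum.elim
    (Sum.elim
      (fun _ => nm a b A1 A2 * v (.inl (.inl 0)) - nm a b B1 B2 * v (.inl (.inr 0))
        + T1 a (P1 a b A1 A2 B1 B2) (P2 A1 A2 B1 B2) * v (.inr 0)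
        + T2 a b (P1 a b A1 A2 B1 B2) (P2 A1 A2 B1 B2) * v (.inr 1))
      (fun _ => -nm a b C1 C2 * v (.inl (.inl 0)) + nm a b D1 D2 * v (.inl (.inr 0))
        - T1 a (P1 a b C1 C2 D1 D2) (P2 C1 C2 D1 D2) * v (.inr 0)
        - T2 a b (P1 a b C1 C2 D1 D2) (P2 C1 C2 D1 D2) * v (.inr 1)))
    ![P1 a b A1 A2 C1 C2 * v (.inl (.inl 0)) - P1 a b B1 B2 D1 D2 * v (.inl (.inr 0))
        + (P1 a b A1 A2 D1 D2 + P1 a b B1 B2 C1 C2) * v (.inr 0)
        + (-b * P2 A1 A2 D1 D2 + a * P1 a b B1 B2 C1 C2 + b * P2 B1 B2 C1 C2) * v (.inr 1),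
      P2 A1 A2 C1 C2 * v (.inl (.inl 0)) - P2 B1 B2 D1 D2 * v (.inl (.inr 0))
        + (P2 A1 A2 D1 D2 + P2 B1 B2 C1 C2) * v (.inr 0)
        + (P1 a b A1 A2 D1 D2 + a * P2 A1 A2 D1 D2 - P1 a b B1 B2 C1 C2) * v (.inr 1)]

theorem actF_x (a b A1 A2 B1 B2 C1 C2 D1 D2 : F) (v : I4 → F) :
    actF a b A1 A2 B1 B2 C1 C2 D1 D2 v (.inl (.inl 0)) =
      nm a b A1 A2 * v (.inl (.inl 0)) - nm a b B1 B2 * v (.inl (.inr 0))
        + T1 a (P1 a b A1 A2 B1 B2) (P2 A1 A2 B1 B2) * v (.inr 0)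
        + T2 a b (P1 a b A1 A2 B1 B2) (P2 A1 A2 B1 B2) * v (.inr 1) := rfl

theorem actF_y (a b A1 A2 B1 B2 C1 C2 D1 D2 : F) (v : I4 → F) :
    actF a b A1 A2 B1 B2 C1 C2 D1 D2 v (.inl (.inr 0)) =
      -nm a b C1 C2 * v (.inl (.inl 0)) + nm a b D1 D2 * v (.inl (.inr 0))
        - T1 a (P1 a b C1 C2 D1 D2) (P2 C1 C2 D1 D2) * v (.inr 0)
        - T2 a b (P1 a b C1 C2 D1 D2) (P2 C1 C2 D1 D2) * v (.inr 1) := rfl

theorem actF_z1 (a b A1 A2 B1 B2 C1 C2 D1 D2 : F) (v : I4 → F) :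
    actF a b A1 A2 B1 B2 C1 C2 D1 D2 v (.inr 0) =
      P1 a b A1 A2 C1 C2 * v (.inl (.inl 0)) - P1 a b B1 B2 D1 D2 * v (.inl (.inr 0))
        + (P1 a b A1 A2 D1 D2 + P1 a b B1 B2 C1 C2) * v (.inr 0)
        + (-b * P2 A1 A2 D1 D2 + a * P1 a b B1 B2 C1 C2 + b * P2 B1 B2 C1 C2) * v (.inr 1) := rfl

theorem actF_z2 (a b A1 A2 B1 B2 C1 C2 D1 D2 : F) (v : I4 → F) :
    actF a b A1 A2 B1 B2 C1 C2 D1 D2 v (.inr 1) =
      P2 A1 A2 C1 C2 * v (.inl (.inl 0)) - P2 B1 B2 D1 D2 * v (.inl (.inr 0))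
        + (P2 A1 A2 D1 D2 + P2 B1 B2 C1 C2) * v (.inr 0)
        + (P1 a b A1 A2 D1 D2 + a * P2 A1 A2 D1 D2 - P1 a b B1 B2 C1 C2) * v (.inr 1) := rfl

/-- The action as a linear map. -/
def actL (a b A1 A2 B1 B2 C1 C2 D1 D2 : F) : (I4 → F) →ₗ[F] (I4 → F) where
  toFun := actF a b A1 A2 B1 B2 C1 C2 D1 D2
  map_add' v w := by
    apply ext4 <;>
      simp only [actF_x, actF_y, actF_z1, actF_z2, Pi.add_apply] <;> ring
  map_smul' r v := by
    apply ext4 <;>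
      simp only [actF_x, actF_y, actF_z1, actF_z2, Pi.smul_apply, smul_eq_mul,
        RingHom.id_apply] <;> ring

theorem actL_apply (a b A1 A2 B1 B2 C1 C2 D1 D2 : F) (v : I4 → F) :
    actL a b A1 A2 B1 B2 C1 C2 D1 D2 v = actF a b A1 A2 B1 B2 C1 C2 D1 D2 v := rfl

theorem actF_comp (a b A1 A2 B1 B2 C1 C2 D1 D2 A1' A2' B1' B2' C1' C2' D1' D2' : F)
    (v : I4 → F) :
    actF a b A1 A2 B1 B2 C1 C2 D1 D2 (actF a b A1' A2' B1' B2' C1' C2' D1' D2' v) =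
      actF a b
        (A1 * A1' - b * (A2 * A2') + (B1 * C1' - b * (B2 * C2')))
        (A1 * A2' + A2 * A1' + a * (A2 * A2') + (B1 * C2' + B2 * C1' + a * (B2 * C2')))
        (A1 * B1' - b * (A2 * B2') + (B1 * D1' - b * (B2 * D2')))
        (A1 * B2' + A2 * B1' + a * (A2 * B2') + (B1 * D2' + B2 * D1' + a * (B2 * D2')))
        (C1 * A1' - b * (C2 * A2') + (D1 * C1' - b * (D2 * C2')))
        (C1 * A2' + C2 * A1' + a * (C2 * A2') + (D1 * C2' + D2 * C1' + a * (D2 * C2')))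
        (C1 * B1' - b * (C2 * B2') + (D1 * D1' - b * (D2 * D2')))
        (C1 * B2' + C2 * B1' + a * (C2 * B2') + (D1 * D2' + D2 * D1' + a * (D2 * D2')))
        v := by
  apply ext4 <;>
    simp only [actF_x, actF_y, actF_z1, actF_z2, nm, P1, P2, T1, T2] <;> ring

theorem actF_one (a b : F) (v : I4 → F) : actF a b 1 0 0 0 0 0 1 0 v = v := by
  apply ext4 <;>
    simp only [actF_x, actF_y, actF_z1, actF_z2, nm, P1, P2, T1, T2] <;> ring

theorem quad_actF (a b A1 A2 B1 B2 C1 C2 D1 D2 : F) (v : I4 → F) :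
    Cfsg.quadFormMinus 1 F a b (actF a b A1 A2 B1 B2 C1 C2 D1 D2 v) =
      nm a b (A1 * D1 - b * (A2 * D2) - (B1 * C1 - b * (B2 * C2)))
        (A1 * D2 + A2 * D1 + a * (A2 * D2) - (B1 * C2 + B2 * C1 + a * (B2 * C2))) *
        Cfsg.quadFormMinus 1 F a b v := by
  simp only [Cfsg.quadFormMinus, Fin.sum_univ_one, actF_x, actF_y, actF_z1, actF_z2, nm, P1, P2,
    T1, T2]
  ring

theorem actF_ey (a b A1 A2 B1 B2 C1 C2 D1 D2 : F) :
    actF a b A1 A2 B1 B2 C1 C2 D1 D2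
      (Sum.elim (Sum.elim (fun _ => 0) (fun _ => 1)) ![0, 0]) (.inl (.inl 0)) =
      -nm a b B1 B2 := by
  rw [actF_x]
  simp

theorem actF_ex (a b A1 A2 B1 B2 C1 C2 D1 D2 : F) :
    actF a b A1 A2 B1 B2 C1 C2 D1 D2
      (Sum.elim (Sum.elim (fun _ => 1) (fun _ => 0)) ![0, 0]) (.inl (.inr 0)) =
      -nm a b C1 C2 := by
  rw [actF_y]
  simp

theorem sl_mul_entries (g h : Matrix.SpecialLinearGroup (Fin 2) K) :
    (g * h).1 0 0 = g.1 0 0 * h.1 0 0 + g.1 0 1 * h.1 1 0 ∧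
    (g * h).1 0 1 = g.1 0 0 * h.1 0 1 + g.1 0 1 * h.1 1 1 ∧
    (g * h).1 1 0 = g.1 1 0 * h.1 0 0 + g.1 1 1 * h.1 1 0 ∧
    (g * h).1 1 1 = g.1 1 0 * h.1 0 1 + g.1 1 1 * h.1 1 1 := by
  refine ⟨?_, ?_, ?_, ?_⟩ <;>
    simp [Matrix.SpecialLinearGroup.coe_mul, Matrix.mul_apply, Fin.sum_univ_two]

/-- The action as a monoid hom into matrices. -/
noncomputable def tHom (c : Coord F K a b) :
    Matrix.SpecialLinearGroup (Fin 2) K →* Matrix I4 I4 F where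
  toFun g := LinearMap.toMatrix' (actL a b (c.re (g.1 0 0)) (c.im (g.1 0 0)) (c.re (g.1 0 1))
    (c.im (g.1 0 1)) (c.re (g.1 1 0)) (c.im (g.1 1 0)) (c.re (g.1 1 1)) (c.im (g.1 1 1)))
  map_one' := by
    have h00 : (1 : Matrix.SpecialLinearGroup (Fin 2) K).1 0 0 = 1 := by simp
    have h01 : (1 : Matrix.SpecialLinearGroup (Fin 2) K).1 0 1 = 0 := by simp
    have h10 : (1 : Matrix.SpecialLinearGroup (Fin 2) K).1 1 0 = 0 := by simp
    have h11 : (1 : Matrix.SpecialLinearGroup (Fin 2) K).1 1 1 = 1 := by simp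
    rw [← LinearMap.toMatrix'_id]
    congr 1
    apply LinearMap.ext
    intro v
    rw [actL_apply, h00, h01, h10, h11, c.one.1, c.one.2, c.zero.1, c.zero.2, actF_one]
    rfl
  map_mul' g h := by
    obtain ⟨e1, e2, e3, e4⟩ := sl_mul_entries g h
    rw [← LinearMap.toMatrix'_comp]
    congr 1
    apply LinearMap.ext
    intro v
    rw [LinearMap.comp_apply, actL_apply, actL_apply, actL_apply, actF_comp, e1, e2, e3, e4,
      c.re_dot, c.im_dot, c.re_dot, c.im_dot, c.re_dot, c.im_dot, c.re_dot, c.im_dot]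

theorem tHom_apply (c : Coord F K a b) (g : Matrix.SpecialLinearGroup (Fin 2) K) :
    tHom c g = LinearMap.toMatrix' (actL a b (c.re (g.1 0 0)) (c.im (g.1 0 0)) (c.re (g.1 0 1))
      (c.im (g.1 0 1)) (c.re (g.1 1 0)) (c.im (g.1 1 0)) (c.re (g.1 1 1)) (c.im (g.1 1 1))) :=
  rfl

theorem tHom_mulVec (c : Coord F K a b) (g : Matrix.SpecialLinearGroup (Fin 2) K) (v : I4 → F) :
    tHom c g *ᵥ v = actF a b (c.re (g.1 0 0)) (c.im (g.1 0 0)) (c.re (g.1 0 1))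
      (c.im (g.1 0 1)) (c.re (g.1 1 0)) (c.im (g.1 1 0)) (c.re (g.1 1 1)) (c.im (g.1 1 1)) v := by
  rw [tHom_apply, LinearMap.toMatrix'_mulVec, actL_apply]

/-- The action `SL₂(K) → O⁻₄(F)`. -/
noncomputable def psi (c : Coord F K a b) : Matrix.SpecialLinearGroup (Fin 2) K →*
    ↥(Cfsg.isometryGroup F (Cfsg.quadFormMinus 1 F a b)) :=
  (tHom c).toHomUnits.codRestrict _ (fun g => by
    intro u v
    show Cfsg.quadFormMinus 1 F a b (tHom c g *ᵥ u) = _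
    have hd := det_eq g
    have h1 : c.re (g.1 0 0 * g.1 1 1 - g.1 0 1 * g.1 1 0) = 1 := by
      rw [hd]
      exact c.one.1
    have h2 : c.im (g.1 0 0 * g.1 1 1 - g.1 0 1 * g.1 1 0) = 0 := by
      rw [hd]
      exact c.one.2
    rw [c.re_det] at h1
    rw [c.im_det] at h2
    rw [tHom_mulVec, quad_actF, h1, h2]
    simp [nm])

theorem psi_coe (c : Coord F K a b) (g : Matrix.SpecialLinearGroup (Fin 2) K) :
    ((psi c g).1 : Matrix I4 I4 F) = tHom c g := rfl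

theorem psi_eq_one (c : Coord F K a b)
    (hab : ∀ z₁ z₂ : F, z₁ ^ 2 + a * z₁ * z₂ + b * z₂ ^ 2 = 0 → z₁ = 0 ∧ z₂ = 0)
    (g : Matrix.SpecialLinearGroup (Fin 2) K) (hg : psi c g = 1) :
    g.1 0 1 = 0 ∧ g.1 1 0 = 0 := by
  have H : tHom c g = 1 := by
    rw [← psi_coe, hg]
    rfl
  have hact : ∀ v : I4 → F, actF a b (c.re (g.1 0 0)) (c.im (g.1 0 0)) (c.re (g.1 0 1))
      (c.im (g.1 0 1)) (c.re (g.1 1 0)) (c.im (g.1 1 0)) (c.re (g.1 1 1)) (c.im (g.1 1 1)) v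
      = v := by
    intro v
    rw [← tHom_mulVec, H, Matrix.one_mulVec]
  constructor
  · have h1 := congrFun (hact (Sum.elim (Sum.elim (fun _ => 0) (fun _ => 1)) ![0, 0]))
      (.inl (.inl 0))
    rw [actF_ey] at h1
    have h2 : nm a b (c.re (g.1 0 1)) (c.im (g.1 0 1)) = 0 := by
      have h3 : -nm a b (c.re (g.1 0 1)) (c.im (g.1 0 1)) = 0 := h1
      exact neg_eq_zero.1 h3
    obtain ⟨h4, h5⟩ := hab _ _ h2
    exact c.eq_zero_of _ h4 h5
  · have h1 := congrFun (hact (Sum.elim (Sum.elim (fun _ => 1) (fun _ => 0)) ![0, 0]))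
      (.inl (.inr 0))
    rw [actF_ex] at h1
    have h2 : nm a b (c.re (g.1 1 0)) (c.im (g.1 1 0)) = 0 := by
      have h3 : -nm a b (c.re (g.1 1 0)) (c.im (g.1 1 0)) = 0 := h1
      exact neg_eq_zero.1 h3
    obtain ⟨h4, h5⟩ := hab _ _ h2
    exact c.eq_zero_of _ h4 h5

theorem Um_zero : Um (0 : K) = 1 := by
  apply Subtype.ext
  rw [Um_coe]
  ext i j
  fin_cases i <;> fin_cases j <;> simp

theorem ker_center (c : Coord F K a b)
    (hab : ∀ z₁ z₂ : F, z₁ ^ 2 + a * z₁ * z₂ + b * z₂ ^ 2 = 0 → z₁ = 0 ∧ z₂ = 0)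
    (g : Matrix.SpecialLinearGroup (Fin 2) K) (hg : psi c g = 1) :
    g ∈ Subgroup.center (Matrix.SpecialLinearGroup (Fin 2) K) := by
  obtain ⟨hb, hc⟩ := psi_eq_one c hab g hg
  have hg' : psi c (Um 1 * g * Um (-1)) = 1 := by
    rw [map_mul, map_mul, hg, mul_one, ← map_mul, Um_mul, add_neg_cancel, Um_zero, map_one]
  have hb' := (psi_eq_one c hab _ hg').1
  have e : (Um 1 * g * Um (-1)).1 0 1 = -(g.1 0 0 + g.1 1 0) + (g.1 0 1 + g.1 1 1) := by
    obtain ⟨_, e2, _, _⟩ := sl_mul_entries (Um 1 * g) (Um (-1 : K))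
    obtain ⟨f1, f2, _, _⟩ := sl_mul_entries (Um (1 : K)) g
    have u00 : ∀ t : K, (Um t).1 0 0 = 1 := fun t => rfl
    have u01 : ∀ t : K, (Um t).1 0 1 = t := fun t => rfl
    have u11 : ∀ t : K, (Um t).1 1 1 = 1 := fun t => rfl
    rw [e2, f1, f2]
    simp only [u00, u01, u11]
    ring
  rw [e, hb, hc] at hb'
  have hda : g.1 1 1 = g.1 0 0 := by linear_combination hb'
  have hgm : g.1 = !![g.1 0 0, 0; 0, g.1 0 0] := by
    ext i j
    fin_cases i <;> fin_cases j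
    · rfl
    · exact hb
    · exact hc
    · exact hda
  rw [Subgroup.mem_center_iff]
  intro h
  apply Subtype.ext
  rw [Matrix.SpecialLinearGroup.coe_mul, Matrix.SpecialLinearGroup.coe_mul, hgm]
  ext i j
  fin_cases i <;> fin_cases j <;> simp [Matrix.mul_apply, Fin.sum_univ_two, mul_comm]

/-- The diagonal element. -/
def hd (l : K) (hl : l ≠ 0) : Matrix.SpecialLinearGroup (Fin 2) K :=
  ⟨!![l, 0; 0, l⁻¹], by
    rw [Matrix.det_fin_two_of]
    field_simp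
    ring⟩

theorem hd_coe (l : K) (hl : l ≠ 0) : (hd l hl).1 = !![l, 0; 0, l⁻¹] := rfl

theorem hd_Um (l : K) (hl : l ≠ 0) (t : K) : hd l hl * Um t = Um (l * l * t) * hd l hl := by
  apply Subtype.ext
  rw [Matrix.SpecialLinearGroup.coe_mul, Matrix.SpecialLinearGroup.coe_mul, Um_coe, Um_coe, hd_coe]
  ext i j
  fin_cases i <;> fin_cases j <;> simp [Matrix.mul_apply, Fin.sum_univ_two] <;> field_simp

theorem hd_Lm (l : K) (hl : l ≠ 0) (t : K) :
    hd l hl * Lm t = Lm (l⁻¹ * l⁻¹ * t) * hd l hl := by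
  apply Subtype.ext
  rw [Matrix.SpecialLinearGroup.coe_mul, Matrix.SpecialLinearGroup.coe_mul, Lm_coe, Lm_coe, hd_coe]
  ext i j
  fin_cases i <;> fin_cases j <;> simp [Matrix.mul_apply, Fin.sum_univ_two] <;> field_simp

theorem sl2_perfect (l : K) (hl : l ≠ 0) (hl1 : l * l ≠ 1)
    (g : Matrix.SpecialLinearGroup (Fin 2) K) :
    g ∈ commutator (Matrix.SpecialLinearGroup (Fin 2) K) := by
  have hli : l⁻¹ * l⁻¹ ≠ 1 := by
    intro h
    apply hl1
    have h2 : (l * l) * (l⁻¹ * l⁻¹) = 1 := by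
      field_simp
    rw [h, mul_one] at h2
    exact h2
  exact hom_mem (MonoidHom.id (Matrix.SpecialLinearGroup (Fin 2) K))
    (commutator (Matrix.SpecialLinearGroup (Fin 2) K))
    (fun t => comm_gen (hd l hl) (fun t => Um t) (l * l) hl1
      (fun s t => (Um_mul s t).symm) (hd_Um l hl) t)
    (fun t => comm_gen (hd l hl) (fun t => Lm t) (l⁻¹ * l⁻¹) hli
      (fun s t => (Lm_mul s t).symm) (hd_Lm l hl) t) g

theorem psi_mem (c : Coord F K a b) (l : K) (hl : l ≠ 0) (hl1 : l * l ≠ 1)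
    (g : Matrix.SpecialLinearGroup (Fin 2) K) :
    psi c g ∈ commutator ↥(Cfsg.isometryGroup F (Cfsg.quadFormMinus 1 F a b)) := by
  have h1 : psi c g ∈ (commutator (Matrix.SpecialLinearGroup (Fin 2) K)).map (psi c) :=
    Subgroup.mem_map_of_mem _ (sl2_perfect l hl hl1 g)
  rw [commutator_def, Subgroup.map_commutator] at h1
  rw [commutator_def]
  exact Subgroup.commutator_mono le_top le_top h1

theorem exists_l [Fintype K] (h4 : 4 ≤ Fintype.card K) : ∃ l : K, l ≠ 0 ∧ l * l ≠ 1 := by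
  classical
  by_contra hcon
  have hcon' : ∀ l : K, l ≠ 0 → l * l = 1 := fun l hl => by
    by_contra h
    exact hcon ⟨l, hl, h⟩
  have hsub : (Finset.univ : Finset K) ⊆ {0, 1, -1} := by
    intro x _
    by_cases hx : x = 0
    · simp [hx]
    · have h1 := hcon' x hx
      have h2 : (x - 1) * (x + 1) = 0 := by linear_combination h1
      rcases mul_eq_zero.1 h2 with h | h
      · have hx1 : x = 1 := sub_eq_zero.1 h
        simp [hx1]
      · have hx1 : x = -1 := eq_neg_of_add_eq_zero_left h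
        simp [hx1]
  have hc := Finset.card_le_card hsub
  have h3 : ({0, 1, -1} : Finset K).card ≤ 3 := Finset.card_le_three
  rw [Finset.card_univ] at hc
  omega

end Cfsg.Agent.Helper4.O4m
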