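import Mathlib
import Cfsg.Agent.Helper4.O4mB
import Cfsg.Agent.Helper4.OCenter
import Cfsg.Agent.S0288
import Cfsg.Agent.Helper12.SL2Card

set_option autoImplicit false

namespace Cfsg.Agent.Helper4.O4m

open Matrix Cfsg.Agent.Helper27.O3Adj Cfsg.Agent.Helper27.O4Adj

variable {F K : Type*} [Field F] [Field K] {a b : F}

theorem central_of_perfect {G : Type*} [Group G] (hperf : ∀ g : G, g ∈ commutator G) (x : G)
    (hx : ∀ y, x * y * x⁻¹ * y⁻¹ ∈ Subgroup.center G) : x ∈ Subgroup.center G := by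
  obtain ⟨cf, hcf⟩ : ∃ cf : G →* Subgroup.center G, ∀ y, (cf y).1 = x * y * x⁻¹ * y⁻¹ := by
    refine ⟨MonoidHom.mk' (fun y => ⟨x * y * x⁻¹ * y⁻¹, hx y⟩) ?_, fun y => rfl⟩
    intro y₁ y₂
    apply Subtype.ext
    have h := Subgroup.mem_center_iff.1 (hx y₂) y₁⁻¹
    show x * (y₁ * y₂) * x⁻¹ * (y₁ * y₂)⁻¹ = (x * y₁ * x⁻¹ * y₁⁻¹) * (x * y₂ * x⁻¹ * y₂⁻¹)
    calc x * (y₁ * y₂) * x⁻¹ * (y₁ * y₂)⁻¹
        = x * y₁ * x⁻¹ * ((x * y₂ * x⁻¹ * y₂⁻¹) * y₁⁻¹) := by group
      _ = x * y₁ * x⁻¹ * (y₁⁻¹ * (x * y₂ * x⁻¹ * y₂⁻¹)) := by rw [h]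
      _ = (x * y₁ * x⁻¹ * y₁⁻¹) * (x * y₂ * x⁻¹ * y₂⁻¹) := by group
  rw [Subgroup.mem_center_iff]
  intro g
  have hk : commutator G ≤ cf.ker := by
    rw [commutator_def, Subgroup.commutator_le]
    intro g₁ _ g₂ _
    rw [MonoidHom.mem_ker, map_commutatorElement, commutatorElement_eq_one_iff_mul_comm]
    apply Subtype.ext
    exact (Subgroup.mem_center_iff.1 (cf g₁).2 (cf g₂).1).symm
  have h1 := hk (hperf g)
  rw [MonoidHom.mem_ker] at h1
  have h2 : x * g * x⁻¹ * g⁻¹ = 1 := by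
    rw [← hcf, h1]
    rfl
  have h3 : x * g = (x * g * x⁻¹ * g⁻¹) * (g * x) := by group
  rw [h2, one_mul] at h3
  exact h3.symm

theorem card_aux (q : ℕ) (hq : 2 ≤ q) :
    2 * q ^ (2 * (2 - 1)) * (q ^ 2 + 1) * ∏ i ∈ Finset.range (2 - 1), (q ^ (2 * (i + 1)) - 1) =
      2 * (q ^ 2 * ((q ^ 2) ^ 2 - 1)) := by
  rw [show (2 - 1 : ℕ) = 1 from rfl, Finset.prod_range_one]
  simp only [zero_add, mul_one]
  obtain ⟨t, ht⟩ : ∃ t, q ^ 2 = t + 1 :=
    ⟨q ^ 2 - 1, by
      have : 1 ≤ q ^ 2 := Nat.one_le_pow _ _ (by omega)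
      omega⟩
  rw [ht]
  have e1 : t + 1 - 1 = t := Nat.add_sub_cancel t 1
  have e2 : (t + 1) ^ 2 - 1 = t * (t + 2) := by
    have h : (t + 1) ^ 2 = t * (t + 2) + 1 := by ring
    rw [h]
    exact Nat.add_sub_cancel _ _
  rw [e1, e2]
  ring

theorem range_eq [Fintype F] [Fintype K] (c : Coord F K a b)
    (hab : ∀ z₁ z₂ : F, z₁ ^ 2 + a * z₁ * z₂ + b * z₂ ^ 2 = 0 → z₁ = 0 ∧ z₂ = 0)
    (hK : Fintype.card K = Fintype.card F ^ 2) :
    (psi c).range = commutator ↥(Cfsg.isometryGroup F (Cfsg.quadFormMinus 1 F a b)) := by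
  have hq2 : 2 ≤ Fintype.card F := Fintype.one_lt_card
  have h4 : 4 ≤ Fintype.card K := by
    rw [hK]
    nlinarith
  obtain ⟨l, hl, hl1⟩ := exists_l h4
  have hle : (psi c).range ≤
      commutator ↥(Cfsg.isometryGroup F (Cfsg.quadFormMinus 1 F a b)) := by
    rintro _ ⟨x, rfl⟩
    exact psi_mem c l hl hl1 x
  have hO : Nat.card ↥(Cfsg.isometryGroup F (Cfsg.quadFormMinus 1 F a b)) =
      2 * (Fintype.card K * (Fintype.card K ^ 2 - 1)) := by
    have h : Nat.card ↥(Cfsg.isometryGroup F (Cfsg.quadFormMinus 1 F a b)) = _ :=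
      Cfsg.Agent.S0288.result (F := F) rfl 2 (by norm_num) a b hab
    rw [h, hK]
    exact card_aux _ hq2
  have hS := Cfsg.Agent.Helper12.sl2_card (F := K)
  have hkerle : (psi c).ker ≤ Subgroup.center (Matrix.SpecialLinearGroup (Fin 2) K) :=
    fun g hg => ker_center c hab g (MonoidHom.mem_ker.1 hg)
  have hKc : Nat.card (psi c).ker ≤
      Nat.card (Subgroup.center (Matrix.SpecialLinearGroup (Fin 2) K)) :=
    Subgroup.card_le_of_le hkerle
  have hRK : Fintype.card K * (Fintype.card K ^ 2 - 1) =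
      Nat.card (psi c).range * Nat.card (psi c).ker := by
    rw [← hS, Subgroup.card_eq_card_quotient_mul_card_subgroup (psi c).ker,
      Nat.card_congr (QuotientGroup.quotientKerEquivRange (psi c)).toEquiv]
  have h2K : c.i 2 = 2 := map_ofNat c.i 2
  by_cases hch : (2 : F) = 0
  · have hch' : (2 : K) = 0 := by
      rw [← h2K, hch, map_zero]
    have hZ : Nat.card (Subgroup.center (Matrix.SpecialLinearGroup (Fin 2) K)) = 1 := by
      rw [Cfsg.Agent.Helper12.sl2_center_eq_bot_char2 hch']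
      exact Subgroup.card_bot
    have hk1 : Nat.card (psi c).ker = 1 := by
      have hpos : 0 < Nat.card (psi c).ker := Nat.card_pos
      omega
    rw [hk1, mul_one] at hRK
    have hidx : (psi c).range.index = 2 := by
      have h := Subgroup.card_mul_index (psi c).range
      rw [hO, hRK] at h
      have hpos : 0 < Nat.card (psi c).range := Nat.card_pos
      have h' : Nat.card (psi c).range * (psi c).range.index = Nat.card (psi c).range * 2 := by
        rw [h]
        ring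
      exact Nat.eq_of_mul_eq_mul_left hpos h'
    have hcomm : commutator ↥(Cfsg.isometryGroup F (Cfsg.quadFormMinus 1 F a b)) ≤
        (psi c).range := by
      rw [commutator_def, Subgroup.commutator_le]
      intro x _ y _
      rw [commutatorElement_def, Subgroup.mul_mem_iff_of_index_two hidx,
        Subgroup.mul_mem_iff_of_index_two hidx, Subgroup.mul_mem_iff_of_index_two hidx,
        inv_mem_iff, inv_mem_iff]
      tauto
    exact le_antisymm hle hcomm
  · apply Subgroup.eq_of_le_of_card_ge hle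
    have hmul := Subgroup.card_mul_index
      (commutator ↥(Cfsg.isometryGroup F (Cfsg.quadFormMinus 1 F a b)))
    have hcard : 2 ≤ Fintype.card ((Fin 1 ⊕ Fin 1) ⊕ Fin 2) := by
      simp [Fintype.card_sum]
    have hidx := Cfsg.Agent.Helper4.OCenter.index_four (Cfsg.quadFormMinus 1 F a b)
      (Cfsg.Agent.Helper4.Spinor.minus_nd F 1 a b hch hab) hch hcard
    have hch' : (2 : K) ≠ 0 := by
      intro h0
      apply hch
      apply c.i.injective
      rw [h2K, h0, map_zero]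
    have hZ := Cfsg.Agent.Helper12.sl2_center_card_odd (F := K) hch'
    rw [hZ] at hKc
    rw [hidx, hO, hRK] at hmul
    have hT := Nat.mul_le_mul_left (Nat.card (psi c).range) hKc
    generalize Nat.card (psi c).range * Nat.card (psi c).ker = T at hmul hT
    omega

theorem main [Fintype F] [Fintype K] (hK : Fintype.card K = Fintype.card F ^ 2) (a b : F)
    (hab : ∀ z₁ z₂ : F, z₁ ^ 2 + a * z₁ * z₂ + b * z₂ ^ 2 = 0 → z₁ = 0 ∧ z₂ = 0) :
    Nonempty (Cfsg.POmega F (Cfsg.quadFormMinus 1 F a b) ≃*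
      Matrix.ProjectiveSpecialLinearGroup (Fin 2) K) := by
  obtain ⟨c⟩ := exists_coord (K := K) a b hab hK
  have hrange := range_eq c hab hK
  have hq2 : 2 ≤ Fintype.card F := Fintype.one_lt_card
  have h4 : 4 ≤ Fintype.card K := by
    rw [hK]
    nlinarith
  obtain ⟨l, hl, hl1⟩ := exists_l h4
  obtain ⟨ψ', hψ'⟩ : ∃ ψ' : Matrix.SpecialLinearGroup (Fin 2) K →*
      ↥(commutator ↥(Cfsg.isometryGroup F (Cfsg.quadFormMinus 1 F a b))),
      ∀ x, (ψ' x).1 = psi c x :=
    ⟨(psi c).codRestrict _ (fun x => by rw [← hrange]; exact ⟨x, rfl⟩), fun x => rfl⟩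
  have hsurj : Function.Surjective ψ' := by
    intro z
    have hz : z.1 ∈ (psi c).range := by rw [hrange]; exact z.2
    obtain ⟨x, hx⟩ := hz
    exact ⟨x, Subtype.ext ((hψ' x).trans hx)⟩
  obtain ⟨Φ, hΦ⟩ : ∃ Φ : Matrix.SpecialLinearGroup (Fin 2) K →*
      Cfsg.POmega F (Cfsg.quadFormMinus 1 F a b), ∀ x, Φ x = QuotientGroup.mk (ψ' x) :=
    ⟨(QuotientGroup.mk' _).comp ψ', fun x => rfl⟩
  have hΦs : Function.Surjective Φ := by
    intro z
    obtain ⟨w, rfl⟩ := QuotientGroup.mk_surjective z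
    obtain ⟨x, rfl⟩ := hsurj w
    exact ⟨x, hΦ x⟩
  have hker : Φ.ker = Subgroup.center (Matrix.SpecialLinearGroup (Fin 2) K) := by
    ext x
    rw [MonoidHom.mem_ker, hΦ, QuotientGroup.eq_one_iff]
    constructor
    · intro hx
      apply central_of_perfect (sl2_perfect l hl hl1)
      intro y
      apply ker_center c hab
      have h5 : psi c y * psi c x = psi c x * psi c y := by
        have h6 := congrArg Subtype.val (Subgroup.mem_center_iff.1 hx (ψ' y))
        rw [← map_mul, ← map_mul, hψ', hψ', map_mul, map_mul] at h6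
        exact h6
      rw [map_mul, map_mul, map_mul, map_inv, map_inv, ← h5]
      group
    · intro hx
      rw [Subgroup.mem_center_iff]
      intro z
      obtain ⟨y, rfl⟩ := hsurj z
      rw [← map_mul, ← map_mul, Subgroup.mem_center_iff.1 hx y]
  exact ⟨(QuotientGroup.quotientKerEquivOfSurjective Φ hΦs).symm.trans
    (QuotientGroup.quotientMulEquivOfEq hker)⟩

end Cfsg.Agent.Helper4.O4m
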