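import Mathlib
import Cfsg.Agent.Helper4.OSiegel1

set_option autoImplicit false
open Cfsg

namespace Cfsg.Agent.Helper4.OSiegel

open Matrix Cfsg.Agent.Helper4.OrthPlane Cfsg.Agent.Helper4.CartanD Cfsg.Agent.Helper4.Dickson
  Cfsg.Agent.Helper4.Spinor Cfsg.Agent.Helper4.OCenter

variable {ι : Type} [Fintype ι] [DecidableEq ι] {F : Type*} [Field F]

theorem comm_elt_mem {G : Type*} [Group G] (a b : G) : a * b * a⁻¹ * b⁻¹ ∈ commutator G := by
  rw [commutator_def]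
  exact Subgroup.commutator_mem_commutator (Subgroup.mem_top _) (Subgroup.mem_top _)

section quad

variable (Q : (ι → F) → F)

/-- A vector orthogonal to `x` off the hyperplanes of two vectors outside the line of `x`. -/
theorem exists_both_perp (hQ : Cfsg.Geo.IsNondegenerateQuadraticForm Q) (x a b : ι → F)
    (hx : x ≠ 0) (ha : ∀ c : F, a ≠ c • x) (hb : ∀ c : F, b ≠ c • x) :
    ∃ y, Bf Q hQ x y = 0 ∧ Bf Q hQ a y ≠ 0 ∧ Bf Q hQ b y ≠ 0 := by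
  have h1 : ∃ y₁, Bf Q hQ x y₁ = 0 ∧ Bf Q hQ a y₁ ≠ 0 := by
    by_contra hcon
    push_neg at hcon
    obtain ⟨c, hc⟩ := perp_line Q hQ x a hx hcon
    exact ha c hc
  have h2 : ∃ y₂, Bf Q hQ x y₂ = 0 ∧ Bf Q hQ b y₂ ≠ 0 := by
    by_contra hcon
    push_neg at hcon
    obtain ⟨c, hc⟩ := perp_line Q hQ x b hx hcon
    exact hb c hc
  obtain ⟨y₁, hy₁, hay₁⟩ := h1
  obtain ⟨y₂, hy₂, hby₂⟩ := h2
  by_cases h3 : Bf Q hQ b y₁ = 0
  · by_cases h4 : Bf Q hQ a y₂ = 0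
    · refine ⟨y₁ + y₂, ?_, ?_, ?_⟩
      · rw [(Bf Q hQ x).map_add, hy₁, hy₂, add_zero]
      · rw [(Bf Q hQ a).map_add, h4, add_zero]; exact hay₁
      · rw [(Bf Q hQ b).map_add, h3, zero_add]; exact hby₂
    · exact ⟨y₂, hy₂, h4, hby₂⟩
  · exact ⟨y₁, hy₁, hay₁, h3⟩

/-- Correcting a vector by a singular vector to make it singular. -/
theorem make_sing (hQ : Cfsg.Geo.IsNondegenerateQuadraticForm Q) (y e₀ : ι → F) (he₀ : Q e₀ = 0)
    (h : Bf Q hQ e₀ y ≠ 0) : Q (y - ((Bf Q hQ e₀ y)⁻¹ * Q y) • e₀) = 0 := by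
  have hinv : (Bf Q hQ e₀ y)⁻¹ * Bf Q hQ e₀ y = 1 := inv_mul_cancel₀ h
  rw [Q_sub Q hQ, hQ.smul, he₀, (Bf Q hQ y).map_smul, smul_eq_mul, Bf_symm Q hQ y e₀]
  linear_combination (- Q y) * hinv

/-- A totally singular plane provides, for every vector `x`, a singular vector orthogonal to `x`
and off its line. -/
theorem exists_sing_perp (hQ : Cfsg.Geo.IsNondegenerateQuadraticForm Q) (e₁ e₂ : ι → F)
    (h1 : Q e₁ = 0) (h2 : Q e₂ = 0) (h12 : Bf Q hQ e₁ e₂ = 0)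
    (hind : ∀ α β : F, α • e₁ + β • e₂ = 0 → α = 0 ∧ β = 0) (x : ι → F) :
    ∃ e₀, Q e₀ = 0 ∧ Bf Q hQ x e₀ = 0 ∧ ∀ c : F, e₀ ≠ c • x := by
  have h11 : Bf Q hQ e₁ e₁ = 0 := by rw [Bf_self Q hQ, h1, mul_zero]
  have h22 : Bf Q hQ e₂ e₂ = 0 := by rw [Bf_self Q hQ, h2, mul_zero]
  have h21 : Bf Q hQ e₂ e₁ = 0 := by rw [Bf_symm Q hQ]; exact h12
  have he₁0 : e₁ ≠ 0 := by
    intro h0
    have h5 := (hind 1 0 (by rw [h0, smul_zero, zero_smul, add_zero])).1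
    exact one_ne_zero h5
  by_cases hab : Bf Q hQ x e₁ = 0 ∧ Bf Q hQ x e₂ = 0
  · obtain ⟨ha, hb⟩ := hab
    by_cases hc1 : ∃ c : F, e₁ = c • x
    · obtain ⟨c, hc⟩ := hc1
      refine ⟨e₂, h2, hb, fun c' hc' => ?_⟩
      have h3 := hind c' (-c) (by
        rw [hc, hc', smul_smul, smul_smul, ← add_smul]
        have h5 : c' * c + -c * c' = 0 := by ring
        rw [h5, zero_smul])
      apply he₁0
      rw [hc, neg_eq_zero.mp h3.2, zero_smul]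
    · push_neg at hc1
      exact ⟨e₁, h1, ha, hc1⟩
  · obtain ⟨a, ha⟩ : ∃ a, a = Bf Q hQ x e₁ := ⟨_, rfl⟩
    obtain ⟨b, hb⟩ : ∃ b, b = Bf Q hQ x e₂ := ⟨_, rfl⟩
    rw [← ha, ← hb] at hab
    refine ⟨b • e₁ + (-a) • e₂, ?_, ?_, ?_⟩
    · rw [Q_add_smul Q hQ, hQ.smul, h1, h2, (Bf Q hQ).map_smul, LinearMap.smul_apply, h12]
      simp
    · rw [(Bf Q hQ x).map_add, (Bf Q hQ x).map_smul, (Bf Q hQ x).map_smul, ← ha, ← hb,
        smul_eq_mul, smul_eq_mul]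
      ring
    · intro c hc
      have k1 : Bf Q hQ (b • e₁ + (-a) • e₂) e₁ = 0 := by
        simp only [map_add, map_smul, LinearMap.add_apply, LinearMap.smul_apply, smul_eq_mul,
          h11, h21, mul_zero, add_zero]
      have k2 : Bf Q hQ (b • e₁ + (-a) • e₂) e₂ = 0 := by
        simp only [map_add, map_smul, LinearMap.add_apply, LinearMap.smul_apply, smul_eq_mul,
          h12, h22, mul_zero, add_zero]
      rw [hc] at k1 k2
      simp only [map_smul, LinearMap.smul_apply, smul_eq_mul] at k1 k2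
      rw [← ha] at k1
      rw [← hb] at k2
      by_cases hc0 : c = 0
      · rw [hc0, zero_smul] at hc
        obtain ⟨hb0, ha0⟩ := hind b (-a) hc
        exact hab ⟨neg_eq_zero.mp ha0, hb0⟩
      · rcases mul_eq_zero.mp k1 with h | h
        · exact hc0 h
        · rcases mul_eq_zero.mp k2 with h' | h'
          · exact hc0 h'
          · exact hab ⟨h, h'⟩

/-- A singular vector orthogonal to `x` and not orthogonal to `w`. -/
theorem exists_sing_perp_off (hQ : Cfsg.Geo.IsNondegenerateQuadraticForm Q)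
    (hts : ∀ x : ι → F, ∃ e₀, Q e₀ = 0 ∧ Bf Q hQ x e₀ = 0 ∧ ∀ c : F, e₀ ≠ c • x)
    (x w : ι → F) (hx : x ≠ 0) (hw : ∀ c : F, w ≠ c • x) :
    ∃ s, Q s = 0 ∧ Bf Q hQ x s = 0 ∧ Bf Q hQ w s ≠ 0 := by
  obtain ⟨e₀, he₀, hxe₀, hne⟩ := hts x
  by_cases h : Bf Q hQ w e₀ = 0
  · obtain ⟨y, hxy, hey, hwy⟩ := exists_both_perp Q hQ x e₀ w hx hne hw
    refine ⟨y - ((Bf Q hQ e₀ y)⁻¹ * Q y) • e₀, make_sing Q hQ y e₀ he₀ hey, ?_, ?_⟩
    · simp only [map_sub, map_smul, smul_eq_mul, hxy, hxe₀, mul_zero, sub_zero]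
    · simp only [map_sub, map_smul, smul_eq_mul, h, mul_zero, sub_zero]
      exact hwy
  · exact ⟨e₀, he₀, hxe₀, h⟩

/-- A singular vector not orthogonal to two orthogonal singular vectors. -/
theorem exists_sing_off (hQ : Cfsg.Geo.IsNondegenerateQuadraticForm Q) (x z : ι → F)
    (hx : x ≠ 0) (hz : z ≠ 0) (hQx : Q x = 0) (hxz : Bf Q hQ x z = 0) :
    ∃ s, Q s = 0 ∧ Bf Q hQ s x ≠ 0 ∧ Bf Q hQ s z ≠ 0 := by
  obtain ⟨v₁, hv₁⟩ := (hQ.nondegenerate x hx).2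
  obtain ⟨v₂, hv₂⟩ := (hQ.nondegenerate z hz).2
  have hv₁' : Bf Q hQ x v₁ ≠ 0 := hv₁
  have hv₂' : Bf Q hQ z v₂ ≠ 0 := hv₂
  obtain ⟨v, h1, h2⟩ := exists_both (Bf Q hQ x) (Bf Q hQ z) v₁ v₂ hv₁' hv₂'
  have hxx : Bf Q hQ x x = 0 := by rw [Bf_self Q hQ, hQx, mul_zero]
  refine ⟨v - ((Bf Q hQ x v)⁻¹ * Q v) • x, make_sing Q hQ v x hQx h1, ?_, ?_⟩
  · simp only [map_sub, map_smul, LinearMap.sub_apply, LinearMap.smul_apply, smul_eq_mul, hxx,
      mul_zero, sub_zero]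
    rw [Bf_symm Q hQ]; exact h1
  · simp only [map_sub, map_smul, LinearMap.sub_apply, LinearMap.smul_apply, smul_eq_mul, hxz,
      mul_zero, sub_zero]
    rw [Bf_symm Q hQ]; exact h2

/-- The long root elements. -/
def LongSet (hQ : Cfsg.Geo.IsNondegenerateQuadraticForm Q) : Set ↥(Cfsg.isometryGroup F Q) :=
  {g | ∃ e e' : ι → F, Q e = 0 ∧ Q e' = 0 ∧ Bf Q hQ e e' = 0 ∧
    ((g : GL ι F) : Matrix ι ι F) = Ev Q hQ e e'}

theorem long_conj (hQ : Cfsg.Geo.IsNondegenerateQuadraticForm Q)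
    (x g : ↥(Cfsg.isometryGroup F Q)) (hg : g ∈ LongSet Q hQ) : x * g * x⁻¹ ∈ LongSet Q hQ := by
  obtain ⟨e, e', he, he', hee', hm⟩ := hg
  have hA : ∀ y, Q (((x : GL ι F) : Matrix ι ι F) *ᵥ y) = Q y := fun y => x.2 y y
  refine ⟨((x : GL ι F) : Matrix ι ι F) *ᵥ e, ((x : GL ι F) : Matrix ι ι F) *ᵥ e',
    by rw [hA]; exact he, by rw [hA]; exact he', by rw [B_iso Q hQ _ hA]; exact hee', ?_⟩
  have hXX : ((x : GL ι F) : Matrix ι ι F)
      * (((x⁻¹ : ↥(Cfsg.isometryGroup F Q)) : GL ι F) : Matrix ι ι F) = 1 :=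
    congrArg (fun g : ↥(Cfsg.isometryGroup F Q) => ((g : GL ι F) : Matrix ι ι F))
      (mul_inv_cancel x)
  show ((x : GL ι F) : Matrix ι ι F) * ((g : GL ι F) : Matrix ι ι F)
      * (((x⁻¹ : ↥(Cfsg.isometryGroup F Q)) : GL ι F) : Matrix ι ι F) = _
  rw [hm, Ev_conj Q hQ _ hA, mul_assoc, hXX, mul_one]

/-- The normal subgroup generated by the long root elements. -/
def Lam (hQ : Cfsg.Geo.IsNondegenerateQuadraticForm Q) : Subgroup ↥(Cfsg.isometryGroup F Q) :=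
  Subgroup.normalClosure (LongSet Q hQ)

theorem Lam_le (hQ : Cfsg.Geo.IsNondegenerateQuadraticForm Q)
    (K : Subgroup ↥(Cfsg.isometryGroup F Q)) (hK : ∀ x, x ∈ LongSet Q hQ → x ∈ K) :
    Lam Q hQ ≤ K := by
  unfold Lam Subgroup.normalClosure
  rw [Subgroup.closure_le]
  intro a ha
  obtain ⟨b, hb, hab⟩ := Group.mem_conjugatesOfSet_iff.mp ha
  obtain ⟨c, hc⟩ := isConj_iff.mp hab
  rw [← hc]
  exact hK _ (long_conj Q hQ c b hb)

/-- A long root element moving `w` to `w + δ`. -/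
theorem long_move (hQ : Cfsg.Geo.IsNondegenerateQuadraticForm Q)
    (hts : ∀ x : ι → F, ∃ e₀, Q e₀ = 0 ∧ Bf Q hQ x e₀ = 0 ∧ ∀ c : F, e₀ ≠ c • x)
    (w δ : ι → F) (hw : Q w ≠ 0) (hδ : Q δ = 0) (hδ0 : δ ≠ 0) (hwδ : Bf Q hQ w δ = 0) :
    ∃ σ : ↥(Cfsg.isometryGroup F Q), σ ∈ Lam Q hQ ∧
      ((σ : GL ι F) : Matrix ι ι F) *ᵥ w = w + δ := by
  have hwne : ∀ c : F, w ≠ c • δ := by
    intro c hc
    apply hw
    rw [hc, hQ.smul, hδ, mul_zero]
  obtain ⟨e', he', hδe', hwe'⟩ := exists_sing_perp_off Q hQ hts δ w hδ0 hwne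
  obtain ⟨κ, hκ⟩ : ∃ κ, κ = Bf Q hQ w e' := ⟨_, rfl⟩
  rw [← hκ] at hwe'
  have h1 : Bf Q hQ δ (κ⁻¹ • e') = 0 := by
    rw [(Bf Q hQ δ).map_smul, hδe', smul_zero]
  have h2 : Q (κ⁻¹ • e') = 0 := by rw [hQ.smul, he', mul_zero]
  refine ⟨eO Q hQ δ (κ⁻¹ • e') hδ h1, ?_, ?_⟩
  · apply Subgroup.subset_normalClosure
    exact ⟨δ, κ⁻¹ • e', hδ, h2, h1, rfl⟩
  · show Ev Q hQ δ (κ⁻¹ • e') *ᵥ w = w + δ
    have h3 : Bf Q hQ (κ⁻¹ • e') w = 1 := by
      rw [(Bf Q hQ).map_smul, LinearMap.smul_apply, Bf_symm Q hQ e' w, ← hκ, smul_eq_mul,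
        inv_mul_cancel₀ hwe']
    rw [Ev_mulVec, Bf_symm Q hQ δ w, hwδ, h3]
    simp

/-- The long root subgroup is transitive on vectors of a given non-zero norm. -/
theorem long_trans (hQ : Cfsg.Geo.IsNondegenerateQuadraticForm Q)
    (hts : ∀ x : ι → F, ∃ e₀, Q e₀ = 0 ∧ Bf Q hQ x e₀ = 0 ∧ ∀ c : F, e₀ ≠ c • x)
    (w w' : ι → F) (hw : Q w ≠ 0) (hww' : Q w' = Q w) :
    (∃ c : F, w' = c • w) ∨ ∃ σ : ↥(Cfsg.isometryGroup F Q), σ ∈ Lam Q hQ ∧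
      ((σ : GL ι F) : Matrix ι ι F) *ᵥ w = w' := by
  by_cases hc : ∃ c : F, w' = c • w
  · exact Or.inl hc
  · right
    push_neg at hc
    have hw0 : w ≠ 0 := by rintro rfl; exact hw (Q_zero Q hQ)
    by_cases hγ : Q (w' - w) = 0
    · have hδ0 : w' - w ≠ 0 := by
        intro h0
        exact hc 1 (by rw [one_smul]; exact sub_eq_zero.mp h0)
      have hwδ : Bf Q hQ w (w' - w) = 0 := by
        have e := Q_sub Q hQ w' w
        rw [hγ, hww'] at e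
        rw [(Bf Q hQ w).map_sub, Bf_self Q hQ, Bf_symm Q hQ w w']
        linear_combination e
      obtain ⟨σ, hσ, hσw⟩ := long_move Q hQ hts w (w' - w) hw hγ hδ0 hwδ
      exact ⟨σ, hσ, by rw [hσw]; abel⟩
    · obtain ⟨s, hs, hws, hw's⟩ := exists_sing_perp_off Q hQ hts w w' hw0 hc
      obtain ⟨γ, hγdef⟩ : ∃ γ, γ = Q (w' - w) := ⟨_, rfl⟩
      rw [← hγdef] at hγ
      obtain ⟨δ₁, hδ₁def⟩ : ∃ δ₁, δ₁ = (γ * (Bf Q hQ w' s)⁻¹) • s := ⟨_, rfl⟩
      have hQδ₁ : Q δ₁ = 0 := by rw [hδ₁def, hQ.smul, hs, mul_zero]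
      have hwδ₁ : Bf Q hQ w δ₁ = 0 := by
        rw [hδ₁def, (Bf Q hQ w).map_smul, hws, smul_zero]
      have hw'δ₁ : Bf Q hQ w' δ₁ = γ := by
        rw [hδ₁def, (Bf Q hQ w').map_smul, smul_eq_mul, mul_assoc, inv_mul_cancel₀ hw's,
          mul_one]
      have hδ₁0 : δ₁ ≠ 0 := by
        intro h0
        rw [h0, (Bf Q hQ w').map_zero] at hw'δ₁
        exact hγ hw'δ₁.symm
      obtain ⟨σ₁, hσ₁, hσ₁w⟩ := long_move Q hQ hts w δ₁ hw hQδ₁ hδ₁0 hwδ₁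
      obtain ⟨w'', hw''def⟩ : ∃ w'', w'' = w + δ₁ := ⟨_, rfl⟩
      have hQw'' : Q w'' = Q w := by
        rw [hw''def, Q_add Q hQ, hQδ₁, hwδ₁, add_zero, add_zero]
      by_cases hδ₂0 : w' - w'' = 0
      · refine ⟨σ₁, hσ₁, ?_⟩
        rw [hσ₁w, ← hw''def]
        exact (sub_eq_zero.mp hδ₂0).symm
      · have hQδ₂ : Q (w' - w'') = 0 := by
          have e1 : w' - w'' = (w' - w) - δ₁ := by rw [hw''def]; abel
          have e2 : Bf Q hQ (w' - w) δ₁ = γ := by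
            rw [(Bf Q hQ).map_sub, LinearMap.sub_apply, hw'δ₁, hwδ₁, sub_zero]
          rw [e1, Q_sub Q hQ, ← hγdef, hQδ₁, e2]
          ring
        have hw''δ₂ : Bf Q hQ w'' (w' - w'') = 0 := by
          have e := Q_add Q hQ w'' (w' - w'')
          rw [add_sub_cancel, hQδ₂, hww', hQw''] at e
          linear_combination (-1 : F) * e
        obtain ⟨σ₂, hσ₂, hσ₂w⟩ := long_move Q hQ hts w'' (w' - w'')
          (by rw [hQw'']; exact hw) hQδ₂ hδ₂0 hw''δ₂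
        refine ⟨σ₂ * σ₁, mul_mem hσ₂ hσ₁, ?_⟩
        show (((σ₂ : GL ι F) : Matrix ι ι F) * ((σ₁ : GL ι F) : Matrix ι ι F)) *ᵥ w = w'
        rw [← Matrix.mulVec_mulVec, hσ₁w, ← hw''def, hσ₂w]
        abel

/-- A subgroup of the isometry group containing all reflections is everything. -/
theorem gen_O [Fintype F] (hQ : Cfsg.Geo.IsNondegenerateQuadraticForm Q)
    (hn : 5 ≤ Fintype.card ι) (K : Subgroup ↥(Cfsg.isometryGroup F Q))
    (hK : ∀ v (hv : Q v ≠ 0), rO Q hQ v hv ∈ K) (b : ↥(Cfsg.isometryGroup F Q)) : b ∈ K := by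
  have hS : ∀ v (hv : Q v ≠ 0), rG Q hQ v hv ∈ K.map (Cfsg.isometryGroup F Q).subtype := by
    intro v hv
    exact Subgroup.mem_map.mpr ⟨rO Q hQ v hv, hK v hv, rfl⟩
  have h2 := gen Q hQ (Or.inr (by omega)) _ hS b.2
  obtain ⟨b', hb', hbb⟩ := Subgroup.mem_map.mp h2
  have h3 : b' = b := Subtype.ext hbb
  rw [← h3]
  exact hb'

/-- A normal subgroup modulo which all reflections commute contains the commutator subgroup. -/
theorem comm_le [Fintype F] (hQ : Cfsg.Geo.IsNondegenerateQuadraticForm Q)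
    (hn : 5 ≤ Fintype.card ι) (K : Subgroup ↥(Cfsg.isometryGroup F Q)) [K.Normal]
    (h : ∀ (w v : ι → F) (hw : Q w ≠ 0) (hv : Q v ≠ 0),
      (rO Q hQ w hw * rO Q hQ v hv)⁻¹ * (rO Q hQ v hv * rO Q hQ w hw) ∈ K) :
    commutator ↥(Cfsg.isometryGroup F Q) ≤ K := by
  obtain ⟨π, hπ⟩ : ∃ π : ↥(Cfsg.isometryGroup F Q) →* ↥(Cfsg.isometryGroup F Q) ⧸ K,
    π = QuotientGroup.mk' K := ⟨_, rfl⟩
  have hker : ∀ x, x ∈ K → π x = 1 := by
    intro x hx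
    rw [hπ, ← MonoidHom.mem_ker, QuotientGroup.ker_mk']
    exact hx
  have hker' : ∀ x, π x = 1 → x ∈ K := by
    intro x hx
    rw [hπ, ← MonoidHom.mem_ker, QuotientGroup.ker_mk'] at hx
    exact hx
  have h0 : ∀ (w v : ι → F) (hw : Q w ≠ 0) (hv : Q v ≠ 0),
      π (rO Q hQ w hw) * π (rO Q hQ v hv) = π (rO Q hQ v hv) * π (rO Q hQ w hw) := by
    intro w v hw hv
    have e := hker _ (h w v hw hv)
    rw [map_mul, map_inv] at e
    have e2 := inv_mul_eq_one.mp e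
    rw [map_mul, map_mul] at e2
    exact e2
  have h1 : ∀ (w : ι → F) (hw : Q w ≠ 0) (b : ↥(Cfsg.isometryGroup F Q)),
      π b * π (rO Q hQ w hw) = π (rO Q hQ w hw) * π b := by
    intro w hw b
    have hmem : b ∈ (Subgroup.centralizer {π (rO Q hQ w hw)}).comap π := by
      apply gen_O Q hQ hn
      intro v hv
      rw [Subgroup.mem_comap, Subgroup.mem_centralizer_iff]
      intro y hy
      rw [Set.mem_singleton_iff] at hy
      rw [hy]
      exact h0 w v hw hv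
    rw [Subgroup.mem_comap, Subgroup.mem_centralizer_iff] at hmem
    exact (hmem _ (Set.mem_singleton _)).symm
  have h2 : ∀ a b : ↥(Cfsg.isometryGroup F Q), π a * π b = π b * π a := by
    intro a b
    have hmem : a ∈ (Subgroup.centralizer {π b}).comap π := by
      apply gen_O Q hQ hn
      intro v hv
      rw [Subgroup.mem_comap, Subgroup.mem_centralizer_iff]
      intro y hy
      rw [Set.mem_singleton_iff] at hy
      rw [hy]
      exact h1 v hv b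
    rw [Subgroup.mem_comap, Subgroup.mem_centralizer_iff] at hmem
    exact (hmem _ (Set.mem_singleton _)).symm
  rw [commutator_def, Subgroup.commutator_le]
  intro a _ b _
  apply hker'
  rw [commutatorElement_def, map_mul, map_mul, map_mul, map_inv, map_inv, h2 a b,
    mul_inv_cancel_right, mul_inv_cancel]

/-- `Ω` is contained in the subgroup generated by the long root elements. -/
theorem omega_le_Lam [Fintype F] (hQ : Cfsg.Geo.IsNondegenerateQuadraticForm Q)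
    (hn : 5 ≤ Fintype.card ι)
    (hts : ∀ x : ι → F, ∃ e₀, Q e₀ = 0 ∧ Bf Q hQ x e₀ = 0 ∧ ∀ c : F, e₀ ≠ c • x) :
    commutator ↥(Cfsg.isometryGroup F Q) ≤ Lam Q hQ := by
  have hnorm : (Lam Q hQ).Normal := Subgroup.normalClosure_normal
  apply comm_le Q hQ hn
  intro w v hw hv
  have hw' : Q (R Q hQ v *ᵥ w) ≠ 0 := by rw [Q_R Q hQ v hv]; exact hw
  have e : (rO Q hQ w hw * rO Q hQ v hv)⁻¹ * (rO Q hQ v hv * rO Q hQ w hw)
      = rO Q hQ (R Q hQ v *ᵥ w) hw' * rO Q hQ w hw := by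
    rw [← rO_conj Q hQ v w hv hw hw']
    simp only [_root_.mul_inv_rev, rO_inv, mul_assoc]
  rw [e]
  rcases long_trans Q hQ hts w (R Q hQ v *ᵥ w) hw (Q_R Q hQ v hv w) with ⟨c, hc⟩ | ⟨σ, hσ, hσw⟩
  · have hc0 : c ≠ 0 := by
      intro h0
      rw [h0, zero_smul] at hc
      apply hw'
      rw [hc]
      exact Q_zero Q hQ
    have e2 : rO Q hQ (R Q hQ v *ᵥ w) hw' = rO Q hQ w hw := by
      apply Subtype.ext
      apply Units.ext
      show R Q hQ (R Q hQ v *ᵥ w) = R Q hQ w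
      rw [hc, R_smul Q hQ c hc0]
    rw [e2, rO_sq]
    exact one_mem _
  · have hw'' : Q (((σ : GL ι F) : Matrix ι ι F) *ᵥ w) ≠ 0 := by rw [hσw]; exact hw'
    have e2 : rO Q hQ (R Q hQ v *ᵥ w) hw' = σ * rO Q hQ w hw * σ⁻¹ := by
      rw [rO_conj_iso Q hQ σ w hw hw'']
      apply Subtype.ext
      apply Units.ext
      show R Q hQ (R Q hQ v *ᵥ w) = R Q hQ (((σ : GL ι F) : Matrix ι ι F) *ᵥ w)
      rw [hσw]
    rw [e2]
    have e3 : σ * rO Q hQ w hw * σ⁻¹ * rO Q hQ w hw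
        = σ * (rO Q hQ w hw * σ⁻¹ * (rO Q hQ w hw)⁻¹) := by
      rw [rO_inv]; simp only [mul_assoc]
    rw [e3]
    exact mul_mem hσ (hnorm.conj_mem σ⁻¹ (inv_mem hσ) _)

/-- Long root elements are commutators of elements of `Ω`. -/
theorem long_mem_comm [Fintype F] (hQ : Cfsg.Geo.IsNondegenerateQuadraticForm Q)
    (hn : 5 ≤ Fintype.card ι) (g : ↥(Cfsg.isometryGroup F Q)) (hg : g ∈ LongSet Q hQ) :
    g ∈ (commutator ↥(commutator ↥(Cfsg.isometryGroup F Q))).map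
      (commutator ↥(Cfsg.isometryGroup F Q)).subtype := by
  obtain ⟨e, e', he, he', hee', hm⟩ := hg
  by_cases hdeg : e = 0 ∨ ∃ c : F, e' = c • e
  · have h1 : Ev Q hQ e e' = 1 := by
      apply mat_ext
      intro x
      rw [Ev_mulVec, Matrix.one_mulVec]
      rcases hdeg with h0 | ⟨c, hc⟩
      · rw [h0]; simp
      · rw [hc, hQ.smul, he, (Bf Q hQ).map_smul, LinearMap.smul_apply, smul_eq_mul, smul_smul]
        module
    have h2 : g = 1 := Subtype.ext (Units.ext (hm.trans h1))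
    rw [h2]
    exact one_mem _
  · push_neg at hdeg
    obtain ⟨he0, hind⟩ := hdeg
    obtain ⟨v', -, e1, e2, -, -, hv', -⟩ :=
      exists_ns_perp2 Q hQ (Bf Q hQ e) (Bf Q hQ e') hn
    have h3 : ∃ v₀, Bf Q hQ e v₀ = 0 ∧ Bf Q hQ e' v₀ = 0 ∧ Bf Q hQ v' v₀ ≠ 0 := by
      by_contra hcon
      push_neg at hcon
      obtain ⟨α, β, hαβ⟩ := perp_plane Q hQ e e' v' he0 hind hcon
      apply hv'
      rw [hαβ, Q_add_smul Q hQ, hQ.smul, he, he', (Bf Q hQ).map_smul, LinearMap.smul_apply,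
        hee']
      simp
    obtain ⟨v₀, f1, f2, f3⟩ := h3
    obtain ⟨v, hvdef⟩ : ∃ v, v = (Bf Q hQ v' v₀)⁻¹ • v₀ := ⟨_, rfl⟩
    have hev : Bf Q hQ e v = 0 := by rw [hvdef, (Bf Q hQ e).map_smul, f1, smul_zero]
    have he'v : Bf Q hQ e' v = 0 := by rw [hvdef, (Bf Q hQ e').map_smul, f2, smul_zero]
    have hv'v : Bf Q hQ v' v = 1 := by
      rw [hvdef, (Bf Q hQ v').map_smul, smul_eq_mul, inv_mul_cancel₀ f3]
    have hΩa := eO_mem Q hQ hn e' v' he' e2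
    have hΩb := eO_mem Q hQ hn e v he hev
    refine Subgroup.mem_map.mpr
      ⟨(⟨eO Q hQ e' v' he' e2, hΩa⟩ : ↥(commutator ↥(Cfsg.isometryGroup F Q)))
        * ⟨eO Q hQ e v he hev, hΩb⟩
        * (⟨eO Q hQ e' v' he' e2, hΩa⟩ : ↥(commutator ↥(Cfsg.isometryGroup F Q)))⁻¹
        * (⟨eO Q hQ e v he hev, hΩb⟩ : ↥(commutator ↥(Cfsg.isometryGroup F Q)))⁻¹, ?_, ?_⟩
    · exact comm_elt_mem _ _
    · apply Subtype.ext
      apply Units.ext
      show Ev Q hQ e' v' * Ev Q hQ e v * Ev Q hQ e' (-v') * Ev Q hQ e (-v)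
        = ((g : GL ι F) : Matrix ι ι F)
      rw [hm]
      have hA : ∀ x, Q (Ev Q hQ e' v' *ᵥ x) = Q x := Ev_iso Q hQ e' v' he' e2
      have hAe : Ev Q hQ e' v' *ᵥ e = e := by
        rw [Ev_mulVec, Bf_symm Q hQ v' e, e1, Bf_symm Q hQ e' e, hee']
        simp
      have hAv : Ev Q hQ e' v' *ᵥ v = v + e' := by
        rw [Ev_mulVec, hv'v, he'v]
        simp
      have h5 : Bf Q hQ e (v + e') = 0 := by
        rw [(Bf Q hQ e).map_add, hev, hee', add_zero]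
      have h6 : Bf Q hQ e (-v) = 0 := by rw [(Bf Q hQ e).map_neg, hev, neg_zero]
      have h7 : Bf Q hQ e' (-v') = 0 := by rw [(Bf Q hQ e').map_neg, e2, neg_zero]
      rw [Ev_conj Q hQ _ hA, hAe, hAv, mul_assoc (Ev Q hQ e (v + e')),
        Ev_add Q hQ e' v' (-v') he' e2 h7, add_neg_cancel, Ev_zero, mul_one,
        Ev_add Q hQ e (v + e') (-v) he h5 h6]
      congr 1
      abel

/-- `Ω` is perfect. -/
theorem perfect [Fintype F] (hQ : Cfsg.Geo.IsNondegenerateQuadraticForm Q)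
    (hn : 5 ≤ Fintype.card ι)
    (hts : ∀ x : ι → F, ∃ e₀, Q e₀ = 0 ∧ Bf Q hQ x e₀ = 0 ∧ ∀ c : F, e₀ ≠ c • x) :
    commutator ↥(commutator ↥(Cfsg.isometryGroup F Q)) = ⊤ := by
  rw [eq_top_iff]
  intro g _
  have h1 := omega_le_Lam Q hQ hn hts g.2
  have h2 := Lam_le Q hQ _ (fun x hx => long_mem_comm Q hQ hn x hx) h1
  obtain ⟨g', hg', hgg⟩ := Subgroup.mem_map.mp h2
  have h3 : g' = g := Subtype.ext hgg
  rw [← h3]
  exact hg'

end quad

end Cfsg.Agent.Helper4.OSiegel
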