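import Mathlib
import Cfsg.Agent.Helper4.OSiegel2

set_option autoImplicit false
open Cfsg

namespace Cfsg.Agent.Helper4.OSiegel

open Matrix Cfsg.Agent.Helper4.OrthPlane Cfsg.Agent.Helper4.CartanD Cfsg.Agent.Helper4.Dickson
  Cfsg.Agent.Helper4.Spinor Cfsg.Agent.Helper4.OCenter

variable {ι : Type} [Fintype ι] [DecidableEq ι] {F : Type*} [Field F]

section quad

variable (Q : (ι → F) → F)

theorem Ev_smul_left (hQ : Cfsg.Geo.IsNondegenerateQuadraticForm Q) (c : F) (u w : ι → F) :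
    Ev Q hQ (c • u) w = Ev Q hQ u (c • w) := by
  apply mat_ext
  intro y
  have a1 : Bf Q hQ (c • u) y = c * Bf Q hQ u y := by
    rw [(Bf Q hQ).map_smul, LinearMap.smul_apply, smul_eq_mul]
  have a2 : Bf Q hQ (c • w) y = c * Bf Q hQ w y := by
    rw [(Bf Q hQ).map_smul, LinearMap.smul_apply, smul_eq_mul]
  rw [Ev_mulVec, Ev_mulVec, a1, a2, hQ.smul]
  module

/-- An isometry having every non-singular vector as an eigenvector is `±1`. -/
theorem scalar_of_eigen [Fintype F] (hQ : Cfsg.Geo.IsNondegenerateQuadraticForm Q)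
    (hn : 5 ≤ Fintype.card ι) (Z : Matrix ι ι F) (hA : ∀ x, Q (Z *ᵥ x) = Q x)
    (heig : ∀ u, Q u ≠ 0 → ∃ c : F, Z *ᵥ u = c • u) : Z = 1 ∨ Z = -1 := by
  have hne : Nonempty ι := by
    rw [← Fintype.card_pos_iff]; omega
  obtain ⟨i₀⟩ := hne
  have hx0 : (Pi.single i₀ (1 : F) : ι → F) ≠ 0 := by
    intro h0
    have h5 := congrFun h0 i₀
    simp at h5
  obtain ⟨u₀, hu₀⟩ := exists_ns Q hQ _ hx0
  have hu₀0 : u₀ ≠ 0 := by rintro rfl; exact hu₀ (Q_zero Q hQ)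
  obtain ⟨c₀, hc₀⟩ := heig u₀ hu₀
  have hc₀sq : c₀ ^ 2 = 1 := by
    have h1 := hA u₀
    rw [hc₀, hQ.smul] at h1
    have h2 : (c₀ ^ 2 - 1) * Q u₀ = 0 := by linear_combination h1
    rcases mul_eq_zero.mp h2 with h | h
    · exact sub_eq_zero.mp h
    · exact absurd h hu₀
  have hall : ∀ u, Q u ≠ 0 → Z *ᵥ u = c₀ • u := by
    intro u hu
    obtain ⟨c, hc⟩ := heig u hu
    have hu0 : u ≠ 0 := by rintro rfl; exact hu (Q_zero Q hQ)
    obtain ⟨a, ha, hau₀, hau⟩ := exists_off Q hQ hn u₀ u hu₀0 hu0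
    obtain ⟨d, hd⟩ := heig a ha
    have h3 := B_iso Q hQ Z hA u₀ a
    rw [hc₀, hd] at h3
    simp only [map_smul, LinearMap.smul_apply, smul_eq_mul] at h3
    have h4 := B_iso Q hQ Z hA u a
    rw [hc, hd] at h4
    simp only [map_smul, LinearMap.smul_apply, smul_eq_mul] at h4
    have h5 : c₀ * d = 1 := by
      have h : (c₀ * d - 1) * Bf Q hQ u₀ a = 0 := by linear_combination h3
      rcases mul_eq_zero.mp h with h | h
      · exact sub_eq_zero.mp h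
      · exact absurd h hau₀
    have h6 : c * d = 1 := by
      have h : (c * d - 1) * Bf Q hQ u a = 0 := by linear_combination h4
      rcases mul_eq_zero.mp h with h | h
      · exact sub_eq_zero.mp h
      · exact absurd h hau
    have h7 : c = c₀ := by
      calc c = c * (c₀ * d) := by rw [h5, mul_one]
        _ = c₀ * (c * d) := by ring
        _ = c₀ := by rw [h6, mul_one]
    rw [hc, h7]
  have hall2 : ∀ x, Z *ᵥ x = c₀ • x := by
    intro x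
    by_cases hx : Q x = 0
    · obtain ⟨a, a', e1, -, -, -, ha, -⟩ := exists_ns_perp2 Q hQ (Bf Q hQ x) (Bf Q hQ x) hn
      have hxa : Q (x + a) ≠ 0 := by
        rw [Q_add Q hQ, hx, e1, zero_add, add_zero]; exact ha
      have h1 := hall (x + a) hxa
      rw [Matrix.mulVec_add, hall a ha, smul_add] at h1
      exact add_right_cancel h1
    · exact hall x hx
  have hc : c₀ = 1 ∨ c₀ = -1 := by
    have h : (c₀ - 1) * (c₀ + 1) = 0 := by linear_combination hc₀sq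
    rcases mul_eq_zero.mp h with h | h
    · left; exact sub_eq_zero.mp h
    · right; exact eq_neg_of_add_eq_zero_left h
  rcases hc with h | h
  · left
    apply mat_ext
    intro x
    rw [hall2, h, one_smul, Matrix.one_mulVec]
  · right
    apply mat_ext
    intro x
    rw [hall2, h, Matrix.neg_mulVec, Matrix.one_mulVec, neg_one_smul]

/-- An isometry having every singular vector as an eigenvector is `±1`. -/
theorem scalar_of_sing_eigen [Fintype F] (hQ : Cfsg.Geo.IsNondegenerateQuadraticForm Q)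
    (hn : 5 ≤ Fintype.card ι) (e₁ : ι → F) (he₁ : Q e₁ = 0) (he₁0 : e₁ ≠ 0)
    (Z : Matrix ι ι F) (hA : ∀ x, Q (Z *ᵥ x) = Q x)
    (hs : ∀ x, Q x = 0 → ∃ c : F, Z *ᵥ x = c • x) : Z = 1 ∨ Z = -1 := by
  apply scalar_of_eigen Q hQ hn Z hA
  intro u hu
  have hu0 : u ≠ 0 := by rintro rfl; exact hu (Q_zero Q hQ)
  have h1 : ∃ e, Q e = 0 ∧ Bf Q hQ e u ≠ 0 := by
    by_cases h : Bf Q hQ e₁ u = 0
    · obtain ⟨v₁, hv₁⟩ := (hQ.nondegenerate e₁ he₁0).2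
      obtain ⟨v₂, hv₂⟩ := (hQ.nondegenerate u hu0).2
      have hv₁' : Bf Q hQ e₁ v₁ ≠ 0 := hv₁
      have hv₂' : Bf Q hQ u v₂ ≠ 0 := hv₂
      obtain ⟨y, hy1, hy2⟩ := exists_both (Bf Q hQ e₁) (Bf Q hQ u) v₁ v₂ hv₁' hv₂'
      refine ⟨y - ((Bf Q hQ e₁ y)⁻¹ * Q y) • e₁, make_sing Q hQ y e₁ he₁ hy1, ?_⟩
      simp only [map_sub, map_smul, LinearMap.sub_apply, LinearMap.smul_apply, smul_eq_mul, h,
        mul_zero, sub_zero]
      rw [Bf_symm Q hQ]; exact hy2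
    · exact ⟨e₁, he₁, h⟩
  obtain ⟨e, he, heu⟩ := h1
  obtain ⟨κ, hκ⟩ : ∃ κ, κ = Bf Q hQ e u := ⟨_, rfl⟩
  rw [← hκ] at heu
  have hk : κ⁻¹ * κ = 1 := inv_mul_cancel₀ heu
  obtain ⟨c, hc⟩ : ∃ c, c = κ⁻¹ * Q u := ⟨_, rfl⟩
  obtain ⟨f, hf⟩ : ∃ f, f = u - c • e := ⟨_, rfl⟩
  have hee : Bf Q hQ e e = 0 := by rw [Bf_self Q hQ, he, mul_zero]
  have hQf : Q f = 0 := by
    rw [hf, Q_sub Q hQ, hQ.smul, he, (Bf Q hQ u).map_smul, smul_eq_mul, Bf_symm Q hQ u e, ← hκ,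
      hc]
    linear_combination (- Q u) * hk
  have hef : Bf Q hQ e f = κ := by
    rw [hf, (Bf Q hQ e).map_sub, (Bf Q hQ e).map_smul, hee, smul_zero, sub_zero, ← hκ]
  have hu_eq : u = f + c • e := by rw [hf]; abel
  obtain ⟨lam, hlam⟩ := hs e he
  obtain ⟨mu, hmu⟩ := hs f hQf
  obtain ⟨p, -, hep, hfp, -, -, hp, -⟩ := exists_ns_perp2 Q hQ (Bf Q hQ e) (Bf Q hQ f) hn
  obtain ⟨β, hβ⟩ : ∃ β, β = -(κ⁻¹ * Q p) := ⟨_, rfl⟩
  have hβ0 : β ≠ 0 := by
    rw [hβ]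
    exact neg_ne_zero.mpr (mul_ne_zero (inv_ne_zero heu) hp)
  obtain ⟨x, hx⟩ : ∃ x, x = e + β • f + p := ⟨_, rfl⟩
  have hff : Bf Q hQ f f = 0 := by rw [Bf_self Q hQ, hQf, mul_zero]
  have hQx : Q x = 0 := by
    have h5 : Bf Q hQ (e + β • f) p = 0 := by
      simp only [map_add, map_smul, LinearMap.add_apply, LinearMap.smul_apply, smul_eq_mul, hep,
        hfp, mul_zero, add_zero]
    rw [hx, Q_add Q hQ, Q_add_smul Q hQ, he, hQf, hef, h5, hβ]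
    linear_combination (- Q p) * hk
  obtain ⟨nu, hnu⟩ := hs x hQx
  have hxe : Bf Q hQ x e = β * κ := by
    rw [hx]
    simp only [map_add, map_smul, LinearMap.add_apply, LinearMap.smul_apply, smul_eq_mul, hee]
    rw [Bf_symm Q hQ f e, hef, Bf_symm Q hQ p e, hep]; ring
  have hxf : Bf Q hQ x f = κ := by
    rw [hx]
    simp only [map_add, map_smul, LinearMap.add_apply, LinearMap.smul_apply, smul_eq_mul, hff,
      hef]
    rw [Bf_symm Q hQ p f, hfp]; ring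
  have h6 := B_iso Q hQ Z hA x e
  rw [hnu, hlam] at h6
  simp only [map_smul, LinearMap.smul_apply, smul_eq_mul] at h6
  rw [hxe] at h6
  have h7 := B_iso Q hQ Z hA x f
  rw [hnu, hmu] at h7
  simp only [map_smul, LinearMap.smul_apply, smul_eq_mul] at h7
  rw [hxf] at h7
  have h8 : nu * lam = 1 := by
    have h : (nu * lam - 1) * (β * κ) = 0 := by linear_combination h6
    rcases mul_eq_zero.mp h with h | h
    · exact sub_eq_zero.mp h
    · exact absurd h (mul_ne_zero hβ0 heu)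
  have h9 : nu * mu = 1 := by
    have h : (nu * mu - 1) * κ = 0 := by linear_combination h7
    rcases mul_eq_zero.mp h with h | h
    · exact sub_eq_zero.mp h
    · exact absurd h heu
  have h10 : lam = mu := by
    calc lam = (nu * mu) * lam := by rw [h9, one_mul]
      _ = (nu * lam) * mu := by ring
      _ = mu := by rw [h8, one_mul]
  refine ⟨mu, ?_⟩
  rw [hu_eq, Matrix.mulVec_add, Matrix.mulVec_smul, hmu, hlam, h10]
  module

/-- The matrix of an element of `Ω`. -/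
def mat (g : ↥(commutator ↥(Cfsg.isometryGroup F Q))) : Matrix ι ι F :=
  (((g : ↥(Cfsg.isometryGroup F Q)) : GL ι F) : Matrix ι ι F)

theorem mat_mul (g h : ↥(commutator ↥(Cfsg.isometryGroup F Q))) :
    mat Q (g * h) = mat Q g * mat Q h := rfl

theorem mat_one : mat Q (1 : ↥(commutator ↥(Cfsg.isometryGroup F Q))) = 1 := rfl

theorem mat_iso (g : ↥(commutator ↥(Cfsg.isometryGroup F Q))) (x : ι → F) :
    Q (mat Q g *ᵥ x) = Q x := (g : ↥(Cfsg.isometryGroup F Q)).2 x x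

theorem mat_mul_inv (g : ↥(commutator ↥(Cfsg.isometryGroup F Q))) :
    mat Q g * mat Q g⁻¹ = 1 := by rw [← mat_mul, mul_inv_cancel, mat_one]

theorem mat_inv_mul (g : ↥(commutator ↥(Cfsg.isometryGroup F Q))) :
    mat Q g⁻¹ * mat Q g = 1 := by rw [← mat_mul, inv_mul_cancel, mat_one]

theorem mat_ext' (g h : ↥(commutator ↥(Cfsg.isometryGroup F Q))) (e : mat Q g = mat Q h) :
    g = h := Subtype.ext (Subtype.ext (Units.ext e))

/-- The Siegel transformation as an element of `Ω`. -/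
noncomputable def eOm [Fintype F] (hQ : Cfsg.Geo.IsNondegenerateQuadraticForm Q)
    (hn : 5 ≤ Fintype.card ι) (u v : ι → F) (hu : Q u = 0) (huv : Bf Q hQ u v = 0) :
    ↥(commutator ↥(Cfsg.isometryGroup F Q)) :=
  ⟨eO Q hQ u v hu huv, eO_mem Q hQ hn u v hu huv⟩

theorem mat_eOm [Fintype F] (hQ : Cfsg.Geo.IsNondegenerateQuadraticForm Q)
    (hn : 5 ≤ Fintype.card ι) (u v : ι → F) (hu : Q u = 0) (huv : Bf Q hQ u v = 0) :
    mat Q (eOm Q hQ hn u v hu huv) = Ev Q hQ u v := rfl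

/-- Two vectors span lines in the same orbit of `N`. -/
def Rel (N : Subgroup ↥(commutator ↥(Cfsg.isometryGroup F Q))) (x z : ι → F) : Prop :=
  ∃ g ∈ N, ∃ c : F, mat Q g *ᵥ x = c • z

theorem rel_symm (N : Subgroup ↥(commutator ↥(Cfsg.isometryGroup F Q))) (x z : ι → F)
    (hx : x ≠ 0) (h : Rel Q N x z) : Rel Q N z x := by
  obtain ⟨g, hg, c, hc⟩ := h
  have h1 : mat Q g⁻¹ *ᵥ (mat Q g *ᵥ x) = x := by
    rw [Matrix.mulVec_mulVec, mat_inv_mul, Matrix.one_mulVec]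
  rw [hc, Matrix.mulVec_smul] at h1
  have hc0 : c ≠ 0 := by
    intro h0
    rw [h0, zero_smul] at h1
    exact hx h1.symm
  refine ⟨g⁻¹, inv_mem hg, c⁻¹, ?_⟩
  rw [← h1, smul_smul, inv_mul_cancel₀ hc0, one_smul]

theorem rel_trans (N : Subgroup ↥(commutator ↥(Cfsg.isometryGroup F Q))) (x y z : ι → F)
    (h1 : Rel Q N x y) (h2 : Rel Q N y z) : Rel Q N x z := by
  obtain ⟨g₁, hg₁, c₁, hc₁⟩ := h1
  obtain ⟨g₂, hg₂, c₂, hc₂⟩ := h2
  refine ⟨g₂ * g₁, mul_mem hg₂ hg₁, c₁ * c₂, ?_⟩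
  rw [mat_mul, ← Matrix.mulVec_mulVec, hc₁, Matrix.mulVec_smul, hc₂, smul_smul]

theorem rel_conj (N : Subgroup ↥(commutator ↥(Cfsg.isometryGroup F Q))) [hN : N.Normal]
    (h : ↥(commutator ↥(Cfsg.isometryGroup F Q))) (x z : ι → F) (hr : Rel Q N x z) :
    Rel Q N (mat Q h *ᵥ x) (mat Q h *ᵥ z) := by
  obtain ⟨g, hg, c, hc⟩ := hr
  refine ⟨h * g * h⁻¹, hN.conj_mem g hg h, c, ?_⟩
  rw [mat_mul, mat_mul, Matrix.mulVec_mulVec, mul_assoc, mul_assoc, mat_inv_mul, mul_one,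
    ← Matrix.mulVec_mulVec, hc, Matrix.mulVec_smul]

theorem rel_of_smul (N : Subgroup ↥(commutator ↥(Cfsg.isometryGroup F Q))) (x z : ι → F) (a : F)
    (h : Rel Q N x (a • z)) : Rel Q N x z := by
  obtain ⟨g, hg, c, hc⟩ := h
  exact ⟨g, hg, c * a, by rw [hc, smul_smul]⟩

theorem rel_opp [Fintype F] (hQ : Cfsg.Geo.IsNondegenerateQuadraticForm Q)
    (hn : 5 ≤ Fintype.card ι) (N : Subgroup ↥(commutator ↥(Cfsg.isometryGroup F Q)))
    [N.Normal] (x y z : ι → F) (hx : Q x = 0) (hy : Q y = 0) (hz : Q z = 0)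
    (hr : Rel Q N x y) (hxy : Bf Q hQ x y ≠ 0) (hxz : Bf Q hQ x z ≠ 0) : Rel Q N x z := by
  obtain ⟨κ, hκ⟩ : ∃ κ, κ = Bf Q hQ x y := ⟨_, rfl⟩
  rw [← hκ] at hxy
  obtain ⟨z', hz'⟩ : ∃ z', z' = (κ * (Bf Q hQ x z)⁻¹) • z := ⟨_, rfl⟩
  have hQz' : Q z' = 0 := by rw [hz', hQ.smul, hz, mul_zero]
  have hxz' : Bf Q hQ x z' = κ := by
    rw [hz', (Bf Q hQ x).map_smul, smul_eq_mul, mul_assoc, inv_mul_cancel₀ hxz, mul_one]
  obtain ⟨h1, h2⟩ := Ev_map Q hQ x y z' hy hQz' κ hxy hκ.symm hxz'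
  have h3 := rel_conj Q N (eOm Q hQ hn x (κ⁻¹ • (y - z')) hx h1) x y hr
  rw [mat_eOm, Ev_fix Q hQ x _ hx h1, h2] at h3
  rw [hz'] at h3
  exact rel_of_smul Q N x z _ h3

theorem rel_all [Fintype F] (hQ : Cfsg.Geo.IsNondegenerateQuadraticForm Q)
    (hn : 5 ≤ Fintype.card ι) (N : Subgroup ↥(commutator ↥(Cfsg.isometryGroup F Q)))
    [N.Normal] (x y : ι → F) (hx : Q x = 0) (hy : Q y = 0) (hx0 : x ≠ 0)
    (hr : Rel Q N x y) (hxy : Bf Q hQ x y ≠ 0) (w : ι → F) (hw : Q w = 0) (hw0 : w ≠ 0) :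
    Rel Q N x w := by
  by_cases hxw : Bf Q hQ x w = 0
  · obtain ⟨s, hs, hsx, hsw⟩ := exists_sing_off Q hQ x w hx0 hw0 hx hxw
    have hxs : Bf Q hQ x s ≠ 0 := by rw [Bf_symm Q hQ]; exact hsx
    have h1 := rel_opp Q hQ hn N x y s hx hy hs hr hxy hxs
    have h2 := rel_symm Q N x s hx0 h1
    have h3 := rel_opp Q hQ hn N s x w hs hx hw h2 hsx hsw
    exact rel_trans Q N x s w h1 h3
  · exact rel_opp Q hQ hn N x y w hx hy hw hr hxy hxw

theorem rel_total [Fintype F] (hQ : Cfsg.Geo.IsNondegenerateQuadraticForm Q)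
    (hn : 5 ≤ Fintype.card ι)
    (hts : ∀ x : ι → F, ∃ e₀, Q e₀ = 0 ∧ Bf Q hQ x e₀ = 0 ∧ ∀ c : F, e₀ ≠ c • x)
    (N : Subgroup ↥(commutator ↥(Cfsg.isometryGroup F Q))) [N.Normal]
    (g₀ : ↥(commutator ↥(Cfsg.isometryGroup F Q))) (hg₀ : g₀ ∈ N) (x : ι → F) (hx : Q x = 0)
    (hne : ∀ c : F, mat Q g₀ *ᵥ x ≠ c • x) (a b : ι → F) (ha : Q a = 0) (ha0 : a ≠ 0)
    (hb : Q b = 0) (hb0 : b ≠ 0) : Rel Q N a b := by
  obtain ⟨y, hydef⟩ : ∃ y, y = mat Q g₀ *ᵥ x := ⟨_, rfl⟩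
  rw [← hydef] at hne
  have hy : Q y = 0 := by rw [hydef, mat_iso Q, hx]
  have hx0 : x ≠ 0 := by
    intro h0
    apply hne 0
    rw [hydef, h0, Matrix.mulVec_zero, smul_zero]
  have hr : Rel Q N x y := ⟨g₀, hg₀, 1, by rw [one_smul, hydef]⟩
  have key : ∃ x₁ y₁ : ι → F, Q x₁ = 0 ∧ Q y₁ = 0 ∧ x₁ ≠ 0 ∧ Rel Q N x₁ y₁ ∧
      Bf Q hQ x₁ y₁ ≠ 0 := by
    by_cases hxy : Bf Q hQ x y = 0
    · obtain ⟨w, hw, hxw, hyw⟩ := exists_sing_perp_off Q hQ hts x y hx0 hne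
      obtain ⟨v, -, hwv, hxv, -, -, hv, -⟩ :=
        exists_ns_perp2 Q hQ (Bf Q hQ w) (Bf Q hQ x) hn
      have h3 := rel_conj Q N (eOm Q hQ hn w v hw hwv) x y hr
      have hfix : Ev Q hQ w v *ᵥ x = x := by
        rw [Ev_mulVec, Bf_symm Q hQ v x, hxv, Bf_symm Q hQ w x, hxw]
        simp
      rw [mat_eOm, hfix] at h3
      obtain ⟨y', hy'def⟩ : ∃ y', y' = Ev Q hQ w v *ᵥ y := ⟨_, rfl⟩
      rw [← hy'def] at h3
      have hy0 : y ≠ 0 := by
        intro h0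
        apply hne 0
        rw [h0, zero_smul]
      have hQy' : Q y' = 0 := by rw [hy'def, Ev_iso Q hQ w v hw hwv, hy]
      have hyy' : Bf Q hQ y y' ≠ 0 := by
        have hyy : Bf Q hQ y y = 0 := by rw [Bf_self Q hQ, hy, mul_zero]
        have e : Bf Q hQ y y' = - (Q v * Bf Q hQ y w ^ 2) := by
          rw [hy'def, Ev_mulVec]
          simp only [map_add, map_sub, map_smul, smul_eq_mul, hyy]
          rw [Bf_symm Q hQ v y, Bf_symm Q hQ w y]
          ring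
        rw [e]
        exact neg_ne_zero.mpr (mul_ne_zero hv (pow_ne_zero 2 hyw))
      have h4 := rel_symm Q N x y hx0 hr
      exact ⟨y, y', hy, hQy', hy0, rel_trans Q N y x y' h4 h3, hyy'⟩
    · exact ⟨x, y, hx, hy, hx0, hr, hxy⟩
  obtain ⟨x₁, y₁, hx₁, hy₁, hx₁0, hr₁, hB⟩ := key
  have h5 := rel_all Q hQ hn N x₁ y₁ hx₁ hy₁ hx₁0 hr₁ hB a ha ha0
  have h6 := rel_all Q hQ hn N x₁ y₁ hx₁ hy₁ hx₁0 hr₁ hB b hb hb0
  exact rel_trans Q N a x₁ b (rel_symm Q N x₁ a hx₁0 h5) h6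

/-- The Siegel group of a singular vector, inside `Ω`. -/
def sieg (hQ : Cfsg.Geo.IsNondegenerateQuadraticForm Q) (e₀ : ι → F) (he₀ : Q e₀ = 0) :
    Subgroup ↥(commutator ↥(Cfsg.isometryGroup F Q)) where
  carrier := {g | ∃ v, Bf Q hQ e₀ v = 0 ∧ mat Q g = Ev Q hQ e₀ v}
  one_mem' := ⟨0, (Bf Q hQ e₀).map_zero, by rw [Ev_zero]; rfl⟩
  mul_mem' := by
    rintro a b ⟨v, hv, ha⟩ ⟨v', hv', hb⟩
    exact ⟨v + v', by rw [(Bf Q hQ e₀).map_add, hv, hv', add_zero],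
      by rw [mat_mul, ha, hb, Ev_add Q hQ e₀ v v' he₀ hv hv']⟩
  inv_mem' := by
    rintro a ⟨v, hv, ha⟩
    have hv' : Bf Q hQ e₀ (-v) = 0 := by rw [(Bf Q hQ e₀).map_neg, hv, neg_zero]
    refine ⟨-v, hv', ?_⟩
    have h1 : Ev Q hQ e₀ (-v) * Ev Q hQ e₀ v = 1 := by
      rw [Ev_add Q hQ e₀ (-v) v he₀ hv' hv, neg_add_cancel, Ev_zero]
    calc mat Q a⁻¹ = (Ev Q hQ e₀ (-v) * Ev Q hQ e₀ v) * mat Q a⁻¹ := by rw [h1, one_mul]
      _ = Ev Q hQ e₀ (-v) * (mat Q a * mat Q a⁻¹) := by rw [mul_assoc, ha]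
      _ = Ev Q hQ e₀ (-v) := by rw [mat_mul_inv, mul_one]

theorem sieg_comm (hQ : Cfsg.Geo.IsNondegenerateQuadraticForm Q) (e₀ : ι → F) (he₀ : Q e₀ = 0) :
    IsMulCommutative ↥(sieg Q hQ e₀ he₀) := by
  refine ⟨⟨fun a b => ?_⟩⟩
  obtain ⟨v, hv, ha⟩ := a.2
  obtain ⟨v', hv', hb⟩ := b.2
  apply Subtype.ext
  apply mat_ext'
  show mat Q (a.1 * b.1) = mat Q (b.1 * a.1)
  rw [mat_mul, mat_mul, ha, hb, Ev_add Q hQ e₀ v v' he₀ hv hv', Ev_add Q hQ e₀ v' v he₀ hv' hv,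
    add_comm]

/-- A normal subgroup of `Ω` containing a non-scalar element is everything. -/
theorem normal_eq_top [Fintype F] (hQ : Cfsg.Geo.IsNondegenerateQuadraticForm Q)
    (hn : 5 ≤ Fintype.card ι) (e₁ e₂ : ι → F) (h1 : Q e₁ = 0) (h2 : Q e₂ = 0)
    (h12 : Bf Q hQ e₁ e₂ = 0) (hind : ∀ α β : F, α • e₁ + β • e₂ = 0 → α = 0 ∧ β = 0)
    (N : Subgroup ↥(commutator ↥(Cfsg.isometryGroup F Q))) [N.Normal]
    (hN : ∃ g ∈ N, mat Q g ≠ 1 ∧ mat Q g ≠ -1) : N = ⊤ := by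
  have hts := exists_sing_perp Q hQ e₁ e₂ h1 h2 h12 hind
  have he₁0 : e₁ ≠ 0 := by
    intro h0
    have h5 := (hind 1 0 (by rw [h0, smul_zero, zero_smul, add_zero])).1
    exact one_ne_zero h5
  obtain ⟨g₀, hg₀, hne1, hne2⟩ := hN
  have hT0 : ∃ x, Q x = 0 ∧ ∀ c : F, mat Q g₀ *ᵥ x ≠ c • x := by
    by_contra hcon
    push_neg at hcon
    rcases scalar_of_sing_eigen Q hQ hn e₁ h1 he₁0 (mat Q g₀) (mat_iso Q g₀) hcon with h | h
    · exact hne1 h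
    · exact hne2 h
  obtain ⟨x, hx, hxne⟩ := hT0
  have htot := rel_total Q hQ hn hts N g₀ hg₀ x hx hxne
  have hsup : N ⊔ sieg Q hQ e₁ h1 = ⊤ := by
    rw [eq_top_iff]
    intro g _
    have hlong : ∀ l, l ∈ LongSet Q hQ → l ∈ (N ⊔ sieg Q hQ e₁ h1).map
        (commutator ↥(Cfsg.isometryGroup F Q)).subtype := by
      rintro l ⟨e, e', he, he', hee', hm⟩
      by_cases he0 : e = 0
      · have h3 : Ev Q hQ e e' = 1 := by
          apply mat_ext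
          intro y
          rw [Ev_mulVec, Matrix.one_mulVec, he0]
          simp
        have h4 : l = 1 := Subtype.ext (Units.ext (hm.trans h3))
        rw [h4]
        exact one_mem _
      · obtain ⟨g, hg, c, hc⟩ := htot e e₁ he he0 h1 he₁0
        obtain ⟨v, hvdef⟩ : ∃ v, v = c • (mat Q g *ᵥ e') := ⟨_, rfl⟩
        have hev : Bf Q hQ e₁ v = 0 := by
          have h6 := B_iso Q hQ (mat Q g) (mat_iso Q g) e e'
          rw [hc, hee'] at h6
          rw [hvdef, (Bf Q hQ e₁).map_smul, smul_eq_mul]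
          rw [(Bf Q hQ).map_smul, LinearMap.smul_apply, smul_eq_mul] at h6
          exact h6
        have hmemA : eOm Q hQ hn e₁ v h1 hev ∈ sieg Q hQ e₁ h1 := ⟨v, hev, rfl⟩
        refine Subgroup.mem_map.mpr ⟨g⁻¹ * eOm Q hQ hn e₁ v h1 hev * g, ?_, ?_⟩
        · exact mul_mem (mul_mem (inv_mem (Subgroup.mem_sup_left hg))
            (Subgroup.mem_sup_right hmemA)) (Subgroup.mem_sup_left hg)
        · apply Subtype.ext
          apply Units.ext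
          show mat Q g⁻¹ * Ev Q hQ e₁ v * mat Q g = ((l : GL ι F) : Matrix ι ι F)
          rw [hm, mul_assoc, hvdef, ← Ev_smul_left Q hQ c e₁ (mat Q g *ᵥ e'), ← hc,
            ← Ev_conj Q hQ _ (mat_iso Q g), ← mul_assoc, mat_inv_mul, one_mul]
    have h7 := Lam_le Q hQ _ hlong (omega_le_Lam Q hQ hn hts g.2)
    obtain ⟨g', hg', hgg⟩ := Subgroup.mem_map.mp h7
    have h8 : g' = g := Subtype.ext hgg
    rw [← h8]
    exact hg'
  have hcomm := Subgroup.Normal.commutator_le_of_self_sup_commutative_eq_top hsup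
    (sieg_comm Q hQ e₁ h1)
  rw [perfect Q hQ hn hts] at hcomm
  exact top_le_iff.mp hcomm

theorem exists_nonscalar [Fintype F] (hQ : Cfsg.Geo.IsNondegenerateQuadraticForm Q)
    (hn : 5 ≤ Fintype.card ι) (e₁ : ι → F) (h1 : Q e₁ = 0) (he₁0 : e₁ ≠ 0) :
    ∃ g : ↥(commutator ↥(Cfsg.isometryGroup F Q)), mat Q g ≠ 1 ∧ mat Q g ≠ -1 := by
  obtain ⟨v, -, hev, -, -, -, hv, -⟩ := exists_ns_perp2 Q hQ (Bf Q hQ e₁) (Bf Q hQ e₁) hn
  have hne1 : Ev Q hQ e₁ v ≠ 1 := by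
    intro h
    obtain ⟨x, hx⟩ := (hQ.nondegenerate e₁ he₁0).2
    have hx' : Bf Q hQ e₁ x ≠ 0 := hx
    have h3 : Ev Q hQ e₁ v *ᵥ x = x := by rw [h, Matrix.one_mulVec]
    rw [Ev_mulVec] at h3
    have h4 := sub_eq_iff_eq_add.mp h3
    rw [add_sub_assoc] at h4
    have h5 := add_left_cancel h4
    rw [← sub_smul] at h5
    have h6 := congrArg Q h5
    rw [hQ.smul, hQ.smul, h1, mul_zero] at h6
    exact mul_ne_zero (pow_ne_zero 2 hx') hv h6.symm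
  refine ⟨eOm Q hQ hn e₁ v h1 hev, hne1, ?_⟩
  intro h
  have h' : Ev Q hQ e₁ v = -1 := h
  by_cases hch : (2 : F) = 0
  · apply hne1
    rw [h', neg_one_eq_one hch]
  · have h3 := Ev_fix Q hQ e₁ v h1 hev
    rw [h', Matrix.neg_mulVec, Matrix.one_mulVec] at h3
    have h4 : (2 : F) • e₁ = 0 := by
      rw [two_smul]
      nth_rewrite 1 [← h3]
      exact neg_add_cancel e₁
    rcases smul_eq_zero.mp h4 with h5 | h5
    · exact hch h5
    · exact he₁0 h5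

/-- Simplicity of `PΩ(Q)` for a non-degenerate quadratic form in at least five variables over a
finite field having a totally singular plane. -/
theorem simple [Fintype F] (hQ : Cfsg.Geo.IsNondegenerateQuadraticForm Q)
    (hn : 5 ≤ Fintype.card ι) (e₁ e₂ : ι → F) (h1 : Q e₁ = 0) (h2 : Q e₂ = 0)
    (h12 : Bf Q hQ e₁ e₂ = 0) (hind : ∀ α β : F, α • e₁ + β • e₂ = 0 → α = 0 ∧ β = 0) :
    IsSimpleGroup (Cfsg.POmega F Q) := by
  have he₁0 : e₁ ≠ 0 := by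
    intro h0
    have h5 := (hind 1 0 (by rw [h0, smul_zero, zero_smul, add_zero])).1
    exact one_ne_zero h5
  obtain ⟨g₀, hg₀1, hg₀2⟩ := exists_nonscalar Q hQ hn e₁ h1 he₁0
  have hcen : ∀ g : ↥(commutator ↥(Cfsg.isometryGroup F Q)),
      g ∈ Subgroup.center ↥(commutator ↥(Cfsg.isometryGroup F Q)) →
        mat Q g = 1 ∨ mat Q g = -1 := by
    intro g hg
    rw [Subgroup.mem_center_iff] at hg
    exact central_scalar Q hQ hn (g : ↥(Cfsg.isometryGroup F Q))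
      (fun x hx => (congrArg Subtype.val (hg ⟨x, hx⟩)).symm)
  have hcen' : ∀ g : ↥(commutator ↥(Cfsg.isometryGroup F Q)),
      (mat Q g = 1 ∨ mat Q g = -1) →
        g ∈ Subgroup.center ↥(commutator ↥(Cfsg.isometryGroup F Q)) := by
    intro g hg
    rw [Subgroup.mem_center_iff]
    intro x
    apply mat_ext'
    rw [mat_mul, mat_mul]
    rcases hg with h | h
    · rw [h, mul_one, one_mul]
    · rw [h, mul_neg, neg_mul, mul_one, one_mul]
  have hnt : Nontrivial (Cfsg.POmega F Q) := by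
    refine ⟨⟨(QuotientGroup.mk g₀ : Cfsg.POmega F Q), 1, ?_⟩⟩
    intro h
    rw [QuotientGroup.eq_one_iff] at h
    rcases hcen g₀ h with h' | h'
    · exact hg₀1 h'
    · exact hg₀2 h'
  apply IsSimpleGroup.mk
  intro K hK
  obtain ⟨N, hNdef⟩ : ∃ N : Subgroup ↥(commutator ↥(Cfsg.isometryGroup F Q)),
    N = K.comap (QuotientGroup.mk'
      (Subgroup.center ↥(commutator ↥(Cfsg.isometryGroup F Q)))) := ⟨_, rfl⟩
  have hNn : N.Normal := by rw [hNdef]; exact hK.comap _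
  have hmem : ∀ g, g ∈ N ↔ (QuotientGroup.mk g : Cfsg.POmega F Q) ∈ K := by
    intro g
    rw [hNdef]
    exact Subgroup.mem_comap
  by_cases hN : ∃ g ∈ N, mat Q g ≠ 1 ∧ mat Q g ≠ -1
  · right
    have htop := normal_eq_top Q hQ hn e₁ e₂ h1 h2 h12 hind N hN
    rw [eq_top_iff]
    intro y _
    obtain ⟨g, rfl⟩ := QuotientGroup.mk_surjective y
    exact (hmem g).mp (by rw [htop]; exact Subgroup.mem_top g)
  · left
    push_neg at hN
    rw [Subgroup.eq_bot_iff_forall]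
    intro y hy
    obtain ⟨g, rfl⟩ := QuotientGroup.mk_surjective y
    have hg : g ∈ N := (hmem g).mpr hy
    rw [QuotientGroup.eq_one_iff]
    apply hcen'
    by_cases h : mat Q g = 1
    · exact Or.inl h
    · exact Or.inr (hN g hg h)

end quad

end Cfsg.Agent.Helper4.OSiegel
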