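import Mathlib
import Cfsg.Prelude.Def_GeometricClasses
import Cfsg.Agent.Helper4.OrthPlane

set_option autoImplicit false
open Cfsg

namespace Cfsg.Agent.Helper4.OmMc

open Matrix Cfsg.Agent.Helper4.OrthPlane

variable {ι : Type} [Fintype ι] [DecidableEq ι] {F : Type*} [Field F] [Fintype F]
variable (Q : (ι → F) → F) (hQ : Cfsg.Geo.IsNondegenerateQuadraticForm Q)

/-- In a finite field of characteristic two every element is a square. -/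
theorem exists_sqrt (hch : (2 : F) = 0) (a : F) : ∃ s : F, s ^ 2 = a := by
  have h2 : ringChar F = 2 := CharP.ringChar_of_prime_eq_zero Nat.prime_two (by exact_mod_cast hch)
  obtain ⟨s, hs⟩ := FiniteField.isSquare_of_char_two h2 a
  exact ⟨s, by rw [hs]; ring⟩

theorem Bf_self0 (hch : (2 : F) = 0) (v : ι → F) : Bf Q hQ v v = 0 := by
  rw [Bf_self Q hQ, hch, zero_mul]

include hQ in
/-- A non-zero singular vector in the common kernel of `k` functionals (characteristic two). -/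
theorem exists_sing (hch : (2 : F) = 0) (k : ℕ) (φ : Fin k → ((ι → F) →ₗ[F] F))
    (hk : k + 2 < Fintype.card ι) :
    ∃ u : ι → F, u ≠ 0 ∧ (∀ j, φ j u = 0) ∧ Q u = 0 := by
  obtain ⟨u₁, hu₁, h1⟩ := exists_ker k φ (by omega)
  by_cases hq1 : Q u₁ = 0
  · exact ⟨u₁, hu₁, h1, hq1⟩
  obtain ⟨⟨y, hy⟩, -⟩ := hQ.nondegenerate u₁ hu₁
  have hy' : Bf Q hQ y u₁ ≠ 0 := hy
  obtain ⟨u₂, hu₂, h2⟩ := exists_ker (k + 2)
    (fun j : Fin (k + 2) => if h : j.val < k then φ ⟨j.val, h⟩ else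
      if j.val = k then Bf Q hQ u₁ else Bf Q hQ y) (by omega)
  have h20 : Bf Q hQ u₁ u₂ = 0 := by
    have h3 := h2 ⟨k, by omega⟩
    simpa using h3
  have h21 : Bf Q hQ y u₂ = 0 := by
    have h3 := h2 ⟨k + 1, by omega⟩
    simpa using h3
  have h2j : ∀ j, φ j u₂ = 0 := by
    intro j
    have h3 := h2 ⟨j.val, by omega⟩
    simpa using h3
  by_cases hq2 : Q u₂ = 0
  · exact ⟨u₂, hu₂, h2j, hq2⟩
  obtain ⟨s, hs⟩ := exists_sqrt hch (Q u₂ / Q u₁)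
  have hs0 : s ≠ 0 := by
    rintro rfl
    have h3 : Q u₂ / Q u₁ ≠ 0 := div_ne_zero hq2 hq1
    apply h3
    rw [← hs]
    ring
  refine ⟨u₂ + s • u₁, ?_, ?_, ?_⟩
  · intro h0
    have h3 : Bf Q hQ y (u₂ + s • u₁) = 0 := by rw [h0, map_zero]
    rw [map_add, map_smul, h21, zero_add, smul_eq_mul] at h3
    exact (mul_ne_zero hs0 hy') h3
  · intro j
    rw [map_add, map_smul, h2j j, h1 j, smul_zero, add_zero]
  · rw [Q_add_smul Q hQ, hs, Bf_symm Q hQ u₂ u₁, h20, mul_zero, add_zero, div_mul_cancel₀ _ hq1,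
      ← two_mul, hch, zero_mul]

/-- A singular partner of a singular vector, in the span of `e` and a given non-orthogonal `y`. -/
theorem partner (hch : (2 : F) = 0) (e y : ι → F) (he : Q e = 0) (hy : Bf Q hQ e y ≠ 0) :
    ∃ f : ι → F, Q f = 0 ∧ Bf Q hQ e f = 1 ∧ ∃ a b : F, f = a • y + b • e := by
  obtain ⟨c, hc⟩ : ∃ c : F, c * Bf Q hQ e y = 1 := ⟨_, inv_mul_cancel₀ hy⟩
  have h1 : Bf Q hQ (c • y) e = 1 := by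
    rw [map_smul, LinearMap.smul_apply, smul_eq_mul, Bf_symm Q hQ y e, hc]
  refine ⟨c • y + Q (c • y) • e, ?_, ?_, c, Q (c • y), rfl⟩
  · rw [Q_add_smul Q hQ, he, h1]
    linear_combination (Q (c • y)) * hch
  · rw [map_add, map_smul, map_smul, Bf_self0 Q hQ hch, smul_zero, add_zero, smul_eq_mul, hc]

/-- One more hyperbolic pair orthogonal to a family `x` admitting an "orthogonal projection". -/
theorem one_more (hch : (2 : F) = 0) (k : ℕ) (x : Fin k → (ι → F)) (hk : k + 2 < Fintype.card ι)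
    (proj : ∀ y₀ : ι → F, ∃ y : ι → F, (∀ j, Bf Q hQ y (x j) = 0) ∧
      ∀ z : ι → F, (∀ j, Bf Q hQ z (x j) = 0) → Bf Q hQ z y = Bf Q hQ z y₀) :
    ∃ e f : ι → F, Q e = 0 ∧ Q f = 0 ∧ Bf Q hQ e f = 1 ∧ (∀ j, Bf Q hQ e (x j) = 0) ∧
      (∀ j, Bf Q hQ f (x j) = 0) := by
  obtain ⟨e, he0, he1, heQ⟩ := exists_sing Q hQ hch k (fun j => Bf Q hQ (x j)) hk
  have he2 : ∀ j, Bf Q hQ e (x j) = 0 := fun j => by
    rw [Bf_symm Q hQ]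
    exact he1 j
  obtain ⟨-, ⟨y₀, hy₀⟩⟩ := hQ.nondegenerate e he0
  have hy₀' : Bf Q hQ e y₀ ≠ 0 := hy₀
  obtain ⟨y, hy1, hy2⟩ := proj y₀
  have hy3 : Bf Q hQ e y ≠ 0 := by
    rw [hy2 e he2]
    exact hy₀'
  obtain ⟨f, hfQ, hef, a, b, rfl⟩ := partner Q hQ hch e y heQ hy3
  refine ⟨e, _, heQ, hfQ, hef, he2, fun j => ?_⟩
  rw [map_add, map_smul, map_smul, LinearMap.add_apply, LinearMap.smul_apply,
    LinearMap.smul_apply, hy1 j, he2 j, smul_zero, smul_zero, add_zero]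

/-- Projection to the perp of one hyperbolic pair. -/
theorem proj2 (hch : (2 : F) = 0) (e₁ f₁ : ι → F) (h11 : Bf Q hQ e₁ f₁ = 1) (y₀ : ι → F) :
    ∃ y : ι → F, (∀ j, Bf Q hQ y (![e₁, f₁] j) = 0) ∧
      ∀ z : ι → F, (∀ j, Bf Q hQ z (![e₁, f₁] j) = 0) → Bf Q hQ z y = Bf Q hQ z y₀ := by
  have h11' : Bf Q hQ f₁ e₁ = 1 := by
    rw [Bf_symm Q hQ]
    exact h11
  have hee := Bf_self0 Q hQ hch e₁
  have hff := Bf_self0 Q hQ hch f₁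
  refine ⟨y₀ + Bf Q hQ y₀ f₁ • e₁ + Bf Q hQ y₀ e₁ • f₁, ?_, ?_⟩
  · intro j
    fin_cases j
    · show Bf Q hQ (y₀ + Bf Q hQ y₀ f₁ • e₁ + Bf Q hQ y₀ e₁ • f₁) e₁ = 0
      simp only [map_add, map_smul, LinearMap.add_apply, LinearMap.smul_apply, smul_eq_mul, hee,
        h11']
      linear_combination (Bf Q hQ y₀ e₁) * hch
    · show Bf Q hQ (y₀ + Bf Q hQ y₀ f₁ • e₁ + Bf Q hQ y₀ e₁ • f₁) f₁ = 0
      simp only [map_add, map_smul, LinearMap.add_apply, LinearMap.smul_apply, smul_eq_mul, hff,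
        h11]
      linear_combination (Bf Q hQ y₀ f₁) * hch
  · intro z hz
    have hz0 : Bf Q hQ z e₁ = 0 := hz 0
    have hz1 : Bf Q hQ z f₁ = 0 := hz 1
    rw [map_add, map_add, map_smul, map_smul, hz0, hz1, smul_zero, smul_zero, add_zero, add_zero]

/-- Projection to the perp of two orthogonal hyperbolic pairs. -/
theorem proj4 (hch : (2 : F) = 0) (e₁ f₁ e₂ f₂ : ι → F) (h11 : Bf Q hQ e₁ f₁ = 1)
    (h22 : Bf Q hQ e₂ f₂ = 1) (hee : Bf Q hQ e₁ e₂ = 0) (hef : Bf Q hQ e₁ f₂ = 0)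
    (hfe : Bf Q hQ f₁ e₂ = 0) (hff : Bf Q hQ f₁ f₂ = 0) (y₀ : ι → F) :
    ∃ y : ι → F, (∀ j, Bf Q hQ y (![e₁, f₁, e₂, f₂] j) = 0) ∧
      ∀ z : ι → F, (∀ j, Bf Q hQ z (![e₁, f₁, e₂, f₂] j) = 0) → Bf Q hQ z y = Bf Q hQ z y₀ := by
  have h11' : Bf Q hQ f₁ e₁ = 1 := by
    rw [Bf_symm Q hQ]
    exact h11
  have h22' : Bf Q hQ f₂ e₂ = 1 := by
    rw [Bf_symm Q hQ]
    exact h22
  have hee' : Bf Q hQ e₂ e₁ = 0 := by
    rw [Bf_symm Q hQ]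
    exact hee
  have hef' : Bf Q hQ f₂ e₁ = 0 := by
    rw [Bf_symm Q hQ]
    exact hef
  have hfe' : Bf Q hQ e₂ f₁ = 0 := by
    rw [Bf_symm Q hQ]
    exact hfe
  have hff' : Bf Q hQ f₂ f₁ = 0 := by
    rw [Bf_symm Q hQ]
    exact hff
  have s1 := Bf_self0 Q hQ hch e₁
  have s2 := Bf_self0 Q hQ hch f₁
  have s3 := Bf_self0 Q hQ hch e₂
  have s4 := Bf_self0 Q hQ hch f₂
  refine ⟨y₀ + Bf Q hQ y₀ f₁ • e₁ + Bf Q hQ y₀ e₁ • f₁ + Bf Q hQ y₀ f₂ • e₂ + Bf Q hQ y₀ e₂ • f₂,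
    ?_, ?_⟩
  · intro j
    fin_cases j
    · show Bf Q hQ (y₀ + Bf Q hQ y₀ f₁ • e₁ + Bf Q hQ y₀ e₁ • f₁ + Bf Q hQ y₀ f₂ • e₂
        + Bf Q hQ y₀ e₂ • f₂) e₁ = 0
      simp only [map_add, map_smul, LinearMap.add_apply, LinearMap.smul_apply, smul_eq_mul, s1,
        h11', hee', hef']
      linear_combination (Bf Q hQ y₀ e₁) * hch
    · show Bf Q hQ (y₀ + Bf Q hQ y₀ f₁ • e₁ + Bf Q hQ y₀ e₁ • f₁ + Bf Q hQ y₀ f₂ • e₂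
        + Bf Q hQ y₀ e₂ • f₂) f₁ = 0
      simp only [map_add, map_smul, LinearMap.add_apply, LinearMap.smul_apply, smul_eq_mul, s2,
        h11, hfe', hff']
      linear_combination (Bf Q hQ y₀ f₁) * hch
    · show Bf Q hQ (y₀ + Bf Q hQ y₀ f₁ • e₁ + Bf Q hQ y₀ e₁ • f₁ + Bf Q hQ y₀ f₂ • e₂
        + Bf Q hQ y₀ e₂ • f₂) e₂ = 0
      simp only [map_add, map_smul, LinearMap.add_apply, LinearMap.smul_apply, smul_eq_mul, s3,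
        h22', hee, hfe]
      linear_combination (Bf Q hQ y₀ e₂) * hch
    · show Bf Q hQ (y₀ + Bf Q hQ y₀ f₁ • e₁ + Bf Q hQ y₀ e₁ • f₁ + Bf Q hQ y₀ f₂ • e₂
        + Bf Q hQ y₀ e₂ • f₂) f₂ = 0
      simp only [map_add, map_smul, LinearMap.add_apply, LinearMap.smul_apply, smul_eq_mul, s4,
        h22, hef, hff]
      linear_combination (Bf Q hQ y₀ f₂) * hch
  · intro z hz
    have hz0 : Bf Q hQ z e₁ = 0 := hz 0
    have hz1 : Bf Q hQ z f₁ = 0 := hz 1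
    have hz2 : Bf Q hQ z e₂ = 0 := hz 2
    have hz3 : Bf Q hQ z f₂ = 0 := hz 3
    simp only [map_add, map_smul, hz0, hz1, hz2, hz3, smul_zero, add_zero]

/-- Three mutually orthogonal hyperbolic pairs for a non-degenerate quadratic form in
characteristic two on a space of dimension at least 8. -/
theorem exists_frame3 (hch : (2 : F) = 0) (hn : 8 ≤ Fintype.card ι) :
    ∃ e₁ f₁ e₂ f₂ e₃ f₃ : ι → F, Q e₁ = 0 ∧ Q f₁ = 0 ∧ Q e₂ = 0 ∧ Q f₂ = 0 ∧ Q e₃ = 0 ∧ Q f₃ = 0 ∧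
      Bf Q hQ e₁ f₁ = 1 ∧ Bf Q hQ e₂ f₂ = 1 ∧ Bf Q hQ e₃ f₃ = 1 ∧
      Bf Q hQ e₁ e₂ = 0 ∧ Bf Q hQ e₁ f₂ = 0 ∧ Bf Q hQ f₁ e₂ = 0 ∧ Bf Q hQ f₁ f₂ = 0 ∧
      Bf Q hQ e₁ e₃ = 0 ∧ Bf Q hQ e₁ f₃ = 0 ∧ Bf Q hQ f₁ e₃ = 0 ∧ Bf Q hQ f₁ f₃ = 0 ∧
      Bf Q hQ e₂ e₃ = 0 ∧ Bf Q hQ e₂ f₃ = 0 ∧ Bf Q hQ f₂ e₃ = 0 ∧ Bf Q hQ f₂ f₃ = 0 := by
  obtain ⟨e₁, f₁, he₁, hf₁, h11, -, -⟩ := one_more Q hQ hch 0 (fun j => j.elim0) (by omega)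
    (fun y₀ => ⟨y₀, fun j => j.elim0, fun z _ => rfl⟩)
  obtain ⟨e₂, f₂, he₂, hf₂, h22, h2e, h2f⟩ := one_more Q hQ hch 2 ![e₁, f₁] (by omega)
    (proj2 Q hQ hch e₁ f₁ h11)
  have a1 : Bf Q hQ e₂ e₁ = 0 := h2e 0
  have a2 : Bf Q hQ e₂ f₁ = 0 := h2e 1
  have a3 : Bf Q hQ f₂ e₁ = 0 := h2f 0
  have a4 : Bf Q hQ f₂ f₁ = 0 := h2f 1
  have b1 : Bf Q hQ e₁ e₂ = 0 := by rw [Bf_symm Q hQ]; exact a1
  have b2 : Bf Q hQ f₁ e₂ = 0 := by rw [Bf_symm Q hQ]; exact a2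
  have b3 : Bf Q hQ e₁ f₂ = 0 := by rw [Bf_symm Q hQ]; exact a3
  have b4 : Bf Q hQ f₁ f₂ = 0 := by rw [Bf_symm Q hQ]; exact a4
  obtain ⟨e₃, f₃, he₃, hf₃, h33, h3e, h3f⟩ := one_more Q hQ hch 4 ![e₁, f₁, e₂, f₂] (by omega)
    (proj4 Q hQ hch e₁ f₁ e₂ f₂ h11 h22 b1 b3 b2 b4)
  have c1 : Bf Q hQ e₃ e₁ = 0 := h3e 0
  have c2 : Bf Q hQ e₃ f₁ = 0 := h3e 1
  have c3 : Bf Q hQ e₃ e₂ = 0 := h3e 2
  have c4 : Bf Q hQ e₃ f₂ = 0 := h3e 3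
  have d1 : Bf Q hQ f₃ e₁ = 0 := h3f 0
  have d2 : Bf Q hQ f₃ f₁ = 0 := h3f 1
  have d3 : Bf Q hQ f₃ e₂ = 0 := h3f 2
  have d4 : Bf Q hQ f₃ f₂ = 0 := h3f 3
  refine ⟨e₁, f₁, e₂, f₂, e₃, f₃, he₁, hf₁, he₂, hf₂, he₃, hf₃, h11, h22, h33, b1, b3, b2, b4,
    ?_, ?_, ?_, ?_, ?_, ?_, ?_, ?_⟩
  · rw [Bf_symm Q hQ]; exact c1
  · rw [Bf_symm Q hQ]; exact d1
  · rw [Bf_symm Q hQ]; exact c2
  · rw [Bf_symm Q hQ]; exact d2
  · rw [Bf_symm Q hQ]; exact c3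
  · rw [Bf_symm Q hQ]; exact d3
  · rw [Bf_symm Q hQ]; exact c4
  · rw [Bf_symm Q hQ]; exact d4

end Cfsg.Agent.Helper4.OmMc
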