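import Mathlib

set_option autoImplicit false

namespace Cfsg.Agent.Helper4.PSpRank

variable {G : Type*} [Group G]

theorem comm_of_exp2 (D : Subgroup G) (hD2 : ∀ x ∈ D, x * x = 1) :
    ∀ a ∈ D, ∀ b ∈ D, a * b = b * a := by
  intro a ha b hb
  have h3 : a⁻¹ = a := inv_eq_of_mul_eq_one_left (hD2 a ha)
  have h4 : b⁻¹ = b := inv_eq_of_mul_eq_one_left (hD2 b hb)
  have h5 : (a * b)⁻¹ = a * b := inv_eq_of_mul_eq_one_left (hD2 _ (D.mul_mem ha hb))
  rw [mul_inv_rev, h3, h4] at h5
  exact h5.symm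

/-- A maximal subgroup of exponent two inside `E`. -/
theorem exists_max_exp2 [Finite G] (E : Subgroup G) :
    ∃ D : Subgroup G, D ≤ E ∧ (∀ x ∈ D, x * x = 1) ∧
      ∀ x ∈ E, x * x = 1 → (∀ d ∈ D, x * d = d * x) → x ∈ D := by
  classical
  haveI : Nonempty {D : Subgroup G // D ≤ E ∧ ∀ x ∈ D, x * x = 1} :=
    ⟨⟨⊥, bot_le, fun x hx => by rw [Subgroup.mem_bot.1 hx, mul_one]⟩⟩
  obtain ⟨⟨D, hDE, hD2⟩, hmax⟩ := Finite.exists_max
    (fun D : {D : Subgroup G // D ≤ E ∧ ∀ x ∈ D, x * x = 1} => Nat.card D.1)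
  refine ⟨D, hDE, hD2, fun x hxE hx2 hxc => ?_⟩
  have hxinv : x⁻¹ = x := inv_eq_of_mul_eq_one_left hx2
  have hcomm' : ∀ y, x * y ∈ D → x * y = y * x := by
    intro y hy
    have h1 := hxc (x * y) hy
    rw [← mul_assoc, hx2, one_mul] at h1
    calc x * y = x * y * (x * x) := by rw [hx2, mul_one]
      _ = (x * y * x) * x := by rw [mul_assoc (x * y) x x]
      _ = y * x := by rw [← h1]
  obtain ⟨D', hD'⟩ : ∃ D' : Subgroup G, ∀ y, y ∈ D' ↔ (y ∈ D ∨ x * y ∈ D) := by
    refine ⟨{ carrier := {y | y ∈ D ∨ x * y ∈ D}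
              mul_mem' := ?_
              one_mem' := Or.inl D.one_mem
              inv_mem' := ?_ }, fun y => Iff.rfl⟩
    · rintro y y' (hy | hy) (hy' | hy')
      · exact Or.inl (D.mul_mem hy hy')
      · right
        have e : x * (y * y') = y * (x * y') := by
          rw [← mul_assoc, hxc y hy, mul_assoc]
        rw [e]
        exact D.mul_mem hy hy'
      · right
        rw [← mul_assoc]
        exact D.mul_mem hy hy'
      · left
        have e : y * y' = (x * y) * (x * y') := by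
          rw [hcomm' y hy, mul_assoc, ← mul_assoc x x y', hx2, one_mul]
        rw [e]
        exact D.mul_mem hy hy'
    · rintro y (hy | hy)
      · exact Or.inl (D.inv_mem hy)
      · right
        have hc : Commute x y := hcomm' y hy
        have e : x * y⁻¹ = (x * y)⁻¹ := by
          rw [mul_inv_rev, hxinv]
          exact hc.inv_right.eq
        rw [e]
        exact D.inv_mem hy
  have hD'E : D' ≤ E := by
    intro y hy
    rcases (hD' y).1 hy with h | h
    · exact hDE h
    · have e : y = x⁻¹ * (x * y) := by rw [inv_mul_cancel_left]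
      rw [e]
      exact E.mul_mem (E.inv_mem hxE) (hDE h)
  have hD'2 : ∀ y ∈ D', y * y = 1 := by
    intro y hy
    rcases (hD' y).1 hy with h | h
    · exact hD2 y h
    · have h1 := hD2 _ h
      have hc := hcomm' y h
      calc y * y = (x * x) * (y * y) := by rw [hx2, one_mul]
        _ = x * (x * y) * y := by simp only [mul_assoc]
        _ = x * (y * x) * y := by rw [hc]
        _ = (x * y) * (x * y) := by simp only [mul_assoc]
        _ = 1 := h1
  have hDD' : D ≤ D' := fun y hy => (hD' y).2 (Or.inl hy)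
  have hle : Nat.card D' ≤ Nat.card D := hmax ⟨D', hD'E, hD'2⟩
  have heq : D = D' := Subgroup.eq_of_le_of_card_ge hDD' hle
  rw [heq]
  apply (hD' x).2
  right
  rw [hx2]
  exact D.one_mem

theorem cover_card [Finite G] (C D : Subgroup G) (g : Fin 4 → G)
    (h : ∀ w ∈ C, ∃ i, g i * w ∈ D) : Nat.card C ≤ 4 * Nat.card D := by
  classical
  choose ι hι using h
  obtain ⟨f, hf⟩ : ∃ f : C → Fin 4 × D, ∀ w : C,
      (f w).1 = ι w.1 w.2 ∧ ((f w).2 : G) = g (ι w.1 w.2) * w.1 :=
    ⟨fun w => (ι w.1 w.2, ⟨g (ι w.1 w.2) * w.1, hι w.1 w.2⟩), fun w => ⟨rfl, rfl⟩⟩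
  have hinj : Function.Injective f := by
    intro w w' hww
    have h1 : ι w.1 w.2 = ι w'.1 w'.2 := by rw [← (hf w).1, ← (hf w').1, hww]
    have h2 : g (ι w.1 w.2) * w.1 = g (ι w'.1 w'.2) * w'.1 := by
      rw [← (hf w).2, ← (hf w').2, hww]
    rw [h1] at h2
    exact Subtype.ext (mul_left_cancel h2)
  have h3 := Nat.card_le_card_of_injective f hinj
  rw [Nat.card_prod, Nat.card_fin] at h3
  exact h3

/-- In a group whose squares and commutators lie in `{1, c}`, the elements of square one have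
index at most four (when they form a subgroup). -/
theorem card_centralizer_le [Finite G] (c : G) (hc : ∀ g : G, c * g = g * c) (hc2 : c * c = 1)
    (hc1 : c ≠ 1) (C D : Subgroup G)
    (hsq : ∀ x ∈ C, x * x = 1 ∨ x * x = c)
    (hcm : ∀ x ∈ C, ∀ y ∈ C, x * y = y * x ∨ x * y = c * (y * x))
    (hD : ∀ x ∈ C, x * x = 1 → x ∈ D) :
    Nat.card C ≤ 4 * Nat.card D := by
  classical
  have hsqc : ∀ x ∈ C, x ∉ D → x * x = c := by
    intro x hx hxD
    rcases hsq x hx with h | h
    · exact absurd (hD x hx h) hxD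
    · exact h
  have hL : ∀ a ∈ C, ∀ b ∈ C, a ∉ D → b ∉ D → a * b ∉ D → a * b = c * (b * a) := by
    intro a ha b hb haD hbD habD
    rcases hcm a ha b hb with h | h
    · exfalso
      have h1 : (a * b) * (a * b) = 1 := by
        calc (a * b) * (a * b) = a * (b * a) * b := by simp only [mul_assoc]
          _ = a * (a * b) * b := by rw [h]
          _ = (a * a) * (b * b) := by simp only [mul_assoc]
          _ = c * c := by rw [hsqc a ha haD, hsqc b hb hbD]
          _ = 1 := hc2
      exact habD (hD _ (C.mul_mem ha hb) h1)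
    · exact h
  have hK : ∀ x ∈ C, ∀ y ∈ C, ∀ w ∈ C, x * y ∉ D → w ∉ D → x ∉ D → y ∉ D → x * w ∉ D →
      y * w ∉ D → x * y * w ∈ D := by
    intro x hx y hy w hw hxyD hwD hxD hyD hxwD hywD
    have hxw := hL x hx w hw hxD hwD hxwD
    have hyw := hL y hy w hw hyD hwD hywD
    have hcomm : x * y * w = w * (x * y) := by
      calc x * y * w = x * (y * w) := mul_assoc _ _ _
        _ = x * (c * (w * y)) := by rw [hyw]
        _ = (x * c) * (w * y) := by rw [mul_assoc]
        _ = (c * x) * (w * y) := by rw [hc x]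
        _ = c * ((x * w) * y) := by simp only [mul_assoc]
        _ = c * ((c * (w * x)) * y) := by rw [hxw]
        _ = (c * c) * (w * (x * y)) := by simp only [mul_assoc]
        _ = w * (x * y) := by rw [hc2, one_mul]
    apply hD _ (C.mul_mem (C.mul_mem hx hy) hw)
    calc x * y * w * (x * y * w) = (x * y) * (w * (x * y)) * w := by simp only [mul_assoc]
      _ = (x * y) * (x * y * w) * w := by rw [hcomm]
      _ = ((x * y) * (x * y)) * (w * w) := by simp only [mul_assoc]
      _ = c * c := by rw [hsqc _ (C.mul_mem hx hy) hxyD, hsqc w hw hwD]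
      _ = 1 := hc2
  have hcov : ∃ g : Fin 4 → G, ∀ w ∈ C, ∃ i, g i * w ∈ D := by
    by_cases h1 : ∀ x ∈ C, x ∈ D
    · exact ⟨fun _ => 1, fun w hw => ⟨0, by rw [one_mul]; exact h1 w hw⟩⟩
    · push_neg at h1
      obtain ⟨x, hx, hxD⟩ := h1
      by_cases h2 : ∀ y ∈ C, y ∈ D ∨ x * y ∈ D
      · refine ⟨![1, x, 1, 1], fun w hw => ?_⟩
        rcases h2 w hw with h | h
        · exact ⟨0, by simpa using h⟩
        · exact ⟨1, by simpa using h⟩
      · push_neg at h2
        obtain ⟨y, hy, hyD, hxyD⟩ := h2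
        refine ⟨![1, x, y, x * y], fun w hw => ?_⟩
        by_cases hwD : w ∈ D
        · exact ⟨0, by simpa using hwD⟩
        by_cases hxw : x * w ∈ D
        · exact ⟨1, by simpa using hxw⟩
        by_cases hyw : y * w ∈ D
        · exact ⟨2, by simpa using hyw⟩
        · exact ⟨3, by simpa using hK x hx y hy w hw hxyD hwD hxD hyD hxw hyw⟩
  obtain ⟨g, hg⟩ := hcov
  exact cover_card C D g hg

end Cfsg.Agent.Helper4.PSpRank
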