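import Mathlib
import Cfsg.Prelude.Def_GeometricClasses

set_option autoImplicit false

namespace Cfsg.Agent.Helper4.S5968C

open Matrix

theorem card_lt (n k : ℕ) (hk : k ≤ n) :
    (Finset.univ.filter (fun i : Fin n => (i : ℕ) < k)).card = k := by
  have h : (Finset.univ.filter (fun i : Fin n => (i : ℕ) < k)).map Fin.valEmbedding
      = Finset.range k := by
    ext j
    simp only [Finset.mem_map, Finset.mem_filter, Finset.mem_univ, true_and,
      Fin.valEmbedding_apply, Finset.mem_range]
    constructor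
    · rintro ⟨i, hi, rfl⟩
      exact hi
    · intro hj
      exact ⟨⟨j, by omega⟩, hj, rfl⟩
  rw [← Finset.card_map Fin.valEmbedding, h, Finset.card_range]

theorem kerdim {F : Type*} [Field F] [DecidableEq F] {n : ℕ} (w : Fin n → F) :
    Module.finrank F (LinearMap.ker (Matrix.toLin' (Matrix.diagonal w))) =
      (Finset.univ.filter (fun i : Fin n => w i = 0)).card := by
  classical
  have h1 := LinearMap.finrank_range_add_finrank_ker (Matrix.toLin' (Matrix.diagonal w))
  have h2 : Module.finrank F (LinearMap.range (Matrix.toLin' (Matrix.diagonal w)))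
      = (Matrix.diagonal w).rank := by
    rw [Matrix.rank, Matrix.toLin'_apply']
  have h3 : (Matrix.diagonal w).rank = (Finset.univ.filter (fun i : Fin n => ¬ w i = 0)).card := by
    rw [Matrix.rank_diagonal, Fintype.card_subtype]
  have h4 : (Finset.univ.filter (fun i : Fin n => w i = 0)).card
      + (Finset.univ.filter (fun i : Fin n => ¬ w i = 0)).card = n := by
    have h := Finset.card_filter_add_card_filter_not (s := (Finset.univ : Finset (Fin n)))
      (fun i : Fin n => w i = 0)
    rw [Finset.card_univ, Fintype.card_fin] at h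
    convert h
  rw [h2, h3, Module.finrank_fintype_fun_eq_card, Fintype.card_fin] at h1
  omega

/-- [C] diagonal construction (r ∣ q - 1). -/
theorem exists_diag {F : Type*} [Field F] [Fintype F] {q : ℕ} (hq : Fintype.card F = q) (n : ℕ) (hn : 4 ≤ n)
    (he : Even n) (r : ℕ) [Fact r.Prime] (hr2 : r ≠ 2) (hgap : ¬ (n = 6 ∧ r = 3)) (hr : r ∣ q - 1) :
    ∃ (x : Matrix.SpecialLinearGroup (Fin n) F) (l : F), l ≠ 0 ∧ x ^ r = 1 ∧
      (∀ z : F, (x : Matrix (Fin n) (Fin n) F) ≠ z • (1 : Matrix (Fin n) (Fin n) F)) ∧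
      Odd (Module.finrank F (LinearMap.ker (Matrix.toLin' ((x : Matrix (Fin n) (Fin n) F) - l • (1 : Matrix (Fin n) (Fin n) F))))) ∧
      LinearMap.ker (Matrix.toLin' ((x : Matrix (Fin n) (Fin n) F) - l • (1 : Matrix (Fin n) (Fin n) F))) ⊓
        LinearMap.range (Matrix.toLin' ((x : Matrix (Fin n) (Fin n) F) - l • (1 : Matrix (Fin n) (Fin n) F))) = ⊥ ∧
      ∀ m : F, m ≠ l →
        Module.finrank F (LinearMap.ker (Matrix.toLin' ((x : Matrix (Fin n) (Fin n) F) - m • (1 : Matrix (Fin n) (Fin n) F)))) ≠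
        Module.finrank F (LinearMap.ker (Matrix.toLin' ((x : Matrix (Fin n) (Fin n) F) - l • (1 : Matrix (Fin n) (Fin n) F)))) := by
  classical
  have hrP : r.Prime := Fact.out
  obtain ⟨u, hu⟩ : ∃ u : Fˣ, orderOf u = r :=
    exists_prime_orderOf_dvd_card r (by rw [Fintype.card_units, hq]; exact hr)
  obtain ⟨ω, hω⟩ : ∃ ω : F, ω = (u : F) := ⟨_, rfl⟩
  have hord : orderOf ω = r := by rw [hω, orderOf_units, hu]
  have hpow : ∀ k : ℕ, ω ^ k = 1 ↔ r ∣ k := fun k => by
    rw [← hord]; exact orderOf_dvd_iff_pow_eq_one.symm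
  have hω0 : ω ≠ 0 := by rw [hω]; exact u.ne_zero
  have hω1 : ω ≠ 1 := by
    intro h
    have h1 := (hpow 1).mp (by rw [pow_one, h])
    exact hrP.one_lt.ne' (Nat.dvd_one.mp h1)
  have hω4 : ω ^ 4 ≠ 1 := by
    intro h
    have h1 := (hpow 4).mp h
    have h2 : r ∣ 2 ^ 2 := by norm_num; exact h1
    exact hr2 ((Nat.prime_dvd_prime_iff_eq hrP Nat.prime_two).mp (hrP.dvd_of_dvd_pow h2))
  have hω3 : ω ^ 3 = 1 → r = 3 := by
    intro h
    exact (Nat.prime_dvd_prime_iff_eq hrP Nat.prime_three).mp ((hpow 3).mp h)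
  obtain ⟨i0, hi0⟩ : ∃ i0 : Fin n, (i0 : ℕ) = 0 := ⟨⟨0, by omega⟩, rfl⟩
  obtain ⟨i3, hi3⟩ : ∃ i3 : Fin n, (i3 : ℕ) = 3 := ⟨⟨3, by omega⟩, rfl⟩
  obtain ⟨d, hd⟩ : ∃ d : Fin n → F, ∀ i, d i =
      if (i : ℕ) < 3 then ω else if (i : ℕ) = 3 then (ω ^ 3)⁻¹ else 1 := ⟨_, fun i => rfl⟩
  have hd_lt : ∀ i : Fin n, (i : ℕ) < 3 → d i = ω := fun i hi => by rw [hd, if_pos hi]
  have hd_3 : ∀ i : Fin n, (i : ℕ) = 3 → d i = (ω ^ 3)⁻¹ := fun i hi => by
    rw [hd, if_neg (by omega), if_pos hi]
  have hd_gt : ∀ i : Fin n, 3 < (i : ℕ) → d i = 1 := fun i hi => by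
    rw [hd, if_neg (by omega), if_neg (by omega)]
  have hinv_ne : (ω ^ 3)⁻¹ ≠ ω := by
    intro h
    apply hω4
    have h3 : ω ^ 3 ≠ 0 := pow_ne_zero 3 hω0
    have h4 : (ω ^ 3)⁻¹ * ω ^ 3 = ω * ω ^ 3 := by rw [h]
    rw [inv_mul_cancel₀ h3] at h4
    rw [pow_succ' ω 3]
    exact h4.symm
  obtain ⟨X, hX⟩ : ∃ X : Matrix (Fin n) (Fin n) F, X = Matrix.diagonal d := ⟨_, rfl⟩
  have hXm : ∀ m : F, X - m • (1 : Matrix (Fin n) (Fin n) F) = Matrix.diagonal (fun i => d i - m) := by
    intro m
    rw [hX, Matrix.smul_one_eq_diagonal, Matrix.diagonal_sub]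
  have hdim : ∀ m : F, Module.finrank F (LinearMap.ker (Matrix.toLin' (X - m • (1 : Matrix (Fin n) (Fin n) F))))
      = (Finset.univ.filter (fun i : Fin n => d i = m)).card := by
    intro m
    rw [hXm, kerdim]
    exact congrArg Finset.card (Finset.filter_congr (fun i _ => (sub_eq_zero : d i - m = 0 ↔ d i = m)))
  have hcω : (Finset.univ.filter (fun i : Fin n => d i = ω)).card = 3 := by
    rw [← card_lt n 3 (by omega)]
    refine congrArg Finset.card (Finset.filter_congr (fun i _ => ?_))
    constructor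
    · intro h
      by_contra hlt
      rcases Nat.lt_or_ge 3 (i : ℕ) with h3 | h3
      · rw [hd_gt i h3] at h; exact hω1 h.symm
      · have h4 : (i : ℕ) = 3 := by omega
        rw [hd_3 i h4] at h; exact hinv_ne h
    · exact hd_lt i
  have hcm : ∀ m : F, m ≠ ω → (Finset.univ.filter (fun i : Fin n => d i = m)).card ≠ 3 := by
    intro m hm
    by_cases hm1 : m = 1
    · subst hm1
      have hsum : (Finset.univ.filter (fun i : Fin n => d i = 1)).card
          + (Finset.univ.filter (fun i : Fin n => ¬ d i = 1)).card = n := by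
        have h := Finset.card_filter_add_card_filter_not (s := (Finset.univ : Finset (Fin n)))
          (fun i : Fin n => d i = 1)
        rw [Finset.card_univ, Fintype.card_fin] at h
        convert h
      by_cases h3 : ω ^ 3 = 1
      · have hr3 := hω3 h3
        have hneg : (Finset.univ.filter (fun i : Fin n => ¬ d i = 1)).card = 3 := by
          rw [← card_lt n 3 (by omega)]
          refine congrArg Finset.card (Finset.filter_congr (fun i _ => ?_))
          constructor
          · intro h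
            by_contra hlt
            rcases Nat.lt_or_ge 3 (i : ℕ) with h4 | h4
            · exact h (hd_gt i h4)
            · have h5 : (i : ℕ) = 3 := by omega
              apply h
              rw [hd_3 i h5, h3, inv_one]
          · intro hi
            rw [hd_lt i hi]
            exact hω1
        have hn6 : n ≠ 6 := fun h6 => hgap ⟨h6, hr3⟩
        omega
      · have hneg : (Finset.univ.filter (fun i : Fin n => ¬ d i = 1)).card = 4 := by
          rw [← card_lt n 4 hn]
          refine congrArg Finset.card (Finset.filter_congr (fun i _ => ?_))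
          constructor
          · intro h
            by_contra hlt
            exact h (hd_gt i (by omega))
          · intro hi
            rcases Nat.lt_or_ge (i : ℕ) 3 with h4 | h4
            · rw [hd_lt i h4]
              exact hω1
            · have h5 : (i : ℕ) = 3 := by omega
              rw [hd_3 i h5]
              intro h6
              exact h3 (inv_eq_one.mp h6)
        obtain ⟨k, hk⟩ := he
        omega
    · have hle : (Finset.univ.filter (fun i : Fin n => d i = m)).card ≤ 1 := by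
        apply Finset.card_le_one.mpr
        intro a ha b hb
        rw [Finset.mem_filter] at ha hb
        have ha3 : (a : ℕ) = 3 := by
          by_contra hne
          rcases Nat.lt_or_ge (a : ℕ) 3 with h4 | h4
          · exact hm (by rw [← ha.2, hd_lt a h4])
          · exact hm1 (by rw [← ha.2, hd_gt a (by omega)])
        have hb3 : (b : ℕ) = 3 := by
          by_contra hne
          rcases Nat.lt_or_ge (b : ℕ) 3 with h4 | h4
          · exact hm (by rw [← hb.2, hd_lt b h4])
          · exact hm1 (by rw [← hb.2, hd_gt b (by omega)])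
        exact Fin.ext (by omega)
      omega
  have hdet : X.det = 1 := by
    rw [hX, Matrix.det_diagonal]
    have h1 : ∀ i : Fin n, d i = (if (i : ℕ) < 3 then ω else 1) * (if i = i3 then (ω ^ 3)⁻¹ else 1) := by
      intro i
      rcases Nat.lt_trichotomy (i : ℕ) 3 with h | h | h
      · rw [hd_lt i h, if_pos h, if_neg (by intro h2; rw [h2, hi3] at h; omega), mul_one]
      · rw [hd_3 i h, if_neg (by omega), if_pos (Fin.ext (by omega)), one_mul]
      · rw [hd_gt i h, if_neg (by omega), if_neg (by intro h2; rw [h2, hi3] at h; omega), mul_one]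
    rw [Finset.prod_congr rfl (fun i _ => h1 i), Finset.prod_mul_distrib,
      Finset.prod_ite_eq' Finset.univ i3 (fun _ => (ω ^ 3)⁻¹), if_pos (Finset.mem_univ _),
      Finset.prod_ite, Finset.prod_const, Finset.prod_const_one, mul_one, card_lt n 3 (by omega)]
    exact mul_inv_cancel₀ (pow_ne_zero 3 hω0)
  have hXr : X ^ r = 1 := by
    rw [hX, Matrix.diagonal_pow]
    have h1 : d ^ r = 1 := by
      funext i
      rw [Pi.pow_apply, Pi.one_apply]
      rcases Nat.lt_trichotomy (i : ℕ) 3 with h | h | h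
      · rw [hd_lt i h]; exact (hpow r).mpr dvd_rfl
      · rw [hd_3 i h, inv_pow, ← pow_mul, mul_comm, pow_mul, (hpow r).mpr dvd_rfl, one_pow, inv_one]
      · rw [hd_gt i h, one_pow]
    rw [h1]
    exact Matrix.diagonal_one
  obtain ⟨x, hx⟩ : ∃ x : Matrix.SpecialLinearGroup (Fin n) F, (x : Matrix (Fin n) (Fin n) F) = X :=
    ⟨⟨X, hdet⟩, rfl⟩
  refine ⟨x, ω, hω0, ?_, ?_, ?_, ?_, ?_⟩
  · have h1 : ((x ^ r : Matrix.SpecialLinearGroup (Fin n) F) : Matrix (Fin n) (Fin n) F)
        = ((1 : Matrix.SpecialLinearGroup (Fin n) F) : Matrix (Fin n) (Fin n) F) := by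
      rw [Matrix.SpecialLinearGroup.coe_pow, hx, hXr, Matrix.SpecialLinearGroup.coe_one]
    exact Subtype.ext h1
  · intro z hz
    rw [hx] at hz
    have h0 := congrFun (congrFun hz i0) i0
    have h3 := congrFun (congrFun hz i3) i3
    rw [hX, Matrix.diagonal_apply_eq, Matrix.smul_apply, Matrix.one_apply_eq, smul_eq_mul, mul_one]
      at h0 h3
    rw [hd_lt i0 (by omega)] at h0
    rw [hd_3 i3 hi3] at h3
    exact hinv_ne (h3.trans h0.symm)
  · rw [hx, hdim, hcω]
    exact ⟨1, rfl⟩
  · rw [hx, eq_bot_iff]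
    rintro v ⟨hv1, hv2⟩
    rw [Submodule.mem_bot]
    rw [SetLike.mem_coe, LinearMap.mem_ker, hXm, Matrix.toLin'_apply] at hv1
    rw [SetLike.mem_coe, LinearMap.mem_range] at hv2
    obtain ⟨w, hw⟩ := hv2
    rw [hXm, Matrix.toLin'_apply] at hw
    funext i
    have h1 := congrFun hv1 i
    have h2 := congrFun hw i
    rw [Matrix.mulVec_diagonal] at h1 h2
    rw [Pi.zero_apply] at h1 ⊢
    by_cases hi : d i - ω = 0
    · rw [hi, zero_mul] at h2; exact h2.symm
    · exact (mul_eq_zero.mp h1).resolve_left hi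
  · intro m hm
    rw [hx, hdim, hdim, hcω]
    exact hcm m hm

end Cfsg.Agent.Helper4.S5968C
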