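import Mathlib
import Cfsg.Prelude.Def_GeometricClasses
import Cfsg.Agent.Helper27.SpE1

set_option autoImplicit false

namespace Cfsg.Agent.Helper4.S5968K

open Matrix

/-- [K] criterion: an eigenvalue with odd, unique multiplicity and semisimple eigenspace. -/
theorem no_conj {F : Type*} [Field F] {n : ℕ} (f : (Fin n → F) → (Fin n → F) → F)
    (hf : Cfsg.Geo.IsSymplecticForm f) (x : Matrix.SpecialLinearGroup (Fin n) F) (l : F) (hl : l ≠ 0)
    (hodd : Odd (Module.finrank F (LinearMap.ker (Matrix.toLin' ((x : Matrix (Fin n) (Fin n) F) - l • (1 : Matrix (Fin n) (Fin n) F))))))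
    (hss : LinearMap.ker (Matrix.toLin' ((x : Matrix (Fin n) (Fin n) F) - l • (1 : Matrix (Fin n) (Fin n) F))) ⊓
      LinearMap.range (Matrix.toLin' ((x : Matrix (Fin n) (Fin n) F) - l • (1 : Matrix (Fin n) (Fin n) F))) = ⊥)
    (huniq : ∀ m : F, m ≠ l →
      Module.finrank F (LinearMap.ker (Matrix.toLin' ((x : Matrix (Fin n) (Fin n) F) - m • (1 : Matrix (Fin n) (Fin n) F)))) ≠
      Module.finrank F (LinearMap.ker (Matrix.toLin' ((x : Matrix (Fin n) (Fin n) F) - l • (1 : Matrix (Fin n) (Fin n) F)))))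
    (P : Matrix.SpecialLinearGroup (Fin n) F) :
    P⁻¹ * x * P ∉ (Cfsg.Geo.similarityGroup f).comap
      (Matrix.SpecialLinearGroup.toGL : Matrix.SpecialLinearGroup (Fin n) F →* GL (Fin n) F) := by
  classical
  intro hmem
  rw [Subgroup.mem_comap] at hmem
  obtain ⟨c, hc⟩ := hmem
  have hcoe : ((Matrix.SpecialLinearGroup.toGL (P⁻¹ * x * P) : GL (Fin n) F) : Matrix (Fin n) (Fin n) F)
      = ((P⁻¹ : Matrix.SpecialLinearGroup (Fin n) F) : Matrix (Fin n) (Fin n) F) *
        (x : Matrix (Fin n) (Fin n) F) * (P : Matrix (Fin n) (Fin n) F) := rfl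
  rw [hcoe] at hc
  obtain ⟨X, hX⟩ : ∃ X : Matrix (Fin n) (Fin n) F, X = (x : Matrix (Fin n) (Fin n) F) := ⟨_, rfl⟩
  obtain ⟨Pm, hPm⟩ : ∃ Pm : Matrix (Fin n) (Fin n) F, Pm = (P : Matrix (Fin n) (Fin n) F) := ⟨_, rfl⟩
  obtain ⟨Pi, hPi⟩ : ∃ Pi : Matrix (Fin n) (Fin n) F,
      Pi = ((P⁻¹ : Matrix.SpecialLinearGroup (Fin n) F) : Matrix (Fin n) (Fin n) F) := ⟨_, rfl⟩
  rw [← hX, ← hPm, ← hPi] at hc
  rw [← hX] at hodd hss huniq
  have hPmPi : Pm * Pi = 1 := by
    rw [hPm, hPi, ← Matrix.SpecialLinearGroup.coe_mul, mul_inv_cancel,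
      Matrix.SpecialLinearGroup.coe_one]
  have hPiPm : Pi * Pm = 1 := by
    rw [hPm, hPi, ← Matrix.SpecialLinearGroup.coe_mul, inv_mul_cancel,
      Matrix.SpecialLinearGroup.coe_one]
  obtain ⟨B, hBapp⟩ : ∃ B : LinearMap.BilinForm F (Fin n → F),
      ∀ u v, B u v = f (Pi *ᵥ u) (Pi *ᵥ v) :=
    ⟨LinearMap.mk₂ F (fun u v => f (Pi *ᵥ u) (Pi *ᵥ v))
      (fun a b v => by simp only [Matrix.mulVec_add]; exact hf.bilinear.add_left _ _ _)
      (fun a u v => by simp only [Matrix.mulVec_smul]; exact hf.bilinear.smul_left _ _ _)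
      (fun u a b => by simp only [Matrix.mulVec_add]; exact hf.bilinear.add_right _ _ _)
      (fun a u v => by simp only [Matrix.mulVec_smul]; exact hf.bilinear.smul_right _ _ _),
      fun u v => rfl⟩
  have hBalt : B.IsAlt := fun v => by rw [hBapp]; exact hf.alternating _
  have hskew : ∀ a b, B a b = - B b a := fun a b => by rw [hBapp, hBapp]; exact hf.skew _ _
  have hPi0 : ∀ u : Fin n → F, Pi *ᵥ u = 0 → u = 0 := by
    intro u hu
    have h1 : Pm *ᵥ (Pi *ᵥ u) = u := by rw [Matrix.mulVec_mulVec, hPmPi, Matrix.one_mulVec]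
    rw [← h1, hu, Matrix.mulVec_zero]
  have hsepR : ∀ v : Fin n → F, (∀ u, B u v = 0) → v = 0 := by
    intro v hv
    by_contra hv0
    have hne : Pi *ᵥ v ≠ 0 := fun h => hv0 (hPi0 v h)
    obtain ⟨⟨w, hw⟩, -⟩ := hf.nondegenerate (Pi *ᵥ v) hne
    apply hw
    have h1 := hv (Pm *ᵥ w)
    rw [hBapp, Matrix.mulVec_mulVec, hPiPm, Matrix.one_mulVec] at h1
    exact h1
  have hsepL : ∀ u : Fin n → F, (∀ v, B u v = 0) → u = 0 := by
    intro u hu
    apply hsepR
    intro w
    rw [hskew, hu, neg_zero]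
  have hBnd : B.Nondegenerate := ⟨hsepL, hsepR⟩
  have hXB : ∀ u v : Fin n → F, B (X *ᵥ u) (X *ᵥ v) = (c : F) * B u v := by
    intro u v
    have h := hc (Pi *ᵥ u) (Pi *ᵥ v)
    have e1 : ∀ w : Fin n → F, (Pi * X * Pm) *ᵥ (Pi *ᵥ w) = Pi *ᵥ (X *ᵥ w) := by
      intro w
      rw [Matrix.mulVec_mulVec, Matrix.mul_assoc, hPmPi, Matrix.mul_one, ← Matrix.mulVec_mulVec]
    rw [e1, e1] at h
    rw [hBapp, hBapp]
    exact h
  have hT : ∀ (m : F) (v : Fin n → F),
      Matrix.toLin' (X - m • (1 : Matrix (Fin n) (Fin n) F)) v = X *ᵥ v - m • v := by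
    intro m v
    rw [Matrix.toLin'_apply, Matrix.sub_mulVec, Matrix.smul_mulVec, Matrix.one_mulVec]
  have hc0 : (c : F) ≠ 0 := c.ne_zero
  have claim1 : ∀ m : F, m ≠ 0 →
      ∀ v ∈ LinearMap.ker (Matrix.toLin' (X - ((c : F) / m) • (1 : Matrix (Fin n) (Fin n) F))),
      ∀ w : Fin n → F, B (Matrix.toLin' (X - m • (1 : Matrix (Fin n) (Fin n) F)) w) v = 0 := by
    intro m hm v hv w
    rw [LinearMap.mem_ker, hT, sub_eq_zero] at hv
    have h1 := hXB w v
    rw [hv, map_smul, smul_eq_mul] at h1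
    have h2 : B (X *ᵥ w) v = m * B w v := by
      have h3 : (c : F) / m ≠ 0 := div_ne_zero hc0 hm
      apply mul_left_cancel₀ h3
      rw [h1]
      field_simp
    rw [hT, map_sub, LinearMap.sub_apply, map_smul, LinearMap.smul_apply, smul_eq_mul, h2, sub_self]
  have hle : ∀ m : F, m ≠ 0 →
      Module.finrank F (LinearMap.ker (Matrix.toLin' (X - ((c : F) / m) • (1 : Matrix (Fin n) (Fin n) F)))) ≤
      Module.finrank F (LinearMap.ker (Matrix.toLin' (X - m • (1 : Matrix (Fin n) (Fin n) F)))) := by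
    intro m hm
    have h1 : LinearMap.ker (Matrix.toLin' (X - ((c : F) / m) • (1 : Matrix (Fin n) (Fin n) F))) ≤
        B.orthogonal (LinearMap.range (Matrix.toLin' (X - m • (1 : Matrix (Fin n) (Fin n) F)))) := by
      intro v hv
      rw [LinearMap.BilinForm.mem_orthogonal_iff]
      intro u hu
      obtain ⟨w, rfl⟩ := LinearMap.mem_range.mp hu
      exact claim1 m hm v hv w
    have h2 := Submodule.finrank_mono h1
    have h3 := LinearMap.BilinForm.finrank_orthogonal hBnd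
      (LinearMap.range (Matrix.toLin' (X - m • (1 : Matrix (Fin n) (Fin n) F))))
    have h4 := LinearMap.finrank_range_add_finrank_ker
      (Matrix.toLin' (X - m • (1 : Matrix (Fin n) (Fin n) F)))
    omega
  have hcl : (c : F) / l = l := by
    by_contra hne
    have h1 := hle l hl
    have h2 := hle ((c : F) / l) (div_ne_zero hc0 hl)
    have h3 : (c : F) / ((c : F) / l) = l := by field_simp
    rw [h3] at h2
    exact huniq _ hne (le_antisymm h1 h2)
  have hsup : LinearMap.ker (Matrix.toLin' (X - l • (1 : Matrix (Fin n) (Fin n) F))) ⊔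
      LinearMap.range (Matrix.toLin' (X - l • (1 : Matrix (Fin n) (Fin n) F))) = ⊤ := by
    apply Submodule.eq_top_of_finrank_eq
    have h1 := Submodule.finrank_sup_add_finrank_inf_eq
      (LinearMap.ker (Matrix.toLin' (X - l • (1 : Matrix (Fin n) (Fin n) F))))
      (LinearMap.range (Matrix.toLin' (X - l • (1 : Matrix (Fin n) (Fin n) F))))
    rw [hss, finrank_bot] at h1
    have h4 := LinearMap.finrank_range_add_finrank_ker
      (Matrix.toLin' (X - l • (1 : Matrix (Fin n) (Fin n) F)))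
    omega
  have hev := Cfsg.Agent.Helper27.SpE1.even_finrank B hBalt
    (LinearMap.ker (Matrix.toLin' (X - l • (1 : Matrix (Fin n) (Fin n) F)))) (by
      intro a ha ha0
      by_contra hno
      push_neg at hno
      apply ha0
      apply hsepR
      intro z
      have hz : z ∈ LinearMap.ker (Matrix.toLin' (X - l • (1 : Matrix (Fin n) (Fin n) F))) ⊔
          LinearMap.range (Matrix.toLin' (X - l • (1 : Matrix (Fin n) (Fin n) F))) := by
        rw [hsup]; exact Submodule.mem_top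
      obtain ⟨k, hk, u, hu, rfl⟩ := Submodule.mem_sup.mp hz
      obtain ⟨w, rfl⟩ := LinearMap.mem_range.mp hu
      have h1 : B k a = 0 := by rw [hskew, hno k hk, neg_zero]
      have h2 : B (Matrix.toLin' (X - l • (1 : Matrix (Fin n) (Fin n) F)) w) a = 0 := by
        have ha' : a ∈ LinearMap.ker
            (Matrix.toLin' (X - ((c : F) / l) • (1 : Matrix (Fin n) (Fin n) F))) := by
          rw [hcl]; exact ha
        exact claim1 l hl a ha' w
      rw [map_add, LinearMap.add_apply, h1, h2, add_zero])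
  exact (Nat.not_even_iff_odd.mpr hodd) hev

end Cfsg.Agent.Helper4.S5968K
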