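import Mathlib
import Cfsg.Prelude.Def_RootSubgroups
import Cfsg.Agent.Helper2.TvAbs
import Cfsg.Agent.Helper2.TvVec
import Cfsg.Agent.Helper2.TvAbs2

set_option autoImplicit false

/-!
Abstract root group calculus for square-zero matrices `X`, `Y` that need not satisfy `Y * X = 0`:
commuting pairs, the commutator case with `X * Y - Y * X`, and the `SL₂` pair attached to
`X * Y * X = X`, `Y * X * Y = Y`.
-/

namespace Cfsg.Agent.Helper4.SRAbs

open Matrix Cfsg.Agent.Helper2.TvAbs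
open scoped commutatorElement

section Ring
variable {R : Type*} [Ring R]

theorem comm_ring2 (P Q : R) (hPP : P * P = 0) (hQQ : Q * Q = 0) (hPQP : P * Q * P = 0)
    (hQPQ : Q * P * Q = 0) :
    (1 + P) * (1 + Q) * (1 + -P) * (1 + -Q) = 1 + (P * Q - Q * P) := by
  have e : (1 + P) * (1 + Q) * (1 + -P) * (1 + -Q)
      = 1 + (P * Q - Q * P) - P * P - Q * Q - P * Q * P - P * (Q * Q) + P * P * Q
        + Q * P * Q + P * Q * P * Q := by noncomm_ring
  rw [e, hPP, hQQ, hPQP, hQPQ]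
  simp

theorem conj_ring3 (Q X : R) (hQXQ : Q * X * Q = 0) :
    (1 + -Q) * X * (1 + Q) = X + X * Q - Q * X := by
  have e1 : (1 + -Q) * X * (1 + Q) = X + X * Q - Q * X - Q * X * Q := by noncomm_ring
  rw [e1, hQXQ, sub_zero]

end Ring

section Mat
variable {k : Type*} [Field k] {ι : Type*} [Fintype ι] [DecidableEq ι]
variable {G : Type*} [Group G] {em : G →* Matrix ι ι k}

theorem elt_comm2 {X Y : Matrix ι ι k} (hem : Function.Injective em) {a b : G} {c d : k}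
    (hc : em a = 1 + c • X) (hd : em b = 1 + d • Y) (hXY : X * Y = Y * X) :
    a * b = b * a := by
  apply hem
  rw [map_mul, map_mul, hc, hd]
  simp only [mul_add, add_mul, mul_one, one_mul, smul_mul_assoc, mul_smul_comm, hXY]
  module

theorem rg_commute2 {H K : Subgroup G} {X Y : Matrix ι ι k} (hem : Function.Injective em)
    (hH : IsRG em H X) (hK : IsRG em K Y) (hXY : X * Y = Y * X) : ⁅H, K⁆ = ⊥ := by
  rw [Subgroup.commutator_eq_bot_iff_le_centralizer]
  intro a ha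
  rw [Subgroup.mem_centralizer_iff]
  intro b hb
  obtain ⟨c, hc⟩ := (hH a).1 ha
  obtain ⟨d, hd⟩ := (hK b).1 hb
  exact (elt_comm2 hem hc hd hXY).symm

theorem comm_formula2 {X Y : Matrix ι ι k} {a b : G} {c d : k}
    (hc : em a = 1 + c • X) (hd : em b = 1 + d • Y) (hXX : X * X = 0) (hYY : Y * Y = 0)
    (hXYX : X * Y * X = 0) (hYXY : Y * X * Y = 0) :
    em (a * b * a⁻¹ * b⁻¹) = 1 + (c * d) • (X * Y - Y * X) := by
  have hP : (c • X) * (c • X) = 0 := smul_sq hXX c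
  have hQ : (d • Y) * (d • Y) = 0 := smul_sq hYY d
  have hPQP : (c • X) * (d • Y) * (c • X) = 0 := by
    rw [smul_triple, hXYX, smul_zero]
  have hQPQ : (d • Y) * (c • X) * (d • Y) = 0 := by
    rw [smul_triple, hYXY, smul_zero]
  have e : (c • X) * (d • Y) - (d • Y) * (c • X) = (c * d) • (X * Y - Y * X) := by
    simp only [smul_mul_assoc, mul_smul_comm, smul_smul, smul_sub]
    rw [mul_comm d c]
  rw [map_mul, map_mul, map_mul, em_inv hc hP, em_inv hd hQ, hc, hd,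
    comm_ring2 _ _ hP hQ hPQP hQPQ, e]

theorem comm_case2 (hem : Function.Injective em) {H K C : Subgroup G} {X Y : Matrix ι ι k}
    (hH : IsRG em H X) (hK : IsRG em K Y) (hC : IsRG em C (X * Y - Y * X))
    (fH : Full em X) (fK : Full em Y)
    (hXX : X * X = 0) (hYY : Y * Y = 0) (hXYX : X * Y * X = 0) (hYXY : Y * X * Y = 0) :
    ⁅H, K⁆ = C ∧ (∀ c ∈ C, ∀ x ∈ H ⊔ K, c * x = x * c) ∧
    (∀ a ∈ H, a ≠ 1 → Subgroup.closure ((fun b : G => a * b * a⁻¹ * b⁻¹) '' (K : Set G)) = C) ∧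
    (∀ b ∈ K, b ≠ 1 → Subgroup.closure ((fun a : G => a * b * a⁻¹ * b⁻¹) '' (H : Set G)) = C) := by
  have hmem : ∀ a ∈ H, ∀ b ∈ K, a * b * a⁻¹ * b⁻¹ ∈ C := by
    intro a ha b hb
    obtain ⟨c, hc⟩ := (hH a).1 ha
    obtain ⟨d, hd⟩ := (hK b).1 hb
    exact (hC _).2 ⟨c * d, comm_formula2 hc hd hXX hYY hXYX hYXY⟩
  have hcomm : ⁅H, K⁆ = C := by
    apply le_antisymm
    · rw [Subgroup.commutator_le]
      intro a ha b hb
      rw [commutatorElement_def]
      exact hmem a ha b hb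
    · intro t ht
      obtain ⟨e, he⟩ := (hC t).1 ht
      obtain ⟨a, ha⟩ := fH 1
      obtain ⟨b, hb⟩ := fK e
      have h1 : t = ⁅a, b⁆ := by
        apply hem
        rw [commutatorElement_def, comm_formula2 ha hb hXX hYY hXYX hYXY, he, one_mul]
      rw [h1]
      exact Subgroup.commutator_mem_commutator ((hH a).2 ⟨1, ha⟩) ((hK b).2 ⟨e, hb⟩)
  have z1 : (X * Y - Y * X) * X = 0 := by
    rw [sub_mul, hXYX, mul_assoc Y X X, hXX, mul_zero, sub_zero]
  have z2 : X * (X * Y - Y * X) = 0 := by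
    rw [mul_sub, ← mul_assoc X X Y, hXX, zero_mul, ← mul_assoc X Y X, hXYX, sub_zero]
  have z3 : (X * Y - Y * X) * Y = 0 := by
    rw [sub_mul, mul_assoc X Y Y, hYY, mul_zero, hYXY, sub_zero]
  have z4 : Y * (X * Y - Y * X) = 0 := by
    rw [mul_sub, ← mul_assoc Y X Y, hYXY, ← mul_assoc Y Y X, hYY, zero_mul, sub_zero]
  refine ⟨hcomm, ?_, ?_, ?_⟩
  · intro c hc x hx
    obtain ⟨e, he⟩ := (hC c).1 hc
    have h1 : H ⊔ K ≤ Subgroup.centralizer {c} := by
      apply sup_le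
      · intro a ha
        obtain ⟨a0, ha0⟩ := (hH a).1 ha
        rw [Subgroup.mem_centralizer_iff]
        intro h hh
        rw [Set.mem_singleton_iff] at hh
        rw [hh]
        exact elt_comm hem he ha0 z1 z2
      · intro b hb
        obtain ⟨b0, hb0⟩ := (hK b).1 hb
        rw [Subgroup.mem_centralizer_iff]
        intro h hh
        rw [Set.mem_singleton_iff] at hh
        rw [hh]
        exact elt_comm hem he hb0 z3 z4
    have h2 := h1 hx
    rw [Subgroup.mem_centralizer_iff] at h2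
    exact h2 c (Set.mem_singleton c)
  · intro a ha ha1
    obtain ⟨a0, ha0⟩ := (hH a).1 ha
    have hne0 : a0 ≠ 0 := coef_ne hem ha0 ha1
    apply le_antisymm
    · rw [Subgroup.closure_le]
      rintro _ ⟨b, hb, rfl⟩
      exact hmem a ha b hb
    · intro t ht
      obtain ⟨e, he⟩ := (hC t).1 ht
      obtain ⟨b, hb⟩ := fK (a0⁻¹ * e)
      apply Subgroup.subset_closure
      refine ⟨b, (hK b).2 ⟨_, hb⟩, hem ?_⟩
      show em (a * b * a⁻¹ * b⁻¹) = em t
      rw [comm_formula2 ha0 hb hXX hYY hXYX hYXY, he, ← mul_assoc, mul_inv_cancel₀ hne0, one_mul]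
  · intro b hb hb1
    obtain ⟨b0, hb0⟩ := (hK b).1 hb
    have hne0 : b0 ≠ 0 := coef_ne hem hb0 hb1
    apply le_antisymm
    · rw [Subgroup.closure_le]
      rintro _ ⟨a, ha, rfl⟩
      exact hmem a ha b hb
    · intro t ht
      obtain ⟨e, he⟩ := (hC t).1 ht
      obtain ⟨a, ha⟩ := fH (e * b0⁻¹)
      apply Subgroup.subset_closure
      refine ⟨a, (hH a).2 ⟨_, ha⟩, hem ?_⟩
      show em (a * b * a⁻¹ * b⁻¹) = em t
      rw [comm_formula2 ha hb0 hXX hYY hXYX hYXY, he, mul_assoc, inv_mul_cancel₀ hne0, mul_one]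

theorem not_cond_comm_case2 {H K : Subgroup G} {X Y : Matrix ι ι k}
    (hH : IsRG em H X) (hK : IsRG em K Y) (fH : Full em X)
    (hXX : X * X = 0) (hYY : Y * Y = 0) (hXYX : X * Y * X = 0) (hYXY : Y * X * Y = 0)
    (hXY : X * Y ≠ 0) :
    ¬ Cfsg.RankOneCondition H K := by
  intro hcond
  have hX0 : X ≠ 0 := by
    intro h; apply hXY; rw [h, zero_mul]
  obtain ⟨a, ea⟩ := fH 1
  have haH : a ∈ H := (hH a).2 ⟨1, ea⟩
  rw [one_smul] at ea
  have ha1 : a ≠ 1 := by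
    intro h
    rw [h, map_one] at ea
    exact hX0 (one_add_eq ea)
  obtain ⟨b, hbK, hb1, e⟩ := hcond a haH ha1
  obtain ⟨b0, eb⟩ := (hK b).1 hbK
  obtain ⟨Q, hQ⟩ : ∃ Q, Q = b0 • Y := ⟨_, rfl⟩
  rw [← hQ] at eb
  have hQQ : Q * Q = 0 := by rw [hQ]; exact smul_sq hYY b0
  have hQXQ : Q * X * Q = 0 := by
    simp only [hQ, smul_mul_assoc, mul_smul_comm, hYXY, smul_zero]
  have hXQX : X * Q * X = 0 := by
    simp only [hQ, smul_mul_assoc, mul_smul_comm, hXYX, smul_zero]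
  have hQY : Q * Y = 0 := by rw [hQ, smul_mul_assoc, hYY, smul_zero]
  have hXQY : X * Q * Y = 0 := by rw [mul_assoc, hQY, mul_zero]
  have hQXY : Q * X * Y = 0 := by
    simp only [hQ, smul_mul_assoc, hYXY, smul_zero]
  have h1 := rg_conj hH b⁻¹
  have h2 := rg_conj hK a⁻¹
  rw [inv_inv, em_inv eb hQQ, eb] at h1
  rw [inv_inv, em_inv ea hXX, ea] at h2
  have f1 : Full em ((1 + -Q) * X * (1 + Q)) := by
    have h3 := full_conj fH b⁻¹
    rw [inv_inv, em_inv eb hQQ, eb] at h3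
    exact h3
  obtain ⟨c, hc⟩ := rg_eq_imp h1 h2 f1 e
  rw [conj_ring3 Q X hQXQ, conj_ring3 X Y hXYX] at hc
  have E1 : X * (X + X * Q - Q * X) = X * (c • (Y + Y * X - X * Y)) := by rw [hc]
  have l1 : X * (X + X * Q - Q * X) = 0 := by
    rw [mul_sub, mul_add, hXX, ← mul_assoc X X Q, hXX, zero_mul, add_zero, ← mul_assoc X Q X,
      hXQX, sub_zero]
  have r1 : X * (c • (Y + Y * X - X * Y)) = c • (X * Y) := by
    rw [mul_smul_comm, mul_sub, mul_add, ← mul_assoc X Y X, hXYX, add_zero, ← mul_assoc X X Y,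
      hXX, zero_mul, sub_zero]
  rw [l1, r1] at E1
  have hc0 : c = 0 := by
    rcases smul_eq_zero.1 E1.symm with h | h
    · exact h
    · exact absurd h hXY
  rw [hc0, zero_smul] at hc
  have E2 : (X + X * Q - Q * X) * Y = 0 := by rw [hc, zero_mul]
  rw [sub_mul, add_mul, hXQY, hQXY, add_zero, sub_zero] at E2
  exact hXY E2

/-! ### the `SL₂` pair -/

/-- The image of a `2 × 2` matrix under the matrix units `X * Y`, `X`, `Y`, `Y * X`. -/
def Lf (X Y : Matrix ι ι k) (N : Matrix (Fin 2) (Fin 2) k) : Matrix ι ι k :=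
  N 0 0 • (X * Y) + N 0 1 • X + N 1 0 • Y + N 1 1 • (Y * X)

theorem Lf_zero (X Y : Matrix ι ι k) : Lf X Y 0 = 0 := by
  simp [Lf]

theorem Lf_add (X Y : Matrix ι ι k) (M N : Matrix (Fin 2) (Fin 2) k) :
    Lf X Y (M + N) = Lf X Y M + Lf X Y N := by
  simp only [Lf, Matrix.add_apply, add_smul]
  abel

theorem Lf_mul {X Y : Matrix ι ι k} (hXX : X * X = 0) (hYY : Y * Y = 0)
    (hXYX : X * Y * X = X) (hYXY : Y * X * Y = Y) (M N : Matrix (Fin 2) (Fin 2) k) :
    Lf X Y (M * N) = Lf X Y M * Lf X Y N := by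
  have r1 : X * Y * (X * Y) = X * Y := by rw [← mul_assoc, hXYX]
  have r2 : X * Y * Y = 0 := by rw [mul_assoc, hYY, mul_zero]
  have r3 : X * Y * (Y * X) = 0 := by rw [← mul_assoc, r2, zero_mul]
  have r4 : X * (X * Y) = 0 := by rw [← mul_assoc, hXX, zero_mul]
  have r5 : X * (Y * X) = X := by rw [← mul_assoc, hXYX]
  have r6 : Y * (X * Y) = Y := by rw [← mul_assoc, hYXY]
  have r7 : Y * (Y * X) = 0 := by rw [← mul_assoc, hYY, zero_mul]
  have r8 : Y * X * X = 0 := by rw [mul_assoc, hXX, mul_zero]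
  have r9 : Y * X * (X * Y) = 0 := by rw [← mul_assoc, r8, zero_mul]
  have r10 : Y * X * (Y * X) = Y * X := by rw [← mul_assoc, hYXY]
  simp only [Lf, Matrix.mul_apply, Fin.sum_univ_two, add_mul, mul_add, smul_mul_assoc,
    mul_smul_comm, smul_smul, r1, r2, r3, r4, r5, r6, r7, r8, r9, r10, hXX, hYY, hXYX, hYXY,
    smul_zero, add_zero, zero_add]
  module

theorem Lf_inj {X Y : Matrix ι ι k} (hXX : X * X = 0) (hYY : Y * Y = 0)
    (hXYX : X * Y * X = X) (hYXY : Y * X * Y = Y) (hX0 : X ≠ 0)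
    (N : Matrix (Fin 2) (Fin 2) k) (h : Lf X Y N = 0) : N = 0 := by
  have hY0 : Y ≠ 0 := by
    intro h'; apply hX0; rw [← hXYX, h', mul_zero, zero_mul]
  have hXY0 : X * Y ≠ 0 := by
    intro h'; apply hX0; rw [← hXYX, h', zero_mul]
  have hYX0 : Y * X ≠ 0 := by
    intro h'; apply hY0; rw [← hYXY, h', zero_mul]
  have r2 : X * Y * Y = 0 := by rw [mul_assoc, hYY, mul_zero]
  have r4 : X * (X * Y) = 0 := by rw [← mul_assoc, hXX, zero_mul]
  have r5 : X * (Y * X) = X := by rw [← mul_assoc, hXYX]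
  have r6 : Y * (X * Y) = Y := by rw [← mul_assoc, hYXY]
  have r7 : Y * (Y * X) = 0 := by rw [← mul_assoc, hYY, zero_mul]
  have r8 : Y * X * X = 0 := by rw [mul_assoc, hXX, mul_zero]
  have e10 : N 1 0 • X = 0 := by
    have h1 : X * Lf X Y N * X = N 1 0 • X := by
      simp only [Lf, mul_add, add_mul, mul_smul_comm, smul_mul_assoc, r4, r5, hXX, hXYX,
        mul_zero, zero_mul, smul_zero, add_zero, zero_add]
    rw [← h1, h, mul_zero, zero_mul]
  have e01 : N 0 1 • Y = 0 := by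
    have h1 : Y * Lf X Y N * Y = N 0 1 • Y := by
      simp only [Lf, mul_add, add_mul, mul_smul_comm, smul_mul_assoc, r6, r7, hYY, hYXY,
        mul_zero, zero_mul, smul_zero, add_zero, zero_add]
    rw [← h1, h, mul_zero, zero_mul]
  have e11 : N 1 1 • (X * Y) = 0 := by
    have h1 : X * Lf X Y N * Y = N 1 1 • (X * Y) := by
      simp only [Lf, mul_add, add_mul, mul_smul_comm, smul_mul_assoc, r4, r5, r2, hXX,
        mul_zero, zero_mul, smul_zero, add_zero, zero_add]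
    rw [← h1, h, mul_zero, zero_mul]
  have e00 : N 0 0 • (Y * X) = 0 := by
    have h1 : Y * Lf X Y N * X = N 0 0 • (Y * X) := by
      simp only [Lf, mul_add, add_mul, mul_smul_comm, smul_mul_assoc, r6, r7, r8, hYY,
        mul_zero, zero_mul, smul_zero, add_zero, zero_add]
    rw [← h1, h, mul_zero, zero_mul]
  have n10 : N 1 0 = 0 := (smul_eq_zero.1 e10).resolve_right hX0
  have n01 : N 0 1 = 0 := (smul_eq_zero.1 e01).resolve_right hY0
  have n11 : N 1 1 = 0 := (smul_eq_zero.1 e11).resolve_right hXY0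
  have n00 : N 0 0 = 0 := (smul_eq_zero.1 e00).resolve_right hYX0
  have key : ∀ i j : Fin 2, N i j = 0 := by
    rw [Fin.forall_fin_two]
    constructor <;> rw [Fin.forall_fin_two]
    · exact ⟨n00, n01⟩
    · exact ⟨n10, n11⟩
  ext i j
  exact key i j

/-- `M ↦ 1 + Lf (M - 1)`, a monoid hom. -/
def rhoL (X Y : Matrix ι ι k) (hXX : X * X = 0) (hYY : Y * Y = 0)
    (hXYX : X * Y * X = X) (hYXY : Y * X * Y = Y) :
    Matrix (Fin 2) (Fin 2) k →* Matrix ι ι k where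
  toFun M := 1 + Lf X Y (M - 1)
  map_one' := by rw [sub_self, Lf_zero, add_zero]
  map_mul' := by
    intro M N
    have h2 : M * N - 1 = (M - 1) + (N - 1) + (M - 1) * (N - 1) := by noncomm_ring
    show 1 + Lf X Y (M * N - 1) = (1 + Lf X Y (M - 1)) * (1 + Lf X Y (N - 1))
    rw [one_add_mul_one_add, h2, Lf_add, Lf_add, Lf_mul hXX hYY hXYX hYXY]
    abel

theorem rhoL_apply (X Y : Matrix ι ι k) (hXX : X * X = 0) (hYY : Y * Y = 0)
    (hXYX : X * Y * X = X) (hYXY : Y * X * Y = Y) (M : Matrix (Fin 2) (Fin 2) k) :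
    rhoL X Y hXX hYY hXYX hYXY M = 1 + Lf X Y (M - 1) := rfl

theorem rhoL_mem (hem : Function.Injective em) {X Y : Matrix ι ι k}
    (fH : Full em X) (fK : Full em Y)
    (hXX : X * X = 0) (hYY : Y * Y = 0) (hXYX : X * Y * X = X) (hYXY : Y * X * Y = Y)
    (M : Matrix.SpecialLinearGroup (Fin 2) k) :
    rhoL X Y hXX hYY hXYX hYXY (M : Matrix (Fin 2) (Fin 2) k) ∈ MonoidHom.mrange em := by
  obtain ⟨K', hK'⟩ : ∃ K' : Subgroup (Matrix.SpecialLinearGroup (Fin 2) k),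
      ∀ N, N ∈ K' ↔ rhoL X Y hXX hYY hXYX hYXY (N : Matrix (Fin 2) (Fin 2) k)
        ∈ MonoidHom.mrange em := by
    refine ⟨{ carrier := {N | rhoL X Y hXX hYY hXYX hYXY (N : Matrix (Fin 2) (Fin 2) k)
                ∈ MonoidHom.mrange em}
              mul_mem' := ?_
              one_mem' := ?_
              inv_mem' := ?_ }, fun N => Iff.rfl⟩
    · intro A B hA hB
      show rhoL X Y hXX hYY hXYX hYXY ((A * B : Matrix.SpecialLinearGroup (Fin 2) k) :
        Matrix (Fin 2) (Fin 2) k) ∈ MonoidHom.mrange em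
      rw [Matrix.SpecialLinearGroup.coe_mul, map_mul]
      exact (MonoidHom.mrange em).mul_mem hA hB
    · show rhoL X Y hXX hYY hXYX hYXY ((1 : Matrix.SpecialLinearGroup (Fin 2) k) :
        Matrix (Fin 2) (Fin 2) k) ∈ MonoidHom.mrange em
      rw [Matrix.SpecialLinearGroup.coe_one, map_one]
      exact (MonoidHom.mrange em).one_mem
    · intro A hA
      show rhoL X Y hXX hYY hXYX hYXY ((A⁻¹ : Matrix.SpecialLinearGroup (Fin 2) k) :
        Matrix (Fin 2) (Fin 2) k) ∈ MonoidHom.mrange em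
      obtain ⟨g, hg⟩ := MonoidHom.mem_mrange.1 hA
      refine MonoidHom.mem_mrange.2 ⟨g⁻¹, ?_⟩
      have h1 : rhoL X Y hXX hYY hXYX hYXY ((A⁻¹ : Matrix.SpecialLinearGroup (Fin 2) k) :
          Matrix (Fin 2) (Fin 2) k) * em g = 1 := by
        rw [hg, ← map_mul, ← Matrix.SpecialLinearGroup.coe_mul, inv_mul_cancel,
          Matrix.SpecialLinearGroup.coe_one, map_one]
      calc em g⁻¹ = (rhoL X Y hXX hYY hXYX hYXY ((A⁻¹ : Matrix.SpecialLinearGroup (Fin 2) k) :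
            Matrix (Fin 2) (Fin 2) k) * em g) * em g⁻¹ := by rw [h1, one_mul]
        _ = rhoL X Y hXX hYY hXYX hYXY ((A⁻¹ : Matrix.SpecialLinearGroup (Fin 2) k) :
            Matrix (Fin 2) (Fin 2) k) := by rw [mul_assoc, em_mul_inv, mul_one]
  have h01 : ∀ a : k, rhoL X Y hXX hYY hXYX hYXY
      (1 + Matrix.single (0 : Fin 2) (1 : Fin 2) a) ∈ MonoidHom.mrange em := by
    intro a
    obtain ⟨t, ht⟩ := fH a
    refine MonoidHom.mem_mrange.2 ⟨t, ?_⟩
    rw [ht, rhoL_apply, add_sub_cancel_left]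
    congr 1
    simp [Lf, Matrix.single_apply]
  have h10 : ∀ a : k, rhoL X Y hXX hYY hXYX hYXY
      (1 + Matrix.single (1 : Fin 2) (0 : Fin 2) a) ∈ MonoidHom.mrange em := by
    intro a
    obtain ⟨t, ht⟩ := fK a
    refine MonoidHom.mem_mrange.2 ⟨t, ?_⟩
    rw [ht, rhoL_apply, add_sub_cancel_left]
    congr 1
    simp [Lf, Matrix.single_apply]
  have htop : K' = ⊤ := by
    apply Cfsg.Agent.Helper2.SLGen.eq_top_of_transvection_mem
    intro i j hij a
    rw [hK', Matrix.SpecialLinearGroup.transvection_coe]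
    fin_cases i <;> fin_cases j
    · exact absurd rfl hij
    · exact h01 a
    · exact h10 a
    · exact absurd rfl hij
  have hM : M ∈ K' := by rw [htop]; exact Subgroup.mem_top M
  exact (hK' M).1 hM

theorem psl2_abs (hem : Function.Injective em) {H K : Subgroup G} {X Y : Matrix ι ι k}
    (hH : IsRG em H X) (hK : IsRG em K Y) (fH : Full em X) (fK : Full em Y)
    (hXX : X * X = 0) (hYY : Y * Y = 0) (hXYX : X * Y * X = X) (hYXY : Y * X * Y = Y)
    (hX0 : X ≠ 0) : Cfsg.IsPSL2PairOver k H K := by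
  obtain ⟨ρf, hρf⟩ : ∃ ρf : SpecialLinearGroup (Fin 2) k → G, ∀ M, em (ρf M)
      = rhoL X Y hXX hYY hXYX hYXY (M : Matrix (Fin 2) (Fin 2) k) :=
    ⟨fun M => Classical.choose (MonoidHom.mem_mrange.1
        (rhoL_mem hem fH fK hXX hYY hXYX hYXY M)),
      fun M => Classical.choose_spec (MonoidHom.mem_mrange.1
        (rhoL_mem hem fH fK hXX hYY hXYX hYXY M))⟩
  obtain ⟨ρ, hρ⟩ : ∃ ρ : SpecialLinearGroup (Fin 2) k →* G, ∀ M, em (ρ M)
      = 1 + Lf X Y ((M : Matrix (Fin 2) (Fin 2) k) - 1) := by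
    refine ⟨MonoidHom.mk' ρf ?_, fun M => hρf M⟩
    intro M N
    apply hem
    rw [map_mul, hρf, hρf, hρf, Matrix.SpecialLinearGroup.coe_mul, map_mul]
  have hinj : ∀ M : SpecialLinearGroup (Fin 2) k, ρ M = 1 → M = 1 := by
    intro M hM
    have h1 : em (ρ M) = 1 := by rw [hM, map_one]
    rw [hρ] at h1
    have h2 : Lf X Y ((M : Matrix (Fin 2) (Fin 2) k) - 1) = 0 := one_add_eq h1.symm
    have hN0 := Lf_inj hXX hYY hXYX hYXY hX0 _ h2
    apply Subtype.ext
    show (M : Matrix (Fin 2) (Fin 2) k) = 1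
    exact sub_eq_zero.1 hN0
  have hupper : ∀ g : SpecialLinearGroup (Fin 2) k, (g : Matrix (Fin 2) (Fin 2) k) 1 0 = 0 →
      (g : Matrix (Fin 2) (Fin 2) k) 0 0 = 1 → (g : Matrix (Fin 2) (Fin 2) k) 1 1 = 1 →
      em (ρ g) = 1 + (g : Matrix (Fin 2) (Fin 2) k) 0 1 • X := by
    intro g h10 h00 h11
    rw [hρ]
    congr 1
    simp [Lf, h10, h00, h11]
  have hlower : ∀ g : SpecialLinearGroup (Fin 2) k, (g : Matrix (Fin 2) (Fin 2) k) 0 1 = 0 →
      (g : Matrix (Fin 2) (Fin 2) k) 0 0 = 1 → (g : Matrix (Fin 2) (Fin 2) k) 1 1 = 1 →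
      em (ρ g) = 1 + (g : Matrix (Fin 2) (Fin 2) k) 1 0 • Y := by
    intro g h01 h00 h11
    rw [hρ]
    congr 1
    simp [Lf, h01, h00, h11]
  have hup : (Cfsg.upperUnipotentSL2 k).map ρ = H := by
    apply le_antisymm
    · rw [Cfsg.upperUnipotentSL2, MonoidHom.map_closure, Subgroup.closure_le]
      rintro _ ⟨g, ⟨h10, h00, h11⟩, rfl⟩
      exact (hH _).2 ⟨_, hupper g h10 h00 h11⟩
    · intro t ht
      obtain ⟨c, hc⟩ := (hH t).1 ht
      have e01 : ((upT c : SpecialLinearGroup (Fin 2) k) : Matrix (Fin 2) (Fin 2) k) 0 1 = c := rfl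
      refine Subgroup.mem_map.2 ⟨upT c, Subgroup.subset_closure ⟨rfl, rfl, rfl⟩, hem ?_⟩
      rw [hupper (upT c) rfl rfl rfl, e01, hc]
  have hlow : (Cfsg.lowerUnipotentSL2 k).map ρ = K := by
    apply le_antisymm
    · rw [Cfsg.lowerUnipotentSL2, MonoidHom.map_closure, Subgroup.closure_le]
      rintro _ ⟨g, ⟨h01, h00, h11⟩, rfl⟩
      exact (hK _).2 ⟨_, hlower g h01 h00 h11⟩
    · intro t ht
      obtain ⟨c, hc⟩ := (hK t).1 ht
      have e10 : ((loT c : SpecialLinearGroup (Fin 2) k) : Matrix (Fin 2) (Fin 2) k) 1 0 = c := rfl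
      refine Subgroup.mem_map.2 ⟨loT c, Subgroup.subset_closure ⟨rfl, rfl, rfl⟩, hem ?_⟩
      rw [hlower (loT c) rfl rfl rfl, e10, hc]
  refine ⟨ρ, ?_, ?_, hup, hlow⟩
  · rw [MonoidHom.range_eq_map, ← sl2_gen k, Subgroup.map_sup, hup, hlow]
  · intro M hM
    rw [hinj M (MonoidHom.mem_ker.1 hM)]
    exact Subgroup.one_mem _

theorem psl2_abs_gamma (hem : Function.Injective em) {H K : Subgroup G} {X Y : Matrix ι ι k}
    (hH : IsRG em H X) (hK : IsRG em K Y) (fH : Full em X) (fK : Full em Y)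
    (hXX : X * X = 0) (hYY : Y * Y = 0) (hX0 : X ≠ 0) {γ : k} (hγ : γ ≠ 0)
    (hXYX : X * Y * X = γ • X) (hYXY : Y * X * Y = γ • Y) :
    Cfsg.IsPSL2PairOver k H K := by
  have hK' : IsRG em K (γ⁻¹ • Y) := rg_smul hK (inv_ne_zero hγ)
  have fK' : Full em (γ⁻¹ • Y) := by
    intro c
    obtain ⟨t, ht⟩ := fK (c * γ⁻¹)
    exact ⟨t, by rw [ht, smul_smul]⟩
  refine psl2_abs hem hH hK' fH fK' hXX (smul_sq hYY _) ?_ ?_ hX0
  · rw [mul_smul_comm, smul_mul_assoc, hXYX, smul_smul, inv_mul_cancel₀ hγ, one_smul]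
  · have e : (γ⁻¹ • Y) * X * (γ⁻¹ • Y) = (γ⁻¹ * γ⁻¹) • (Y * X * Y) := by
      simp only [smul_mul_assoc, mul_smul_comm, smul_smul]
    rw [e, hYXY, smul_smul, mul_assoc, inv_mul_cancel₀ hγ, mul_one]

end Mat

end Cfsg.Agent.Helper4.SRAbs
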