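import Mathlib
import Cfsg.Agent.Helper4.OSiegel2

set_option autoImplicit false
open Cfsg

/-!
Geometry of the Siegel transvection groups `T(ℓ)` of singular lines of a non-degenerate quadratic
form: the nilpotent matrix `Xm p r`, its products, the fixed-point characterisation and the
connectedness of the opposition graph on singular lines.
-/

namespace Cfsg.Agent.Helper4.SiegelRoot

open Matrix Cfsg.Agent.Helper4.OrthPlane Cfsg.Agent.Helper4.CartanD Cfsg.Agent.Helper4.Dickson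
  Cfsg.Agent.Helper4.Spinor Cfsg.Agent.Helper4.OCenter Cfsg.Agent.Helper4.OSiegel

variable {ι : Type} [Fintype ι] [DecidableEq ι] {F : Type*} [Field F]

section quad

variable (Q : (ι → F) → F)

/-- The nilpotent matrix `x ↦ B(r,x) p - B(p,x) r` of the line `⟨p, r⟩`. -/
noncomputable def Xm (hQ : Cfsg.Geo.IsNondegenerateQuadraticForm Q) (p r : ι → F) :
    Matrix ι ι F :=
  Matrix.vecMulVec p (dualVec (Bf Q hQ r)) - Matrix.vecMulVec r (dualVec (Bf Q hQ p))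

theorem Xm_mulVec (hQ : Cfsg.Geo.IsNondegenerateQuadraticForm Q) (p r x : ι → F) :
    Xm Q hQ p r *ᵥ x = Bf Q hQ r x • p - Bf Q hQ p x • r := by
  unfold Xm
  simp only [Matrix.sub_mulVec, Matrix.vecMulVec_mulVec, dualVec_dot]
  ext i
  simp only [Pi.sub_apply, Pi.smul_apply, smul_eq_mul, MulOpposite.smul_eq_mul_unop,
    MulOpposite.unop_op]
  ring

theorem Xm_sq (hQ : Cfsg.Geo.IsNondegenerateQuadraticForm Q) (p r : ι → F) (hp : Q p = 0)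
    (hr : Q r = 0) (hpr : Bf Q hQ p r = 0) : Xm Q hQ p r * Xm Q hQ p r = 0 := by
  apply mat_ext
  intro x
  have hpp : Bf Q hQ p p = 0 := by rw [Bf_self Q hQ, hp, mul_zero]
  have hrr : Bf Q hQ r r = 0 := by rw [Bf_self Q hQ, hr, mul_zero]
  have hrp : Bf Q hQ r p = 0 := by rw [Bf_symm Q hQ]; exact hpr
  rw [← Matrix.mulVec_mulVec, Xm_mulVec Q hQ p r x, Xm_mulVec, Matrix.zero_mulVec]
  simp only [map_sub, map_smul, smul_eq_mul, hpp, hrr, hpr, hrp, mul_zero, sub_zero, zero_smul]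

theorem one_add_Xm (hQ : Cfsg.Geo.IsNondegenerateQuadraticForm Q) (p r : ι → F) (hr : Q r = 0)
    (c : F) : 1 + c • Xm Q hQ p r = Ev Q hQ p (c • r) := by
  apply mat_ext
  intro x
  rw [Matrix.add_mulVec, Matrix.one_mulVec, Matrix.smul_mulVec, Xm_mulVec, Ev_mulVec, hQ.smul, hr]
  simp only [map_smul, LinearMap.smul_apply, smul_eq_mul, mul_zero, zero_mul, zero_smul,
    sub_zero]
  module

theorem Xm_conj (hQ : Cfsg.Geo.IsNondegenerateQuadraticForm Q) (A A' : Matrix ι ι F)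
    (hA : ∀ x, Q (A *ᵥ x) = Q x) (hAA' : A * A' = 1) (p r : ι → F) :
    A * Xm Q hQ p r * A' = Xm Q hQ (A *ᵥ p) (A *ᵥ r) := by
  apply mat_ext
  intro x
  have h1 : ∀ y, Bf Q hQ y (A' *ᵥ x) = Bf Q hQ (A *ᵥ y) x := by
    intro y
    rw [← B_iso Q hQ A hA y (A' *ᵥ x), Matrix.mulVec_mulVec, hAA', Matrix.one_mulVec]
  rw [← Matrix.mulVec_mulVec, ← Matrix.mulVec_mulVec, Xm_mulVec, Xm_mulVec, h1, h1]
  simp only [Matrix.mulVec_sub, Matrix.mulVec_smul]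

theorem Xm_triple (hQ : Cfsg.Geo.IsNondegenerateQuadraticForm Q) (p₁ r₁ p₂ r₂ : ι → F) :
    Xm Q hQ p₁ r₁ * Xm Q hQ p₂ r₂ * Xm Q hQ p₁ r₁
      = (Bf Q hQ p₁ r₂ * Bf Q hQ r₁ p₂ - Bf Q hQ p₁ p₂ * Bf Q hQ r₁ r₂) • Xm Q hQ p₁ r₁ := by
  apply mat_ext
  intro x
  rw [← Matrix.mulVec_mulVec, ← Matrix.mulVec_mulVec, Matrix.smul_mulVec,
    Xm_mulVec Q hQ p₁ r₁ x, Xm_mulVec Q hQ p₂ r₂, Xm_mulVec Q hQ p₁ r₁]
  simp only [map_add, map_sub, map_smul, LinearMap.add_apply, LinearMap.sub_apply,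
    LinearMap.smul_apply, smul_eq_mul, Bf_symm Q hQ r₂ p₁, Bf_symm Q hQ p₂ p₁,
    Bf_symm Q hQ r₂ r₁, Bf_symm Q hQ p₂ r₁]
  module

theorem Xm_triple' (hQ : Cfsg.Geo.IsNondegenerateQuadraticForm Q) (p₁ r₁ p₂ r₂ : ι → F) :
    Xm Q hQ p₂ r₂ * Xm Q hQ p₁ r₁ * Xm Q hQ p₂ r₂
      = (Bf Q hQ p₁ r₂ * Bf Q hQ r₁ p₂ - Bf Q hQ p₁ p₂ * Bf Q hQ r₁ r₂) • Xm Q hQ p₂ r₂ := by
  rw [Xm_triple]
  congr 1
  rw [Bf_symm Q hQ p₂ r₁, Bf_symm Q hQ r₂ p₁, Bf_symm Q hQ p₂ p₁, Bf_symm Q hQ r₂ r₁]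
  ring

theorem Xm_mul_zero (hQ : Cfsg.Geo.IsNondegenerateQuadraticForm Q) (p₁ r₁ p₂ r₂ : ι → F)
    (ha : Bf Q hQ p₁ p₂ = 0) (hb : Bf Q hQ p₁ r₂ = 0) (hc : Bf Q hQ r₁ p₂ = 0)
    (hd : Bf Q hQ r₁ r₂ = 0) : Xm Q hQ p₁ r₁ * Xm Q hQ p₂ r₂ = 0 := by
  apply mat_ext
  intro x
  rw [← Matrix.mulVec_mulVec, Xm_mulVec Q hQ p₂ r₂ x, Xm_mulVec, Matrix.zero_mulVec]
  simp only [map_sub, map_smul, smul_eq_mul, ha, hb, hc, hd, mul_zero, sub_zero, zero_smul]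

theorem Xm_comm (hQ : Cfsg.Geo.IsNondegenerateQuadraticForm Q) (p₁ r₁ p₂ r₂ : ι → F)
    (a β κ : F) (ha : Bf Q hQ p₁ p₂ = a) (hb : Bf Q hQ p₁ r₂ = a * β)
    (hc : Bf Q hQ r₁ p₂ = a * κ) (hd : Bf Q hQ r₁ r₂ = a * β * κ) :
    Xm Q hQ p₁ r₁ * Xm Q hQ p₂ r₂ - Xm Q hQ p₂ r₂ * Xm Q hQ p₁ r₁
      = (-a) • Xm Q hQ (κ • p₁ - r₁) (β • p₂ - r₂) := by
  have ha' : Bf Q hQ p₂ p₁ = a := by rw [Bf_symm Q hQ]; exact ha
  have hb' : Bf Q hQ r₂ p₁ = a * β := by rw [Bf_symm Q hQ]; exact hb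
  have hc' : Bf Q hQ p₂ r₁ = a * κ := by rw [Bf_symm Q hQ]; exact hc
  have hd' : Bf Q hQ r₂ r₁ = a * β * κ := by rw [Bf_symm Q hQ]; exact hd
  apply mat_ext
  intro x
  rw [Matrix.sub_mulVec, ← Matrix.mulVec_mulVec, ← Matrix.mulVec_mulVec, Matrix.smul_mulVec,
    Xm_mulVec Q hQ (κ • p₁ - r₁) (β • p₂ - r₂) x, Xm_mulVec Q hQ p₂ r₂ x,
    Xm_mulVec Q hQ p₁ r₁ x, Xm_mulVec Q hQ p₁ r₁, Xm_mulVec Q hQ p₂ r₂]
  simp only [map_add, map_sub, map_smul, LinearMap.add_apply, LinearMap.sub_apply,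
    LinearMap.smul_apply, smul_eq_mul, ha, hb, hc, hd, ha', hb', hc', hd']
  module

theorem Xm_swap (hQ : Cfsg.Geo.IsNondegenerateQuadraticForm Q) (p r : ι → F) :
    Xm Q hQ r p = (-1 : F) • Xm Q hQ p r := by
  unfold Xm
  module

theorem Xm_rebase (hQ : Cfsg.Geo.IsNondegenerateQuadraticForm Q) (p r : ι → F) (l : F) :
    Xm Q hQ p (r - l • p) = Xm Q hQ p r := by
  apply mat_ext
  intro x
  rw [Xm_mulVec, Xm_mulVec]
  simp only [map_add, map_sub, map_smul, LinearMap.add_apply, LinearMap.sub_apply,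
    LinearMap.smul_apply, smul_eq_mul]
  module

theorem indep_of_not_mul {u v : ι → F} (hv : v ≠ 0) (h : ∀ μ : F, u ≠ μ • v) :
    ∀ s t : F, s • u + t • v = 0 → s = 0 ∧ t = 0 := by
  intro s t hst
  by_cases hs : s = 0
  · rw [hs, zero_smul, zero_add] at hst
    exact ⟨hs, (smul_eq_zero.1 hst).resolve_right hv⟩
  · exfalso
    apply h (-(s⁻¹ * t))
    have h1 : s⁻¹ • (s • u + t • v) = 0 := by rw [hst, smul_zero]
    rw [smul_add, smul_smul, smul_smul, inv_mul_cancel₀ hs, one_smul] at h1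
    rw [neg_smul]
    exact eq_neg_of_add_eq_zero_left h1

theorem indep_of_Xm_ne (hQ : Cfsg.Geo.IsNondegenerateQuadraticForm Q) (u w : ι → F)
    (h : Xm Q hQ u w ≠ 0) : ∀ s t : F, s • u + t • w = 0 → s = 0 ∧ t = 0 := by
  have hw : w ≠ 0 := by
    intro hw
    apply h
    apply mat_ext
    intro x
    rw [Xm_mulVec, Matrix.zero_mulVec, hw]
    simp
  apply indep_of_not_mul hw
  intro μ hμ
  apply h
  apply mat_ext
  intro x
  rw [Xm_mulVec, Matrix.zero_mulVec, hμ]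
  simp only [map_smul, LinearMap.smul_apply, smul_eq_mul]
  module

/-- `⟨p, r⟩` is a singular line, in the shape of the statement. -/
def Line (p r : ι → F) : Prop :=
  LinearIndependent F ![p, r] ∧ Q p = 0 ∧ Q r = 0 ∧ Q (p + r) = 0

theorem line_bf (hQ : Cfsg.Geo.IsNondegenerateQuadraticForm Q) {p r : ι → F}
    (h : Line Q p r) : Bf Q hQ p r = 0 := by
  have h1 := Q_add Q hQ p r
  rw [h.2.1, h.2.2.1, h.2.2.2] at h1
  simpa using h1.symm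

theorem line_mk (hQ : Cfsg.Geo.IsNondegenerateQuadraticForm Q) {p r : ι → F}
    (hind : ∀ s t : F, s • p + t • r = 0 → s = 0 ∧ t = 0)
    (hp : Q p = 0) (hr : Q r = 0) (hpr : Bf Q hQ p r = 0) : Line Q p r := by
  refine ⟨LinearIndependent.pair_iff.2 hind, hp, hr, ?_⟩
  rw [Q_add Q hQ, hp, hr, hpr]
  simp

theorem line_ind {p r : ι → F} (h : Line Q p r) :
    ∀ s t : F, s • p + t • r = 0 → s = 0 ∧ t = 0 :=
  LinearIndependent.pair_iff.1 h.1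

theorem line_ne_left {p r : ι → F} (h : Line Q p r) : p ≠ 0 := by
  intro h0
  have h1 := (line_ind Q h 1 0 (by rw [h0, smul_zero, zero_smul, add_zero])).1
  exact one_ne_zero h1

theorem line_ne_right {p r : ι → F} (h : Line Q p r) : r ≠ 0 := by
  intro h0
  have h1 := (line_ind Q h 0 1 (by rw [h0, smul_zero, zero_smul, add_zero])).2
  exact one_ne_zero h1

theorem line_not_mul {p r : ι → F} (h : Line Q p r) (c : F) : r ≠ c • p := by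
  intro hc
  have h2 : (-c) • p + (1 : F) • r = 0 := by
    rw [one_smul, neg_smul, ← hc, neg_add_cancel]
  exact one_ne_zero (line_ind Q h (-c) 1 h2).2

theorem line_not_mul' {p r : ι → F} (h : Line Q p r) (c : F) : p ≠ c • r := by
  intro hc
  have h2 : (1 : F) • p + (-c) • r = 0 := by
    rw [one_smul, neg_smul, ← hc, add_neg_cancel]
  exact one_ne_zero (line_ind Q h 1 (-c) h2).1

theorem line_swap (hQ : Cfsg.Geo.IsNondegenerateQuadraticForm Q) {p r : ι → F}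
    (h : Line Q p r) : Line Q r p := by
  refine line_mk Q hQ ?_ h.2.2.1 h.2.1 (by rw [Bf_symm Q hQ]; exact line_bf Q hQ h)
  intro s t hst
  have h1 := line_ind Q h t s (by rw [add_comm]; exact hst)
  exact ⟨h1.2, h1.1⟩

theorem Xm_ne_zero (hQ : Cfsg.Geo.IsNondegenerateQuadraticForm Q) {p r : ι → F}
    (h : Line Q p r) : Xm Q hQ p r ≠ 0 := by
  intro h0
  obtain ⟨v, hv⟩ := (hQ.nondegenerate p (line_ne_left Q h)).2
  have hv' : Bf Q hQ p v ≠ 0 := hv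
  have h1 : Xm Q hQ p r *ᵥ v = 0 := by rw [h0, Matrix.zero_mulVec]
  rw [Xm_mulVec] at h1
  have h2 := line_ind Q h (Bf Q hQ r v) (-(Bf Q hQ p v))
    (by rw [neg_smul, ← sub_eq_add_neg]; exact h1)
  exact hv' (neg_eq_zero.1 h2.2)

theorem Q_line (hQ : Cfsg.Geo.IsNondegenerateQuadraticForm Q) {p r : ι → F}
    (h : Line Q p r) (α β : F) : Q (α • p + β • r) = 0 := by
  rw [Q_add Q hQ, hQ.smul, hQ.smul, h.2.1, h.2.2.1]
  simp only [map_smul, LinearMap.smul_apply, smul_eq_mul, line_bf Q hQ h, mul_zero, add_zero]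

theorem line_map {A A' : Matrix ι ι F} (hA : ∀ x, Q (A *ᵥ x) = Q x) (hA'A : A' * A = 1)
    {p r : ι → F} (hl : Line Q p r) : Line Q (A *ᵥ p) (A *ᵥ r) := by
  refine ⟨LinearIndependent.pair_iff.2 ?_, by rw [hA]; exact hl.2.1,
    by rw [hA]; exact hl.2.2.1, by rw [← Matrix.mulVec_add, hA]; exact hl.2.2.2⟩
  intro s t hst
  apply line_ind Q hl s t
  have h1 : A' *ᵥ (s • A *ᵥ p + t • A *ᵥ r) = 0 := by rw [hst, Matrix.mulVec_zero]
  rw [Matrix.mulVec_add, Matrix.mulVec_smul, Matrix.mulVec_smul, Matrix.mulVec_mulVec,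
    Matrix.mulVec_mulVec, hA'A, Matrix.one_mulVec, Matrix.one_mulVec] at h1
  exact h1

/-! ### the fixed-point characterisation -/

theorem exists_dual (hQ : Cfsg.Geo.IsNondegenerateQuadraticForm Q) {p r : ι → F}
    (h : Line Q p r) :
    ∃ p' r' : ι → F, Bf Q hQ p p' = 1 ∧ Bf Q hQ r p' = 0 ∧ Bf Q hQ p r' = 0 ∧
      Bf Q hQ r r' = 1 := by
  obtain ⟨v₁, hv₁⟩ := (hQ.nondegenerate p (line_ne_left Q h)).2
  have hv₁' : Bf Q hQ p v₁ ≠ 0 := hv₁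
  obtain ⟨t, ht⟩ : ∃ t, t = Bf Q hQ r v₁ * (Bf Q hQ p v₁)⁻¹ := ⟨_, rfl⟩
  have hz : r - t • p ≠ 0 := fun h0 => line_not_mul Q h t (sub_eq_zero.1 h0)
  obtain ⟨v₂, hv₂⟩ := (hQ.nondegenerate _ hz).2
  have hv₂' : Bf Q hQ (r - t • p) v₂ ≠ 0 := hv₂
  obtain ⟨w, hw⟩ : ∃ w, w = v₂ - (Bf Q hQ p v₂ * (Bf Q hQ p v₁)⁻¹) • v₁ := ⟨_, rfl⟩
  have hpw : Bf Q hQ p w = 0 := by
    rw [hw, map_sub, map_smul, smul_eq_mul, mul_assoc, inv_mul_cancel₀ hv₁', mul_one, sub_self]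
  have hrw : Bf Q hQ r w = Bf Q hQ (r - t • p) v₂ := by
    rw [hw, ht]
    simp only [map_sub, map_smul, LinearMap.sub_apply, LinearMap.smul_apply, smul_eq_mul]
    ring
  have hrw0 : Bf Q hQ r w ≠ 0 := by rw [hrw]; exact hv₂'
  obtain ⟨r', hr'⟩ : ∃ r', r' = (Bf Q hQ r w)⁻¹ • w := ⟨_, rfl⟩
  have hpr' : Bf Q hQ p r' = 0 := by rw [hr', map_smul, hpw, smul_zero]
  have hrr' : Bf Q hQ r r' = 1 := by rw [hr', map_smul, smul_eq_mul, inv_mul_cancel₀ hrw0]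
  refine ⟨(Bf Q hQ p v₁)⁻¹ • v₁ - t • r', r', ?_, ?_, hpr', hrr'⟩
  · rw [map_sub, map_smul, map_smul, hpr', smul_eq_mul, inv_mul_cancel₀ hv₁', smul_zero,
      sub_zero]
  · rw [map_sub, map_smul, map_smul, hrr', ht, smul_eq_mul, smul_eq_mul]
    ring

theorem perp_part (hQ : Cfsg.Geo.IsNondegenerateQuadraticForm Q) {p r p' r' : ι → F}
    (h1 : Bf Q hQ p p' = 1) (h2 : Bf Q hQ r p' = 0) (h3 : Bf Q hQ p r' = 0)
    (h4 : Bf Q hQ r r' = 1) (y : ι → F) :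
    Bf Q hQ p (y - Bf Q hQ p y • p' - Bf Q hQ r y • r') = 0 ∧
    Bf Q hQ r (y - Bf Q hQ p y • p' - Bf Q hQ r y • r') = 0 := by
  constructor
  · simp only [map_sub, map_smul, smul_eq_mul, h1, h3]
    ring
  · simp only [map_sub, map_smul, smul_eq_mul, h2, h4]
    ring

theorem in_line (hQ : Cfsg.Geo.IsNondegenerateQuadraticForm Q) {p r p' r' : ι → F}
    (h1 : Bf Q hQ p p' = 1) (h2 : Bf Q hQ r p' = 0) (h3 : Bf Q hQ p r' = 0)
    (h4 : Bf Q hQ r r' = 1) (u : ι → F)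
    (hu : ∀ y, Bf Q hQ p y = 0 → Bf Q hQ r y = 0 → Bf Q hQ u y = 0) :
    u = Bf Q hQ u p' • p + Bf Q hQ u r' • r := by
  by_contra hne
  have hz : u - (Bf Q hQ u p' • p + Bf Q hQ u r' • r) ≠ 0 := fun h0 => hne (sub_eq_zero.1 h0)
  obtain ⟨y, hy⟩ := (hQ.nondegenerate _ hz).2
  have hy' : Bf Q hQ (u - (Bf Q hQ u p' • p + Bf Q hQ u r' • r)) y ≠ 0 := hy
  apply hy'
  obtain ⟨hp0, hr0⟩ := perp_part Q hQ h1 h2 h3 h4 y
  have h5 := hu _ hp0 hr0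
  simp only [map_sub, map_smul, smul_eq_mul] at h5
  simp only [map_add, map_sub, map_smul, LinearMap.add_apply, LinearMap.sub_apply,
    LinearMap.smul_apply, smul_eq_mul]
  linear_combination h5

theorem fix_form (hQ : Cfsg.Geo.IsNondegenerateQuadraticForm Q) {p r p' r' : ι → F}
    (h1 : Bf Q hQ p p' = 1) (h2 : Bf Q hQ r p' = 0) (h3 : Bf Q hQ p r' = 0)
    (h4 : Bf Q hQ r r' = 1) (A : Matrix ι ι F)
    (hfix : ∀ v, Bf Q hQ v p = 0 → Bf Q hQ v r = 0 → A *ᵥ v = v) (v : ι → F) :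
    A *ᵥ v = v + Bf Q hQ p v • (A *ᵥ p' - p') + Bf Q hQ r v • (A *ᵥ r' - r') := by
  obtain ⟨hp0, hr0⟩ := perp_part Q hQ h1 h2 h3 h4 v
  have h5 := hfix _ (by rw [Bf_symm Q hQ]; exact hp0) (by rw [Bf_symm Q hQ]; exact hr0)
  simp only [Matrix.mulVec_sub, Matrix.mulVec_smul] at h5
  have h6 : A *ᵥ v = (A *ᵥ v - Bf Q hQ p v • (A *ᵥ p') - Bf Q hQ r v • (A *ᵥ r'))
      + Bf Q hQ p v • (A *ᵥ p') + Bf Q hQ r v • (A *ᵥ r') := by abel
  rw [h6, h5]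
  module

theorem fix_char (hQ : Cfsg.Geo.IsNondegenerateQuadraticForm Q) {p r : ι → F}
    (hl : Line Q p r) (A : Matrix ι ι F) (hA : ∀ x, Q (A *ᵥ x) = Q x)
    (hfix : ∀ v, Bf Q hQ v p = 0 → Bf Q hQ v r = 0 → A *ᵥ v = v) :
    ∃ c : F, A = 1 + c • Xm Q hQ p r := by
  obtain ⟨p', r', h1, h2, h3, h4⟩ := exists_dual Q hQ hl
  have hBA := B_iso Q hQ A hA
  have hin : ∀ z : ι → F, ∀ y, Bf Q hQ p y = 0 → Bf Q hQ r y = 0 →
      Bf Q hQ (A *ᵥ z - z) y = 0 := by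
    intro z y hy1 hy2
    have hAy : A *ᵥ y = y :=
      hfix y (by rw [Bf_symm Q hQ]; exact hy1) (by rw [Bf_symm Q hQ]; exact hy2)
    have h5 := hBA z y
    rw [hAy] at h5
    rw [map_sub, LinearMap.sub_apply, h5, sub_self]
  obtain ⟨α₁, hα₁⟩ : ∃ α, α = Bf Q hQ (A *ᵥ p' - p') p' := ⟨_, rfl⟩
  obtain ⟨β₁, hβ₁⟩ : ∃ β, β = Bf Q hQ (A *ᵥ p' - p') r' := ⟨_, rfl⟩
  obtain ⟨α₂, hα₂⟩ : ∃ α, α = Bf Q hQ (A *ᵥ r' - r') p' := ⟨_, rfl⟩
  obtain ⟨β₂, hβ₂⟩ : ∃ β, β = Bf Q hQ (A *ᵥ r' - r') r' := ⟨_, rfl⟩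
  have e1 : A *ᵥ p' = p' + (α₁ • p + β₁ • r) := by
    have h5 := in_line Q hQ h1 h2 h3 h4 (A *ᵥ p' - p') (hin p')
    rw [← hα₁, ← hβ₁] at h5
    rw [← h5]
    abel
  have e2 : A *ᵥ r' = r' + (α₂ • p + β₂ • r) := by
    have h5 := in_line Q hQ h1 h2 h3 h4 (A *ᵥ r' - r') (hin r')
    rw [← hα₂, ← hβ₂] at h5
    rw [← h5]
    abel
  have h1' : Bf Q hQ p' p = 1 := by rw [Bf_symm Q hQ]; exact h1
  have h2' : Bf Q hQ p' r = 0 := by rw [Bf_symm Q hQ]; exact h2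
  have h3' : Bf Q hQ r' p = 0 := by rw [Bf_symm Q hQ]; exact h3
  have h4' : Bf Q hQ r' r = 1 := by rw [Bf_symm Q hQ]; exact h4
  have k1 : α₁ = 0 := by
    have h5 := hA p'
    rw [e1, Q_add Q hQ p' (α₁ • p + β₁ • r), Q_line Q hQ hl] at h5
    simp only [map_add, map_smul, smul_eq_mul, h1', h2'] at h5
    linear_combination h5
  have k2 : β₂ = 0 := by
    have h5 := hA r'
    rw [e2, Q_add Q hQ r' (α₂ • p + β₂ • r), Q_line Q hQ hl] at h5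
    simp only [map_add, map_smul, smul_eq_mul, h3', h4'] at h5
    linear_combination h5
  have k3 : α₂ + β₁ = 0 := by
    have h5 := hA (p' + r')
    have e3 : A *ᵥ (p' + r') = (p' + r') + ((α₁ + α₂) • p + (β₁ + β₂) • r) := by
      rw [Matrix.mulVec_add, e1, e2]
      module
    rw [e3, Q_add Q hQ (p' + r') ((α₁ + α₂) • p + (β₁ + β₂) • r), Q_line Q hQ hl] at h5
    simp only [map_add, map_smul, LinearMap.add_apply, smul_eq_mul, h1', h2', h3', h4'] at h5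
    linear_combination h5 - k1 - k2
  have k4 : β₁ = -α₂ := by linear_combination k3
  refine ⟨α₂, ?_⟩
  apply mat_ext
  intro v
  rw [fix_form Q hQ h1 h2 h3 h4 A hfix v, e1, e2, k1, k2, k4, Matrix.add_mulVec,
    Matrix.one_mulVec, Matrix.smul_mulVec, Xm_mulVec]
  module

/-! ### common opposite lines and connectedness -/

theorem exists_opp (hQ : Cfsg.Geo.IsNondegenerateQuadraticForm Q)
    (hts : ∀ x : ι → F, ∃ e₀, Q e₀ = 0 ∧ Bf Q hQ x e₀ = 0 ∧ ∀ c : F, e₀ ≠ c • x)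
    {p₁ p₂ r : ι → F} (h1 : Line Q p₁ r) (h2 : Line Q p₂ r) (h12 : Bf Q hQ p₁ p₂ = 0) :
    ∃ p₃ r₃, Line Q p₃ r₃ ∧
      Bf Q hQ p₁ r₃ * Bf Q hQ r p₃ - Bf Q hQ p₁ p₃ * Bf Q hQ r r₃ ≠ 0 ∧
      Bf Q hQ p₂ r₃ * Bf Q hQ r p₃ - Bf Q hQ p₂ p₃ * Bf Q hQ r r₃ ≠ 0 := by
  have hp₁r := line_bf Q hQ h1
  have hrp₁ : Bf Q hQ r p₁ = 0 := by rw [Bf_symm Q hQ]; exact hp₁r
  have hp₁p₁ : Bf Q hQ p₁ p₁ = 0 := by rw [Bf_self Q hQ, h1.2.1, mul_zero]
  have hp₂p₁ : Bf Q hQ p₂ p₁ = 0 := by rw [Bf_symm Q hQ]; exact h12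
  obtain ⟨y, hry, hp₁y, hp₂y⟩ := exists_both_perp Q hQ r p₁ p₂ (line_ne_right Q h1)
    (fun c => line_not_mul' Q h1 c) (fun c => line_not_mul' Q h2 c)
  obtain ⟨p₃, hp₃⟩ : ∃ p₃, p₃ = y - ((Bf Q hQ p₁ y)⁻¹ * Q y) • p₁ := ⟨_, rfl⟩
  have hQp₃ : Q p₃ = 0 := by rw [hp₃]; exact make_sing Q hQ y p₁ h1.2.1 hp₁y
  have hrp₃ : Bf Q hQ r p₃ = 0 := by
    rw [hp₃, map_sub, map_smul, hry, hrp₁, smul_zero, sub_zero]
  have hp₁p₃ : Bf Q hQ p₁ p₃ = Bf Q hQ p₁ y := by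
    rw [hp₃, map_sub, map_smul, hp₁p₁, smul_zero, sub_zero]
  have hp₂p₃ : Bf Q hQ p₂ p₃ = Bf Q hQ p₂ y := by
    rw [hp₃, map_sub, map_smul, hp₂p₁, smul_zero, sub_zero]
  have hp₃0 : p₃ ≠ 0 := by
    intro h0
    apply hp₁y
    rw [← hp₁p₃, h0, map_zero]
  have hrnot : ∀ c : F, r ≠ c • p₃ := by
    intro c hc
    have h3 : Bf Q hQ p₁ r = c * Bf Q hQ p₁ p₃ := by
      have h4 := congrArg (Bf Q hQ p₁) hc
      rw [map_smul, smul_eq_mul] at h4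
      exact h4
    rw [hp₁r, hp₁p₃] at h3
    have hc0 : c = 0 := (mul_eq_zero.1 h3.symm).resolve_right hp₁y
    apply line_ne_right Q h1
    rw [hc, hc0, zero_smul]
  obtain ⟨s, hQs, hp₃s, hrs⟩ := exists_sing_perp_off Q hQ hts p₃ r hp₃0 hrnot
  have hl₃ : Line Q p₃ s := line_mk Q hQ (by
    intro a b hab
    have h4 : Bf Q hQ r (a • p₃ + b • s) = 0 := by rw [hab, map_zero]
    rw [map_add, map_smul, map_smul, hrp₃, smul_zero, zero_add, smul_eq_mul] at h4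
    have hb0 : b = 0 := (mul_eq_zero.1 h4).resolve_right hrs
    rw [hb0, zero_smul, add_zero] at hab
    exact ⟨(smul_eq_zero.1 hab).resolve_right hp₃0, hb0⟩) hQp₃ hQs hp₃s
  refine ⟨p₃, s, hl₃, ?_, ?_⟩
  · rw [hrp₃, mul_zero, zero_sub, hp₁p₃]
    exact neg_ne_zero.2 (mul_ne_zero hp₁y hrs)
  · rw [hrp₃, mul_zero, zero_sub, hp₂p₃]
    exact neg_ne_zero.2 (mul_ne_zero hp₂y hrs)

theorem Q_comb (hQ : Cfsg.Geo.IsNondegenerateQuadraticForm Q) (e : Fin 3 → ι → F)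
    (hQe : ∀ i, Q (e i) = 0) (hBe : ∀ i j, Bf Q hQ (e i) (e j) = 0) (t : Fin 3 → F) :
    Q (∑ i, t i • e i) = 0 := by
  rw [Fin.sum_univ_three, Q_add Q hQ, Q_add Q hQ, hQ.smul, hQ.smul, hQ.smul, hQe, hQe, hQe]
  simp only [map_add, map_smul, LinearMap.add_apply, LinearMap.smul_apply, smul_eq_mul, hBe,
    mul_zero, add_zero]

theorem B_comb (hQ : Cfsg.Geo.IsNondegenerateQuadraticForm Q) (e : Fin 3 → ι → F)
    (hBe : ∀ i j, Bf Q hQ (e i) (e j) = 0) (t t' : Fin 3 → F) :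
    Bf Q hQ (∑ i, t i • e i) (∑ i, t' i • e i) = 0 := by
  rw [Fin.sum_univ_three, Fin.sum_univ_three]
  simp only [map_add, map_smul, LinearMap.add_apply, LinearMap.smul_apply, smul_eq_mul, hBe,
    mul_zero, add_zero]

theorem comb_ker (hQ : Cfsg.Geo.IsNondegenerateQuadraticForm Q) (e : Fin 3 → ι → F)
    (a b : ι → F) :
    ∃ t : Fin 3 → F, t ≠ 0 ∧ Bf Q hQ a (∑ i, t i • e i) = 0 ∧
      Bf Q hQ b (∑ i, t i • e i) = 0 := by
  obtain ⟨t, ht0, ht⟩ := exists_ker (ι := Fin 3) (F := F) 2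
    (fun j : Fin 2 => if j = 0 then (Bf Q hQ a).comp (Fintype.linearCombination F e)
      else (Bf Q hQ b).comp (Fintype.linearCombination F e)) (by simp)
  refine ⟨t, ht0, ?_, ?_⟩
  · have h := ht 0
    simp only [if_pos (rfl : (0 : Fin 2) = 0), LinearMap.comp_apply,
      Fintype.linearCombination_apply] at h
    exact h
  · have h := ht 1
    simp only [if_neg (show ¬ ((1 : Fin 2) = 0) by decide), LinearMap.comp_apply,
      Fintype.linearCombination_apply] at h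
    exact h

theorem comb_ker' (hQ : Cfsg.Geo.IsNondegenerateQuadraticForm Q) (e : Fin 3 → ι → F)
    (x : ι → F) (j₀ : Fin 3) :
    ∃ t : Fin 3 → F, t ≠ 0 ∧ Bf Q hQ x (∑ i, t i • e i) = 0 ∧ t j₀ = 0 := by
  obtain ⟨t, ht0, ht⟩ := exists_ker (ι := Fin 3) (F := F) 2
    (fun j : Fin 2 => if j = 0 then (Bf Q hQ x).comp (Fintype.linearCombination F e)
      else (LinearMap.proj j₀ : (Fin 3 → F) →ₗ[F] F)) (by simp)
  refine ⟨t, ht0, ?_, ?_⟩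
  · have h := ht 0
    simp only [if_pos (rfl : (0 : Fin 2) = 0), LinearMap.comp_apply,
      Fintype.linearCombination_apply] at h
    exact h
  · have h := ht 1
    simp only [if_neg (show ¬ ((1 : Fin 2) = 0) by decide), LinearMap.proj_apply] at h
    exact h

theorem comb_ne (e : Fin 3 → ι → F) (hind : LinearIndependent F e) {t : Fin 3 → F}
    (ht : t ≠ 0) : ∑ i, t i • e i ≠ 0 :=
  fun h => ht (funext (Fintype.linearIndependent_iff.1 hind t h))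

theorem comb_indep (e : Fin 3 → ι → F) (hind : LinearIndependent F e) {t t₀ : Fin 3 → F}
    (j₀ : Fin 3) (ht : t ≠ 0) (htj : t j₀ = 0) (ht₀ : t₀ j₀ ≠ 0) :
    ∀ s s' : F, s • (∑ i, t i • e i) + s' • (∑ i, t₀ i • e i) = 0 → s = 0 ∧ s' = 0 := by
  intro s s' h
  have h1 : ∑ i, (s * t i + s' * t₀ i) • e i = 0 := by
    rw [← h]
    simp only [add_smul, Finset.sum_add_distrib, Finset.smul_sum, smul_smul]
  have h2 := Fintype.linearIndependent_iff.1 hind _ h1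
  have hs' : s' = 0 := by
    have h3 : s * t j₀ + s' * t₀ j₀ = 0 := h2 j₀
    rw [htj, mul_zero, zero_add] at h3
    exact (mul_eq_zero.1 h3).resolve_right ht₀
  obtain ⟨i, hi⟩ := Function.ne_iff.1 ht
  have h4 : s * t i + s' * t₀ i = 0 := h2 i
  rw [hs', zero_mul, add_zero] at h4
  exact ⟨(mul_eq_zero.1 h4).resolve_right hi, hs'⟩

theorem hts_of (hQ : Cfsg.Geo.IsNondegenerateQuadraticForm Q) (e : Fin 3 → ι → F)
    (hQe : ∀ i, Q (e i) = 0) (hBe : ∀ i j, Bf Q hQ (e i) (e j) = 0)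
    (hind : LinearIndependent F e) :
    ∀ x : ι → F, ∃ e₀, Q e₀ = 0 ∧ Bf Q hQ x e₀ = 0 ∧ ∀ c : F, e₀ ≠ c • x := by
  intro x
  refine exists_sing_perp Q hQ (e 0) (e 1) (hQe 0) (hQe 1) (hBe 0 1) ?_ x
  intro α β h
  have h1 : ∑ i, (![α, β, 0] : Fin 3 → F) i • e i = 0 := by
    rw [Fin.sum_univ_three]
    simpa using h
  have h2 := Fintype.linearIndependent_iff.1 hind _ h1
  exact ⟨by simpa using h2 0, by simpa using h2 1⟩

theorem conn_geom (hQ : Cfsg.Geo.IsNondegenerateQuadraticForm Q) (e : Fin 3 → ι → F)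
    (hQe : ∀ i, Q (e i) = 0) (hBe : ∀ i j, Bf Q hQ (e i) (e j) = 0)
    (hind : LinearIndependent F e)
    (Rl : (ι → F) → (ι → F) → (ι → F) → (ι → F) → Prop)
    (hsymm : ∀ p r p' r', Rl p r p' r' → Rl p' r' p r)
    (htrans : ∀ p r p' r' p'' r'', Rl p r p' r' → Rl p' r' p'' r'' → Rl p r p'' r'')
    (hopp : ∀ p₁ r₁ p₂ r₂, Line Q p₁ r₁ → Line Q p₂ r₂ →
      Bf Q hQ p₁ r₂ * Bf Q hQ r₁ p₂ - Bf Q hQ p₁ p₂ * Bf Q hQ r₁ r₂ ≠ 0 → Rl p₁ r₁ p₂ r₂)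
    (hswap : ∀ p r, Line Q p r → Rl p r r p)
    (p₁ r₁ p₂ r₂ : ι → F) (h1 : Line Q p₁ r₁) (h2 : Line Q p₂ r₂) : Rl p₁ r₁ p₂ r₂ := by
  have hts := hts_of Q hQ e hQe hBe hind
  have share : ∀ p p' r, Line Q p r → Line Q p' r → Bf Q hQ p p' = 0 → Rl p r p' r := by
    intro p p' r hl hl' hpp'
    obtain ⟨p₃, r₃, hl₃, hγ1, hγ2⟩ := exists_opp Q hQ hts hl hl' hpp'
    exact htrans _ _ _ _ _ _ (hopp _ _ _ _ hl hl₃ hγ1) (hsymm _ _ _ _ (hopp _ _ _ _ hl' hl₃ hγ2))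
  have toE : ∀ p r, Line Q p r → ∃ t t' : Fin 3 → F,
      Line Q (∑ i, t i • e i) (∑ i, t' i • e i) ∧
        Rl p r (∑ i, t i • e i) (∑ i, t' i • e i) := by
    intro p r hl
    obtain ⟨t₀, ht₀, hpc, hrc⟩ := comb_ker Q hQ e p r
    have hc0 := comb_ne e hind ht₀
    have hQc := Q_comb Q hQ e hQe hBe t₀
    obtain ⟨j₀, hj₀⟩ := Function.ne_iff.1 ht₀
    obtain ⟨c, hc⟩ : ∃ c, c = ∑ i, t₀ i • e i := ⟨_, rfl⟩
    rw [← hc] at hpc hrc hc0 hQc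
    have stepA : ∃ x, Line Q c x ∧ Rl p r c x := by
      by_cases hcp : ∃ μ : F, c = μ • p
      · obtain ⟨μ, hμ⟩ := hcp
        have hμ0 : μ ≠ 0 := by
          intro h0
          apply hc0
          rw [hμ, h0, zero_smul]
        have hlcr : Line Q c r := line_mk Q hQ (by
          intro s t hst
          rw [hμ, smul_smul] at hst
          have h3 := line_ind Q hl (s * μ) t hst
          exact ⟨(mul_eq_zero.1 h3.1).resolve_right hμ0, h3.2⟩) hQc hl.2.2.1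
            (by rw [Bf_symm Q hQ]; exact hrc)
        exact ⟨r, hlcr, share p c r hl hlcr hpc⟩
      · push_neg at hcp
        have hlcp : Line Q c p := line_mk Q hQ (indep_of_not_mul (line_ne_left Q hl) hcp) hQc
          hl.2.1 (by rw [Bf_symm Q hQ]; exact hpc)
        exact ⟨p, hlcp, htrans _ _ _ _ _ _ (hswap p r hl)
          (share r c p (line_swap Q hQ hl) hlcp hrc)⟩
    obtain ⟨x, hlcx, hRx⟩ := stepA
    obtain ⟨t, ht, hxd, htj⟩ := comb_ker' Q hQ e x j₀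
    have hind' := comb_indep e hind j₀ ht htj hj₀
    have hBdc := B_comb Q hQ e hBe t t₀
    rw [← hc] at hind' hBdc
    have hld : Line Q (∑ i, t i • e i) c :=
      line_mk Q hQ hind' (Q_comb Q hQ e hQe hBe t) hQc hBdc
    refine ⟨t, t₀, ?_, ?_⟩
    · rw [← hc]; exact hld
    · rw [← hc]
      exact htrans _ _ _ _ _ _ hRx (htrans _ _ _ _ _ _ (hswap c x hlcx)
        (share x _ c (line_swap Q hQ hlcx) hld hxd))
  have inE : ∀ d c d' c' : ι → F, Line Q d c → Line Q d' c' → Bf Q hQ d d' = 0 →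
      Bf Q hQ d c' = 0 → Bf Q hQ c d' = 0 → Bf Q hQ c c' = 0 → Rl d c d' c' := by
    intro d c d' c' hl hl' hdd' hdc' hcd' hcc'
    by_cases hmul : ∃ μ : F, c' = μ • c
    · obtain ⟨μ, hμ⟩ := hmul
      have hμ0 : μ ≠ 0 := by
        intro h0
        apply line_ne_right Q hl'
        rw [hμ, h0, zero_smul]
      have hldc' : Line Q d c' := line_mk Q hQ (by
        intro s t hst
        rw [hμ, smul_smul] at hst
        have h3 := line_ind Q hl s (t * μ) hst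
        exact ⟨h3.1, (mul_eq_zero.1 h3.2).resolve_right hμ0⟩) hl.2.1 hl'.2.2.1 hdc'
      have s1 := hswap d c hl
      have s2 := share c c' d (line_swap Q hQ hl) (line_swap Q hQ hldc') hcc'
      have s3 := hswap c' d (line_swap Q hQ hldc')
      have s4 := share d d' c' hldc' hl' hdd'
      exact htrans _ _ _ _ _ _ s1 (htrans _ _ _ _ _ _ s2 (htrans _ _ _ _ _ _ s3 s4))
    · push_neg at hmul
      have hlc'c : Line Q c' c := line_mk Q hQ (indep_of_not_mul (line_ne_right Q hl) hmul)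
        hl'.2.2.1 hl.2.2.1 (by rw [Bf_symm Q hQ]; exact hcc')
      have s1 := share d c' c hl hlc'c hdc'
      have s2 := hswap c' c hlc'c
      have s3 := share c d' c' (line_swap Q hQ hlc'c) hl' hcd'
      exact htrans _ _ _ _ _ _ s1 (htrans _ _ _ _ _ _ s2 s3)
  obtain ⟨t₁, t₁', hl₁, hR₁⟩ := toE p₁ r₁ h1
  obtain ⟨t₂, t₂', hl₂, hR₂⟩ := toE p₂ r₂ h2
  have hmid := inE _ _ _ _ hl₁ hl₂ (B_comb Q hQ e hBe t₁ t₂) (B_comb Q hQ e hBe t₁ t₂')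
    (B_comb Q hQ e hBe t₁' t₂) (B_comb Q hQ e hBe t₁' t₂')
  exact htrans _ _ _ _ _ _ hR₁ (htrans _ _ _ _ _ _ hmid (hsymm _ _ _ _ hR₂))

end quad

end Cfsg.Agent.Helper4.SiegelRoot
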