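import Mathlib
import Cfsg.Prelude.Def_RootSubgroups
import Cfsg.Agent.Helper4.SRAbs
import Cfsg.Agent.Helper4.SRGeom

set_option autoImplicit false
open Cfsg

/-!
The Siegel transvection groups of the singular lines of a non-degenerate quadratic form as a set
of abstract root subgroups, and the instance for the plus-type form.
-/

namespace Cfsg.Agent.Helper4.SiegelRoot

open Matrix Cfsg.Agent.Helper4.OrthPlane Cfsg.Agent.Helper4.CartanD Cfsg.Agent.Helper4.OSiegel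
  Cfsg.Agent.Helper2.TvAbs Cfsg.Agent.Helper4.SRAbs

variable {ι : Type} [Fintype ι] [DecidableEq ι] {F : Type*} [Field F]

theorem rtg_symm {α : Type*} {r : α → α → Prop} (hs : ∀ a b, r a b → r b a) {a b : α}
    (h : Relation.ReflTransGen r a b) : Relation.ReflTransGen r b a := by
  induction h with
  | refl => exact Relation.ReflTransGen.refl
  | tail _ hbc ih => exact Relation.ReflTransGen.head (hs _ _ hbc) ih

theorem gen_sub {G : Type*} [Group G] (Sg : Set (Subgroup G)) :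
    (⨆ A ∈ (fun A : Subgroup G => A.subgroupOf (⨆ B ∈ Sg, B)) '' Sg, A) = ⊤ := by
  have hle : (⨆ B ∈ Sg, B)
      ≤ (⨆ A ∈ (fun A : Subgroup G => A.subgroupOf (⨆ B ∈ Sg, B)) '' Sg, A).map
        (⨆ B ∈ Sg, B).subtype := by
    refine iSup₂_le ?_
    intro B hB b hb
    have hbG : b ∈ ⨆ B ∈ Sg, B := (le_iSup₂_of_le B hB le_rfl : B ≤ ⨆ B ∈ Sg, B) hb
    refine Subgroup.mem_map.2 ⟨⟨b, hbG⟩, ?_, rfl⟩
    have h1 : B.subgroupOf (⨆ B ∈ Sg, B)
        ≤ ⨆ A ∈ (fun A : Subgroup G => A.subgroupOf (⨆ B ∈ Sg, B)) '' Sg, A :=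
      le_iSup₂_of_le (B.subgroupOf (⨆ B ∈ Sg, B)) ⟨B, hB, rfl⟩ le_rfl
    exact h1 (Subgroup.mem_subgroupOf.2 hb)
  rw [eq_top_iff]
  intro y _
  obtain ⟨z, hz, hzy⟩ := Subgroup.mem_map.1 (hle y.2)
  have hzy' : z = y := Subtype.ext hzy
  rw [← hzy']
  exact hz

section quad

variable (Q : (ι → F) → F)

theorem pair_core {G : Type*} [Group G] {em : G →* Matrix ι ι F} (hem : Function.Injective em)
    (hQ : Cfsg.Geo.IsNondegenerateQuadraticForm Q) (S : Set (Subgroup G))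
    (hfull : ∀ u w, Line Q u w → Full em (Xm Q hQ u w))
    (hS : ∀ u w, Line Q u w → ∀ C : Subgroup G, IsRG em C (Xm Q hQ u w) → C ∈ S)
    {A B : Subgroup G} {p₁ r₁ p₂ r₂ : ι → F} (h1 : Line Q p₁ r₁) (h2 : Line Q p₂ r₂)
    (hA : IsRG em A (Xm Q hQ p₁ r₁)) (hB : IsRG em B (Xm Q hQ p₂ r₂))
    (hcase : Bf Q hQ p₁ p₂ ≠ 0 ∨ (Bf Q hQ p₁ p₂ = 0 ∧ Bf Q hQ p₁ r₂ = 0 ∧
      Bf Q hQ r₁ p₂ = 0 ∧ Bf Q hQ r₁ r₂ = 0)) :
    (⁅A, B⁆ = ⊥ ∨ IsRankOnePair A B ∨ RootCommutatorCase S A B) ∧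
      (IsRankOnePair A B → IsPSL2PairOver F A B) := by
  have hX1 := Xm_sq Q hQ p₁ r₁ h1.2.1 h1.2.2.1 (line_bf Q hQ h1)
  have hX2 := Xm_sq Q hQ p₂ r₂ h2.2.1 h2.2.2.1 (line_bf Q hQ h2)
  have hXne := Xm_ne_zero Q hQ h1
  have f1 := hfull _ _ h1
  have f2 := hfull _ _ h2
  obtain ⟨a₀, ha₀⟩ := f1 1
  have ha₀A : a₀ ∈ A := (hA a₀).2 ⟨1, ha₀⟩
  have ha₀1 : a₀ ≠ 1 := by
    intro h
    rw [h, map_one, one_smul] at ha₀
    exact hXne (one_add_eq ha₀)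
  rcases hcase with ha | ⟨ha, hb, hc, hd⟩
  · by_cases hγ : Bf Q hQ p₁ r₂ * Bf Q hQ r₁ p₂ - Bf Q hQ p₁ p₂ * Bf Q hQ r₁ r₂ = 0
    · obtain ⟨a, haa⟩ : ∃ a, a = Bf Q hQ p₁ p₂ := ⟨_, rfl⟩
      have ha' : a ≠ 0 := by rw [haa]; exact ha
      have hγ' : Bf Q hQ p₁ r₂ * Bf Q hQ r₁ p₂ - a * Bf Q hQ r₁ r₂ = 0 := by
        rw [haa]; exact hγ
      obtain ⟨β, hβ⟩ : ∃ β, β = a⁻¹ * Bf Q hQ p₁ r₂ := ⟨_, rfl⟩
      obtain ⟨κ, hκ⟩ : ∃ κ, κ = a⁻¹ * Bf Q hQ r₁ p₂ := ⟨_, rfl⟩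
      have hb : Bf Q hQ p₁ r₂ = a * β := by
        rw [hβ, ← mul_assoc, mul_inv_cancel₀ ha', one_mul]
      have hc : Bf Q hQ r₁ p₂ = a * κ := by
        rw [hκ, ← mul_assoc, mul_inv_cancel₀ ha', one_mul]
      have hd : Bf Q hQ r₁ r₂ = a * β * κ := by
        have h3 : a * Bf Q hQ r₁ r₂ = a * (a * β * κ) := by
          rw [hb, hc] at hγ'
          linear_combination -hγ'
        exact mul_left_cancel₀ ha' h3
      have hZ := Xm_comm Q hQ p₁ r₁ p₂ r₂ a β κ haa.symm hb hc hd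
      have t1 : Xm Q hQ p₁ r₁ * Xm Q hQ p₂ r₂ * Xm Q hQ p₁ r₁ = 0 := by
        rw [Xm_triple, hγ, zero_smul]
      have t2 : Xm Q hQ p₂ r₂ * Xm Q hQ p₁ r₁ * Xm Q hQ p₂ r₂ = 0 := by
        rw [Xm_triple' Q hQ p₁ r₁ p₂ r₂, hγ, zero_smul]
      obtain ⟨u, hu⟩ : ∃ u, u = κ • p₁ - r₁ := ⟨_, rfl⟩
      obtain ⟨w, hw⟩ : ∃ w, w = β • p₂ - r₂ := ⟨_, rfl⟩
      rw [← hu, ← hw] at hZ
      by_cases hZ0 : Xm Q hQ u w = 0
      · have hcomm : Xm Q hQ p₁ r₁ * Xm Q hQ p₂ r₂ = Xm Q hQ p₂ r₂ * Xm Q hQ p₁ r₁ := by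
          rw [hZ0, smul_zero] at hZ
          exact sub_eq_zero.1 hZ
        have hc' := rg_commute2 hem hA hB hcomm
        exact ⟨Or.inl hc', fun hrop => absurd hrop (not_rop_of_comm hc' ha₀A ha₀1)⟩
      · have hQu : Q u = 0 := by
          rw [hu]
          have h5 := Q_line Q hQ h1 κ (-1)
          rw [neg_smul, one_smul, ← sub_eq_add_neg] at h5
          exact h5
        have hQw : Q w = 0 := by
          rw [hw]
          have h5 := Q_line Q hQ h2 β (-1)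
          rw [neg_smul, one_smul, ← sub_eq_add_neg] at h5
          exact h5
        have hBuw : Bf Q hQ u w = 0 := by
          rw [hu, hw]
          simp only [map_sub, map_smul, LinearMap.sub_apply, LinearMap.smul_apply, smul_eq_mul,
            ← haa, hb, hc, hd]
          ring
        have hl : Line Q u w := line_mk Q hQ (indep_of_Xm_ne Q hQ u w hZ0) hQu hQw hBuw
        have hsq := Xm_sq Q hQ u w hQu hQw hBuw
        have hC : IsRG em (rgSub em (Xm Q hQ u w) hsq) (Xm Q hQ u w) := rgSub_isRG _ _ _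
        have hC' : IsRG em (rgSub em (Xm Q hQ u w) hsq)
            (Xm Q hQ p₁ r₁ * Xm Q hQ p₂ r₂ - Xm Q hQ p₂ r₂ * Xm Q hQ p₁ r₁) := by
          rw [hZ]
          exact rg_smul hC (neg_ne_zero.2 ha')
        have hcc := comm_case2 hem hA hB hC' f1 f2 hX1 hX2 t1 t2
        have hCS : rgSub em (Xm Q hQ u w) hsq ∈ S := hS u w hl _ hC
        refine ⟨Or.inr (Or.inr ⟨by rw [hcc.1]; exact hCS, ?_, ?_, ?_⟩), ?_⟩
        · rw [hcc.1]; exact hcc.2.1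
        · intro x hx hx1
          rw [hcc.1]; exact hcc.2.2.1 x hx hx1
        · intro x hx hx1
          rw [hcc.1]; exact hcc.2.2.2 x hx hx1
        · intro hrop
          exfalso
          have hor : Xm Q hQ p₁ r₁ * Xm Q hQ p₂ r₂ ≠ 0 ∨
              Xm Q hQ p₂ r₂ * Xm Q hQ p₁ r₁ ≠ 0 := by
            by_contra hcon
            push_neg at hcon
            apply hZ0
            have h5 : (-a) • Xm Q hQ u w = 0 := by rw [← hZ, hcon.1, hcon.2, sub_zero]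
            exact (smul_eq_zero.1 h5).resolve_left (neg_ne_zero.2 ha')
          rcases hor with h | h
          · exact not_cond_comm_case2 hA hB f1 hX1 hX2 t1 t2 h hrop.cond_left
          · exact not_cond_comm_case2 hB hA f2 hX2 hX1 t2 t1 h hrop.cond_right
    · have t1 := Xm_triple Q hQ p₁ r₁ p₂ r₂
      have t2 := Xm_triple' Q hQ p₁ r₁ p₂ r₂
      have hrop := rank_one_pair hem hA hB f1 f2 hX1 hX2 hXne hγ t1 t2
      exact ⟨Or.inr (Or.inl hrop),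
        fun _ => psl2_abs_gamma hem hA hB f1 f2 hX1 hX2 hXne hγ t1 t2⟩
  · have e1 : Xm Q hQ p₁ r₁ * Xm Q hQ p₂ r₂ = 0 := Xm_mul_zero Q hQ p₁ r₁ p₂ r₂ ha hb hc hd
    have e2 : Xm Q hQ p₂ r₂ * Xm Q hQ p₁ r₁ = 0 := Xm_mul_zero Q hQ p₂ r₂ p₁ r₁
      (by rw [Bf_symm Q hQ]; exact ha) (by rw [Bf_symm Q hQ]; exact hc)
      (by rw [Bf_symm Q hQ]; exact hb) (by rw [Bf_symm Q hQ]; exact hd)
    have hc' := rg_commute hem hA hB e1 e2
    exact ⟨Or.inl hc', fun hrop => absurd hrop (not_rop_of_comm hc' ha₀A ha₀1)⟩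

theorem pair_all {G : Type*} [Group G] {em : G →* Matrix ι ι F} (hem : Function.Injective em)
    (hQ : Cfsg.Geo.IsNondegenerateQuadraticForm Q) (S : Set (Subgroup G))
    (hfull : ∀ u w, Line Q u w → Full em (Xm Q hQ u w))
    (hS : ∀ u w, Line Q u w → ∀ C : Subgroup G, IsRG em C (Xm Q hQ u w) → C ∈ S)
    {A B : Subgroup G} {p₁ r₁ p₂ r₂ : ι → F} (h1 : Line Q p₁ r₁) (h2 : Line Q p₂ r₂)
    (hA : IsRG em A (Xm Q hQ p₁ r₁)) (hB : IsRG em B (Xm Q hQ p₂ r₂)) :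
    (⁅A, B⁆ = ⊥ ∨ IsRankOnePair A B ∨ RootCommutatorCase S A B) ∧
      (IsRankOnePair A B → IsPSL2PairOver F A B) := by
  have hA' : IsRG em A (Xm Q hQ r₁ p₁) := by
    rw [Xm_swap Q hQ p₁ r₁]
    exact rg_smul hA (neg_ne_zero.2 one_ne_zero)
  have hB' : IsRG em B (Xm Q hQ r₂ p₂) := by
    rw [Xm_swap Q hQ p₂ r₂]
    exact rg_smul hB (neg_ne_zero.2 one_ne_zero)
  have h1' := line_swap Q hQ h1
  have h2' := line_swap Q hQ h2
  by_cases ha : Bf Q hQ p₁ p₂ = 0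
  · by_cases hb : Bf Q hQ p₁ r₂ = 0
    · by_cases hc : Bf Q hQ r₁ p₂ = 0
      · by_cases hd : Bf Q hQ r₁ r₂ = 0
        · exact pair_core Q hem hQ S hfull hS h1 h2 hA hB (Or.inr ⟨ha, hb, hc, hd⟩)
        · exact pair_core Q hem hQ S hfull hS h1' h2' hA' hB' (Or.inl hd)
      · exact pair_core Q hem hQ S hfull hS h1' h2 hA' hB (Or.inl hc)
    · exact pair_core Q hem hQ S hfull hS h1 h2' hA hB' (Or.inl hb)
  · exact pair_core Q hem hQ S hfull hS h1 h2 hA hB (Or.inl ha)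

theorem root_set {G : Type*} [Group G] {em : G →* Matrix ι ι F} (hem : Function.Injective em)
    (hQ : Cfsg.Geo.IsNondegenerateQuadraticForm Q)
    (hiso : ∀ (g : G) (x : ι → F), Q (em g *ᵥ x) = Q x)
    (TT : (ι → F) → (ι → F) → Subgroup G)
    (hTT : ∀ p r, Line Q p r → IsRG em (TT p r) (Xm Q hQ p r))
    (hfull : ∀ p r, Line Q p r → Full em (Xm Q hQ p r))
    (hgen : (⨆ A ∈ {A : Subgroup G | ∃ p r, Line Q p r ∧ A = TT p r}, A) = ⊤) :
    IsKRootSubgroupSet F {A : Subgroup G | ∃ p r, Line Q p r ∧ A = TT p r} := by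
  have hS : ∀ u w, Line Q u w → ∀ C : Subgroup G, IsRG em C (Xm Q hQ u w) →
      C ∈ {A : Subgroup G | ∃ p r, Line Q p r ∧ A = TT p r} :=
    fun u w hl C hC => ⟨u, w, hl, rg_ext hC (hTT u w hl)⟩
  refine ⟨⟨?_, ?_, hgen, ?_, ?_⟩, ?_⟩
  · rintro A ⟨p, r, hl, rfl⟩
    exact rg_comm hem (hTT p r hl)
  · rintro A ⟨p, r, hl, rfl⟩
    exact rg_ne_bot (hTT p r hl) (hfull p r hl) (Xm_ne_zero Q hQ hl)
  · rintro A ⟨p, r, hl, rfl⟩ g
    have h1 := rg_conj (hTT p r hl) g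
    rw [Xm_conj Q hQ (em g) (em g⁻¹) (hiso g) (em_mul_inv g)] at h1
    exact hS _ _ (line_map Q (hiso g) (em_inv_mul g) hl) _ h1
  · rintro A ⟨p₁, r₁, h1, rfl⟩ B ⟨p₂, r₂, h2, rfl⟩
    exact (pair_all Q hem hQ _ hfull hS h1 h2 (hTT _ _ h1) (hTT _ _ h2)).1
  · rintro A ⟨p₁, r₁, h1, rfl⟩ B ⟨p₂, r₂, h2, rfl⟩ hrop
    exact (pair_all Q hem hQ _ hfull hS h1 h2 (hTT _ _ h1) (hTT _ _ h2)).2 hrop

/-! ### the isometry group -/

/-- The inclusion of the isometry group into matrices. -/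
def emO : ↥(Cfsg.isometryGroup F Q) →* Matrix ι ι F :=
  (Units.coeHom (Matrix ι ι F)).comp (Subgroup.subtype _)

theorem emO_inj : Function.Injective (emO Q) := fun _ _ h => Subtype.ext (Units.ext h)

theorem emO_iso (g : ↥(Cfsg.isometryGroup F Q)) (x : ι → F) : Q (emO Q g *ᵥ x) = Q x :=
  g.2 x x

/-- The Siegel transvection group of the statement. -/
def TS (p r : ι → F) : Subgroup ↥(Cfsg.isometryGroup F Q) :=
  Subgroup.closure {σ : ↥(Cfsg.isometryGroup F Q) | ∀ v : ι → F,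
    Q (v + p) - Q v - Q p = 0 → Q (v + r) - Q v - Q r = 0 →
      ((σ : Matrix.GeneralLinearGroup ι F) : Matrix ι ι F) *ᵥ v = v}

theorem hTS (hQ : Cfsg.Geo.IsNondegenerateQuadraticForm Q) {p r : ι → F} (hl : Line Q p r) :
    IsRG (emO Q) (TS Q p r) (Xm Q hQ p r) := by
  have hsq := Xm_sq Q hQ p r hl.2.1 hl.2.2.1 (line_bf Q hQ hl)
  have e : {σ : ↥(Cfsg.isometryGroup F Q) | ∀ v : ι → F,
      Q (v + p) - Q v - Q p = 0 → Q (v + r) - Q v - Q r = 0 →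
        ((σ : Matrix.GeneralLinearGroup ι F) : Matrix ι ι F) *ᵥ v = v}
      = ((rgSub (emO Q) (Xm Q hQ p r) hsq : Subgroup ↥(Cfsg.isometryGroup F Q)) :
          Set ↥(Cfsg.isometryGroup F Q)) := by
    ext σ
    constructor
    · intro hσ
      exact (rgSub_isRG (emO Q) _ hsq σ).2
        (fix_char Q hQ hl (emO Q σ) (emO_iso Q σ) (fun v hv1 hv2 => hσ v hv1 hv2))
    · intro hσ v hv1 hv2
      obtain ⟨c, hc⟩ := (rgSub_isRG (emO Q) _ hsq σ).1 hσ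
      have hv1' : Bf Q hQ v p = 0 := hv1
      have hv2' : Bf Q hQ v r = 0 := hv2
      show emO Q σ *ᵥ v = v
      rw [hc, Matrix.add_mulVec, Matrix.one_mulVec, Matrix.smul_mulVec, Xm_mulVec,
        Bf_symm Q hQ r v, Bf_symm Q hQ p v, hv1', hv2']
      simp
  have e2 : TS Q p r = rgSub (emO Q) (Xm Q hQ p r) hsq := by
    unfold TS
    rw [e, Subgroup.closure_eq]
  rw [e2]
  exact rgSub_isRG _ _ _

theorem full_O (hQ : Cfsg.Geo.IsNondegenerateQuadraticForm Q) {p r : ι → F}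
    (hl : Line Q p r) : Full (emO Q) (Xm Q hQ p r) := by
  intro c
  have huv : Bf Q hQ p (c • r) = 0 := by rw [map_smul, line_bf Q hQ hl, smul_zero]
  exact ⟨eO Q hQ p (c • r) hl.2.1 huv, (one_add_Xm Q hQ p r hl.2.2.1 c).symm⟩

theorem TS_swap (hQ : Cfsg.Geo.IsNondegenerateQuadraticForm Q) {p r : ι → F}
    (hl : Line Q p r) : TS Q p r = TS Q r p :=
  rg_ext_smul (hTS Q hQ hl) (hTS Q hQ (line_swap Q hQ hl)) (l := (-1 : F))
    (neg_ne_zero.2 one_ne_zero) (Xm_swap Q hQ r p)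

/-- The set of Siegel transvection groups, in the shape of the statement. -/
def SgO : Set (Subgroup ↥(Cfsg.isometryGroup F Q)) :=
  {A : Subgroup ↥(Cfsg.isometryGroup F Q) | ∃ p r : ι → F, LinearIndependent F ![p, r] ∧
    Q p = 0 ∧ Q r = 0 ∧ Q (p + r) = 0 ∧
    A = Subgroup.closure {σ : ↥(Cfsg.isometryGroup F Q) | ∀ v : ι → F,
      Q (v + p) - Q v - Q p = 0 → Q (v + r) - Q v - Q r = 0 →
        ((σ : Matrix.GeneralLinearGroup ι F) : Matrix ι ι F) *ᵥ v = v}}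

theorem mem_SgO (A : Subgroup ↥(Cfsg.isometryGroup F Q)) :
    A ∈ SgO Q ↔ ∃ p r, Line Q p r ∧ A = TS Q p r := by
  constructor
  · rintro ⟨p, r, h1, h2, h3, h4, rfl⟩
    exact ⟨p, r, ⟨h1, h2, h3, h4⟩, rfl⟩
  · rintro ⟨p, r, ⟨h1, h2, h3, h4⟩, rfl⟩
    exact ⟨p, r, h1, h2, h3, h4, rfl⟩

theorem TS_mem (p r : ι → F) (hl : Line Q p r) : TS Q p r ∈ SgO Q :=
  (mem_SgO Q _).2 ⟨p, r, hl, rfl⟩

theorem connected (hQ : Cfsg.Geo.IsNondegenerateQuadraticForm Q) (e : Fin 3 → ι → F)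
    (hQe : ∀ i, Q (e i) = 0) (hBe : ∀ i j, Bf Q hQ (e i) (e j) = 0)
    (hind : LinearIndependent F e) : IsConnectedFamily (FAdj (SgO Q)) (SgO Q) := by
  intro A hA B hB
  obtain ⟨p₁, r₁, h1, rfl⟩ := (mem_SgO Q A).1 hA
  obtain ⟨p₂, r₂, h2, rfl⟩ := (mem_SgO Q B).1 hB
  have hsym : ∀ X Y, FAdj (SgO Q) X Y → FAdj (SgO Q) Y X :=
    fun X Y h => ⟨h.2.1, h.1, RankOnePair_symm h.2.2⟩
  refine conn_geom Q hQ e hQe hBe hind
    (fun p r p' r' => Relation.ReflTransGen (FAdj (SgO Q)) (TS Q p r) (TS Q p' r'))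
    ?_ ?_ ?_ ?_ p₁ r₁ p₂ r₂ h1 h2
  · intro p r p' r' h
    exact rtg_symm hsym h
  · intro p r p' r' p'' r'' h h'
    exact h.trans h'
  · intro p₁ r₁ p₂ r₂ hl1 hl2 hγ
    apply Relation.ReflTransGen.single
    refine ⟨TS_mem Q _ _ hl1, TS_mem Q _ _ hl2, ?_⟩
    exact rank_one_pair (emO_inj Q) (hTS Q hQ hl1) (hTS Q hQ hl2) (full_O Q hQ hl1)
      (full_O Q hQ hl2) (Xm_sq Q hQ p₁ r₁ hl1.2.1 hl1.2.2.1 (line_bf Q hQ hl1))
      (Xm_sq Q hQ p₂ r₂ hl2.2.1 hl2.2.2.1 (line_bf Q hQ hl2)) (Xm_ne_zero Q hQ hl1) hγ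
      (Xm_triple Q hQ p₁ r₁ p₂ r₂) (Xm_triple' Q hQ p₁ r₁ p₂ r₂)
  · intro p r hl
    exact Eq.subst (motive := fun X => Relation.ReflTransGen (FAdj (SgO Q)) (TS Q p r) X)
      (TS_swap Q hQ hl) Relation.ReflTransGen.refl

theorem kroot_of (hQ : Cfsg.Geo.IsNondegenerateQuadraticForm Q)
    (K : Subgroup ↥(Cfsg.isometryGroup F Q)) (hK : ∀ p r, Line Q p r → TS Q p r ≤ K)
    (hgen : (⨆ A ∈ (fun A : Subgroup ↥(Cfsg.isometryGroup F Q) => A.subgroupOf K) '' SgO Q,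
      A) = ⊤) :
    IsKRootSubgroupSet F
      ((fun A : Subgroup ↥(Cfsg.isometryGroup F Q) => A.subgroupOf K) '' SgO Q) := by
  have hset : (fun A : Subgroup ↥(Cfsg.isometryGroup F Q) => A.subgroupOf K) '' SgO Q
      = {A : Subgroup ↥K | ∃ p r, Line Q p r ∧ A = (TS Q p r).subgroupOf K} := by
    ext A
    constructor
    · rintro ⟨A₀, hA₀, rfl⟩
      obtain ⟨p, r, hl, rfl⟩ := (mem_SgO Q A₀).1 hA₀
      exact ⟨p, r, hl, rfl⟩
    · rintro ⟨p, r, hl, rfl⟩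
      exact ⟨TS Q p r, TS_mem Q p r hl, rfl⟩
  rw [hset] at hgen ⊢
  have hem : Function.Injective ((emO Q).comp K.subtype) := by
    intro a b h
    exact Subtype.ext (emO_inj Q h)
  refine root_set Q hem hQ (fun g x => emO_iso Q (g : ↥(Cfsg.isometryGroup F Q)) x)
    (fun p r => (TS Q p r).subgroupOf K) ?_ ?_ hgen
  · intro p r hl t
    rw [Subgroup.mem_subgroupOf]
    exact hTS Q hQ hl (t : ↥(Cfsg.isometryGroup F Q))
  · intro p r hl c
    obtain ⟨t₀, ht₀⟩ := full_O Q hQ hl c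
    have hmem : t₀ ∈ K := hK p r hl ((hTS Q hQ hl t₀).2 ⟨c, ht₀⟩)
    exact ⟨⟨t₀, hmem⟩, ht₀⟩

end quad

/-! ### the plus-type form -/

section plus

variable (F) (m : ℕ)

/-- Three mutually orthogonal singular basis vectors of the plus-type form. -/
def eP (i : Fin 3) : Fin (m + 3) ⊕ Fin (m + 3) → F :=
  Pi.single (Sum.inl (Fin.castLE (Nat.le_add_left 3 m) i)) 1

theorem eP_Q (i : Fin 3) : quadFormPlus (m + 3) F (eP F m i) = 0 :=
  Cfsg.Agent.Helper4.Spinor.plus_Q_inl F (m + 3) _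

theorem eP_B (i j : Fin 3) :
    Bf (quadFormPlus (m + 3) F) (Cfsg.Agent.Helper4.Spinor.plus_nd F (m + 3)) (eP F m i)
      (eP F m j) = 0 := by
  show QuadraticMap.polar (quadFormPlus (m + 3) F) (eP F m i) (eP F m j) = 0
  unfold eP
  rw [Cfsg.Agent.Helper4.Spinor.plus_polar_inl]
  simp [Pi.single_apply]

theorem eP_ind : LinearIndependent F (eP F m) := by
  rw [Fintype.linearIndependent_iff]
  intro g hg i
  have h := congrFun hg (Sum.inl (Fin.castLE (Nat.le_add_left 3 m) i))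
  rw [Finset.sum_apply, Finset.sum_eq_single i] at h
  · simpa [eP] using h
  · intro j _ hji
    have hne : Fin.castLE (Nat.le_add_left 3 m) i ≠ Fin.castLE (Nat.le_add_left 3 m) j := by
      intro hc
      have hv := congrArg Fin.val hc
      have hv' : (i : ℕ) = (j : ℕ) := hv
      exact hji (Fin.ext hv').symm
    simp [eP, Pi.single_apply, hne, hji, Ne.symm hji]
  · intro hi
    exact absurd (Finset.mem_univ i) hi

theorem main :
    IsKRootSubgroupSet F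
      ((fun A : Subgroup ↥(Cfsg.isometryGroup F (Cfsg.quadFormPlus (m + 3) F)) =>
        A.subgroupOf (⨆ B ∈ SgO (Cfsg.quadFormPlus (m + 3) F), B)) ''
          SgO (Cfsg.quadFormPlus (m + 3) F)) ∧
    IsConnectedFamily (FAdj (SgO (Cfsg.quadFormPlus (m + 3) F)))
      (SgO (Cfsg.quadFormPlus (m + 3) F)) := by
  have hQ := Cfsg.Agent.Helper4.Spinor.plus_nd F (m + 3)
  refine ⟨kroot_of _ hQ _ ?_ (gen_sub _), connected _ hQ (eP F m) (eP_Q F m) (eP_B F m)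
    (eP_ind F m)⟩
  intro p r hl
  exact le_iSup₂_of_le (TS _ p r) (TS_mem _ p r hl) le_rfl

end plus

end Cfsg.Agent.Helper4.SiegelRoot
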