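import Mathlib
import Cfsg.Prelude.Def_GeometricClasses

set_option autoImplicit false
open Cfsg

namespace Cfsg.Agent.Helper4.SpQd

open Matrix

variable {F : Type*} [Field F] {d : ℕ}

theorem exists_sigma (hev : Even d) :
    ∃ σ : Fin d → Fin d, (∀ i, σ (σ i) = i) ∧ ∀ i, σ i ≠ i := by
  obtain ⟨k, rfl⟩ := hev
  refine ⟨fun i => finSumFinEquiv (Sum.swap (finSumFinEquiv.symm i)), ?_, ?_⟩
  · intro i
    simp
  · intro i h
    have h2 : Sum.swap (finSumFinEquiv.symm i) = finSumFinEquiv.symm i := by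
      have := congrArg finSumFinEquiv.symm h
      simpa using this
    cases hx : finSumFinEquiv.symm i with
    | inl a => rw [hx] at h2; simp at h2
    | inr a => rw [hx] at h2; simp at h2

theorem sf_apply (u v : Fin d ⊕ Fin d → F) :
    Cfsg.sympForm d F u v =
      ∑ i, (u (Sum.inr i) * v (Sum.inl i) - u (Sum.inl i) * v (Sum.inr i)) := by
  have hJ : Matrix.J (Fin d) F *ᵥ v =
      Sum.elim (fun i => - v (Sum.inr i)) (fun i => v (Sum.inl i)) := by
    funext j
    rcases j with j | j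
    · simp [Matrix.J, Matrix.mulVec, dotProduct, Fintype.sum_sum_type, Matrix.one_apply]
    · simp [Matrix.J, Matrix.mulVec, dotProduct, Fintype.sum_sum_type, Matrix.one_apply]
  unfold Cfsg.sympForm
  rw [hJ, dotProduct, Fintype.sum_sum_type]
  simp only [Sum.elim_inl, Sum.elim_inr]
  rw [← Finset.sum_add_distrib]
  refine Finset.sum_congr rfl fun i _ => ?_
  ring

/-- The unipotent matrix attached to a map of the index set. -/
def xM (σ : Fin d → Fin d) : Matrix (Fin d ⊕ Fin d) (Fin d ⊕ Fin d) F :=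
  fromBlocks 1 (Matrix.of fun i j => if σ i = j then (1 : F) else 0) 0 1

theorem xM_mulVec (σ : Fin d → Fin d) (v : Fin d ⊕ Fin d → F) :
    xM (F := F) σ *ᵥ v =
      Sum.elim (fun i => v (Sum.inl i) + v (Sum.inr (σ i))) (fun i => v (Sum.inr i)) := by
  funext j
  rcases j with j | j
  · simp [xM, Matrix.mulVec, dotProduct, Fintype.sum_sum_type, Matrix.one_apply]
  · simp [xM, Matrix.mulVec, dotProduct, Fintype.sum_sum_type, Matrix.one_apply]

theorem xM_sq (hch : (2 : F) = 0) (σ : Fin d → Fin d) : xM (F := F) σ * xM σ = 1 := by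
  unfold xM
  rw [fromBlocks_multiply]
  simp only [Matrix.mul_one, Matrix.one_mul, Matrix.mul_zero, Matrix.zero_mul, add_zero, zero_add]
  rw [← two_smul F (Matrix.of fun i j => if σ i = j then (1 : F) else 0), hch, zero_smul,
    fromBlocks_one]

/-- The unipotent matrix as an element of the general linear group. -/
def xG (hch : (2 : F) = 0) (σ : Fin d → Fin d) : GL (Fin d ⊕ Fin d) F :=
  ⟨xM σ, xM σ, xM_sq hch σ, xM_sq hch σ⟩

theorem sum_invol (hch : (2 : F) = 0) (σ : Fin d → Fin d) (hσ : ∀ i, σ (σ i) = i)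
    (hσ' : ∀ i, σ i ≠ i) (f : Fin d → F) : ∑ i, f (σ i) * f i = 0 := by
  apply Finset.sum_involution (fun i _ => σ i)
  · intro i _
    simp only [hσ]
    rw [mul_comm (f i), ← two_mul, hch, zero_mul]
  · intro i _ _
    exact hσ' i
  · intro i _
    exact Finset.mem_univ _
  · intro i _
    exact hσ i

theorem xG_mem (hch : (2 : F) = 0) (σ : Fin d → Fin d) (hσ : ∀ i, σ (σ i) = i) :
    xG (F := F) hch σ ∈ Cfsg.spGL d F := by
  show ∀ u v : Fin d ⊕ Fin d → F,
    Cfsg.sympForm d F (xM σ *ᵥ u) (xM σ *ᵥ v) = Cfsg.sympForm d F u v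
  intro u v
  rw [sf_apply, sf_apply, xM_mulVec, xM_mulVec]
  simp only [Sum.elim_inl, Sum.elim_inr]
  have e : (∑ i, u (Sum.inr (σ i)) * v (Sum.inr i)) = ∑ i, u (Sum.inr i) * v (Sum.inr (σ i)) := by
    have hinv : Function.Involutive σ := hσ
    have := Equiv.sum_comp hinv.toPerm (fun i => u (Sum.inr (σ i)) * v (Sum.inr i))
    rw [← this]
    refine Finset.sum_congr rfl fun i _ => ?_
    simp [Function.Involutive.coe_toPerm, hσ]
  have e2 : ∀ i : Fin d, u (Sum.inr i) * (v (Sum.inl i) + v (Sum.inr (σ i))) -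
      (u (Sum.inl i) + u (Sum.inr (σ i))) * v (Sum.inr i) =
      (u (Sum.inr i) * v (Sum.inl i) - u (Sum.inl i) * v (Sum.inr i)) +
      (u (Sum.inr i) * v (Sum.inr (σ i)) - u (Sum.inr (σ i)) * v (Sum.inr i)) := by
    intro i; ring
  have e3 : (∑ i, (u (Sum.inr i) * v (Sum.inr (σ i)) - u (Sum.inr (σ i)) * v (Sum.inr i))) = 0 := by
    rw [Finset.sum_sub_distrib, e, sub_self]
  simp only [e2]
  rw [Finset.sum_add_distrib, e3, add_zero]

/-- The coordinate subspace of vectors vanishing on the second block. -/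
def W0 : Submodule F (Fin d ⊕ Fin d → F) :=
  LinearMap.ker (LinearMap.funLeft F F (Sum.inr : Fin d → Fin d ⊕ Fin d))

theorem finrank_W0 : Module.finrank F (W0 (F := F) (d := d)) = d := by
  unfold W0
  have h1 := LinearMap.finrank_range_add_finrank_ker
    (LinearMap.funLeft F F (Sum.inr : Fin d → Fin d ⊕ Fin d))
  have h2 : LinearMap.range (LinearMap.funLeft F F (Sum.inr : Fin d → Fin d ⊕ Fin d)) = ⊤ :=
    LinearMap.range_eq_top.mpr
      (LinearMap.funLeft_surjective_of_injective F F _ Sum.inr_injective)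
  rw [h2, finrank_top, Module.finrank_fintype_fun_eq_card, Module.finrank_fintype_fun_eq_card,
    Fintype.card_sum, Fintype.card_fin] at h1
  omega

theorem exists_invol_not_conj (hch : (2 : F) = 0) (hev : Even d) (hd : 2 ≤ d)
    (Q : (Fin d ⊕ Fin d → F) → F)
    (hsm : ∀ (c : F) (v : Fin d ⊕ Fin d → F), Q (c • v) = c ^ 2 * Q v)
    (hpol : ∀ u v : Fin d ⊕ Fin d → F, Q (u + v) = Q u + Q v + Cfsg.sympForm d F u v)
    (hnot : ¬ Cfsg.Geo.IsPlusTypeOn Q ⊤) :
    ∃ x ∈ Cfsg.spGL d F, x ^ 2 = 1 ∧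
      (∀ z : F, (x : Matrix (Fin d ⊕ Fin d) (Fin d ⊕ Fin d) F) ≠ z • 1) ∧
      ∀ g ∈ Cfsg.spGL d F, g⁻¹ * x * g ∉ Cfsg.Geo.quadSimilarityGroup Q := by
  obtain ⟨σ, hσ, hσ'⟩ := exists_sigma hev
  have i₀ : Fin d := ⟨0, by omega⟩
  refine ⟨xG hch σ, xG_mem hch σ hσ, ?_, ?_, ?_⟩
  · apply Units.ext
    rw [pow_two, Units.val_mul, Units.val_one]
    exact xM_sq hch σ
  · intro z hz
    have h1 : xM (F := F) σ (Sum.inl i₀) (Sum.inr (σ i₀)) = 1 := by
      simp [xM]
    have h2 : (z • (1 : Matrix (Fin d ⊕ Fin d) (Fin d ⊕ Fin d) F)) (Sum.inl i₀) (Sum.inr (σ i₀)) = 0 := by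
      simp
    have h3 : ((xG (F := F) hch σ : GL (Fin d ⊕ Fin d) F) :
        Matrix (Fin d ⊕ Fin d) (Fin d ⊕ Fin d) F) = xM σ := rfl
    rw [h3] at hz
    rw [hz, h2] at h1
    exact zero_ne_one h1
  · intro g hg hmem
    obtain ⟨c, hc⟩ := hmem
    have hgi : g⁻¹ ∈ Cfsg.spGL d F := (Cfsg.spGL d F).inv_mem hg
    have hy : g⁻¹ * xG hch σ * g ∈ Cfsg.spGL d F :=
      (Cfsg.spGL d F).mul_mem ((Cfsg.spGL d F).mul_mem hgi (xG_mem hch σ hσ)) hg
    have hySp : ∀ u v : Fin d ⊕ Fin d → F,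
        Cfsg.sympForm d F (((g⁻¹ * xG hch σ * g : GL (Fin d ⊕ Fin d) F) :
          Matrix (Fin d ⊕ Fin d) (Fin d ⊕ Fin d) F) *ᵥ u)
          (((g⁻¹ * xG hch σ * g : GL (Fin d ⊕ Fin d) F) :
          Matrix (Fin d ⊕ Fin d) (Fin d ⊕ Fin d) F) *ᵥ v) = Cfsg.sympForm d F u v := hy
    have hgiSp : ∀ u v : Fin d ⊕ Fin d → F,
        Cfsg.sympForm d F (((g⁻¹ : GL (Fin d ⊕ Fin d) F) :
          Matrix (Fin d ⊕ Fin d) (Fin d ⊕ Fin d) F) *ᵥ u)
          (((g⁻¹ : GL (Fin d ⊕ Fin d) F) :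
          Matrix (Fin d ⊕ Fin d) (Fin d ⊕ Fin d) F) *ᵥ v) = Cfsg.sympForm d F u v := hgi
    -- the multiplier is one
    have hc1 : (c : F) = 1 := by
      set u₀ : Fin d ⊕ Fin d → F := Pi.single (Sum.inr i₀) 1 with hu₀
      set v₀ : Fin d ⊕ Fin d → F := Pi.single (Sum.inl i₀) 1 with hv₀
      have hs : Cfsg.sympForm d F u₀ v₀ = 1 := by
        rw [sf_apply]
        simp [hu₀, hv₀, Pi.single_apply]
      have h1 := hc (u₀ + v₀)
      rw [Matrix.mulVec_add, hpol, hpol, hc, hc, hySp, hs] at h1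
      have h2 : (c : F) * 1 = 1 := by linear_combination -h1
      simpa using h2
    -- the totally singular subspace
    have hW₀d : Module.finrank F (W0 (F := F) (d := d)) = d := finrank_W0
    set gi : Matrix (Fin d ⊕ Fin d) (Fin d ⊕ Fin d) F := ((g⁻¹ : GL (Fin d ⊕ Fin d) F) :
          Matrix (Fin d ⊕ Fin d) (Fin d ⊕ Fin d) F) with hgi_def
    have hinj : Function.Injective (Matrix.toLin' gi) := by
      intro a b hab
      rw [Matrix.toLin'_apply, Matrix.toLin'_apply] at hab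
      have h1 := congrArg (fun t => (g : Matrix (Fin d ⊕ Fin d) (Fin d ⊕ Fin d) F) *ᵥ t) hab
      simp only [Matrix.mulVec_mulVec, hgi_def] at h1
      rw [← Units.val_mul, mul_inv_cancel, Units.val_one, Matrix.one_mulVec,
        Matrix.one_mulVec] at h1
      exact h1
    apply hnot
    refine ⟨Submodule.map (Matrix.toLin' gi) W0, le_top, ?_, ?_⟩
    · intro b hb
      obtain ⟨v, hv, rfl⟩ := Submodule.mem_map.mp hb
      rw [Matrix.toLin'_apply]
      have hv0 : ∀ i, v (Sum.inr i) = 0 := by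
        intro i
        have : (LinearMap.funLeft F F (Sum.inr : Fin d → Fin d ⊕ Fin d)) v = 0 := hv
        exact congrFun this i
      set p : Fin d ⊕ Fin d → F := Sum.elim 0 (fun i => v (Sum.inl (σ i))) with hp
      have hxp : xM (F := F) σ *ᵥ p = p + v := by
        rw [xM_mulVec]
        funext j
        rcases j with j | j
        · simp [hp, hσ]
        · simp [hp, hv0]
      have hs : Cfsg.sympForm d F p v = 0 := by
        rw [sf_apply]
        simp only [hp, Sum.elim_inr, Sum.elim_inl, Pi.zero_apply, zero_mul, sub_zero]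
        exact sum_invol hch σ hσ hσ' (fun i => v (Sum.inl i))
      have h1 := hc (gi *ᵥ p)
      have h2 : ((g⁻¹ * xG hch σ * g : GL (Fin d ⊕ Fin d) F) :
          Matrix (Fin d ⊕ Fin d) (Fin d ⊕ Fin d) F) *ᵥ (gi *ᵥ p) = gi *ᵥ p + gi *ᵥ v := by
        rw [Matrix.mulVec_mulVec, hgi_def, ← Units.val_mul, mul_assoc, mul_assoc,
          mul_inv_cancel, mul_one, Units.val_mul, ← Matrix.mulVec_mulVec]
        have h3 : ((xG (F := F) hch σ : GL (Fin d ⊕ Fin d) F) :
          Matrix (Fin d ⊕ Fin d) (Fin d ⊕ Fin d) F) = xM σ := rfl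
        rw [h3, hxp, Matrix.mulVec_add]
      rw [h2, hpol, hc1, one_mul, hgiSp, hs, add_zero] at h1
      exact add_left_cancel_iff.mp (h1.trans (add_zero _).symm) |>.symm ▸ rfl
    · rw [(Submodule.equivMapOfInjective (Matrix.toLin' gi) hinj W0).finrank_eq.symm, hW₀d,
        finrank_top, Module.finrank_fintype_fun_eq_card, Fintype.card_sum, Fintype.card_fin]
      omega

end Cfsg.Agent.Helper4.SpQd
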