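import Mathlib
import Cfsg.Prelude.Def_GeometricClasses
import Cfsg.Agent.Helper4.OrthPlane
import Cfsg.Agent.Helper4.OrthFrame
import Cfsg.Agent.Helper4.TensorO3
import Cfsg.Agent.Helper2.SpParab

set_option autoImplicit false
open Cfsg

namespace Cfsg.Agent.Helper4.TensorSp

open Matrix Cfsg.Agent.Helper4.OrthPlane Cfsg.Agent.Helper4.OrthFrame Cfsg.Agent.Helper4.TensorO3
open scoped Kronecker

variable {F : Type*} [Field F]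

/-- `Sp_{n₁}(3) ⊗ O₃(3)` is not maximal in `Sp_{2m}(3)`: it stabilises the decomposition into
three `n₁`-spaces given by the orthogonal frame of the `3`-dimensional factor. -/
theorem sp_tensor_core [Fintype F] (m : ℕ) (hq : Fintype.card F = 3) (n₁ : ℕ) (hn₁ : 0 < n₁)
    (e : (Fin m ⊕ Fin m) ≃ Fin n₁ × Fin 3) (P : Matrix.GeneralLinearGroup (Fin m ⊕ Fin m) F)
    (f₁ : (Fin n₁ → F) → (Fin n₁ → F) → F) (f₂ : (Fin 3 → F) → (Fin 3 → F) → F)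
    (hf₁ : Cfsg.Geo.IsSymplecticForm f₁) (hf₂ : Cfsg.Geo.IsSymmetricForm f₂)
    (hT : Cfsg.Geo.IsTensorFormStructure id (Cfsg.sympForm m F) f₁ f₂ e P) :
    ∃ K : Subgroup (Matrix.GeneralLinearGroup (Fin m ⊕ Fin m) F),
      Cfsg.Geo.tensorProductSubgroup n₁ 3 e P ⊓ Cfsg.spGL m F < K ∧ K < Cfsg.spGL m F := by
  classical
  have h2 : (2 : F) ≠ 0 := two_ne_zero3 hq
  obtain ⟨c, hc, hform⟩ := tensor_form e P (Cfsg.sympForm m F) f₁ f₂ hf₁.bilinear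
    hf₂.bilinear hT
  have hB : ∀ (u : Fin n₁ → F) (w : Fin 3 → F) (u' : Fin n₁ → F) (w' : Fin 3 → F),
      Cfsg.Agent.S0766.sB m F (TP e P u w) (TP e P u' w') = c * (f₁ u u' * f₂ w w') := by
    intro u w u' w'
    rw [Cfsg.Agent.S0766.sB_apply]
    exact hform u w u' w'
  have hQ₂ := qf_of_symm f₂ hf₂ h2
  obtain ⟨c₂, a₀, a₁, a₂, hc₂, -, -, -, q₀, q₁, q₂, b01, b02, b12, hsp⟩ :=
    exists_frame3 (fun v => f₂ v v) hQ₂ hq ⊤ (by rw [finrank_top, Module.finrank_fin_fun])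
      (nd_top _ hQ₂)
  have q₀' : f₂ a₀ a₀ = c₂ := q₀
  have q₁' : f₂ a₁ a₁ = c₂ := q₁
  have q₂' : f₂ a₂ a₂ = c₂ := q₂
  have o01 : f₂ a₀ a₁ = 0 := orth_of_Bf f₂ hf₂ h2 hQ₂ a₀ a₁ b01
  have o02 : f₂ a₀ a₂ = 0 := orth_of_Bf f₂ hf₂ h2 hQ₂ a₀ a₂ b02
  have o10 : f₂ a₁ a₀ = 0 := by
    rw [hf₂.symm a₁ a₀]
    exact o01
  have o20 : f₂ a₂ a₀ = 0 := by
    rw [hf₂.symm a₂ a₀]
    exact o02
  -- vectors `u₁, u₂` with `f₁ u₂ u₁ ≠ 0`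
  obtain ⟨u₁, hu₁⟩ : ∃ u₁ : Fin n₁ → F, u₁ ≠ 0 := by
    refine ⟨Pi.single ⟨0, hn₁⟩ 1, fun h => ?_⟩
    have h' := congrFun h ⟨0, hn₁⟩
    simp at h'
  obtain ⟨⟨u₂, hu₂⟩, -⟩ := hf₁.nondegenerate u₁ hu₁
  have hu₁₂ : f₁ u₁ u₂ ≠ 0 := by
    rw [hf₁.skew u₁ u₂]
    exact neg_ne_zero.mpr hu₂
  obtain ⟨κ, hκ⟩ : ∃ κ : F, κ = c * (f₁ u₂ u₁ * c₂) := ⟨_, rfl⟩
  have hκ0 : κ ≠ 0 := by
    rw [hκ]
    exact mul_ne_zero hc (mul_ne_zero hu₂ hc₂)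
  -- the set `S`
  obtain ⟨S, hS⟩ : ∃ S : Set (Fin m ⊕ Fin m → F), S = {v | ∃ (u : Fin n₁ → F) (w : Fin 3 → F),
      (w = a₀ ∨ w = a₁ ∨ w = a₂) ∧ v = TP e P u w} := ⟨_, rfl⟩
  have hSmem : ∀ v : Fin m ⊕ Fin m → F, v ∈ S ↔ ∃ (u : Fin n₁ → F) (w : Fin 3 → F),
      (w = a₀ ∨ w = a₁ ∨ w = a₂) ∧ v = TP e P u w := by
    intro v
    rw [hS]
    exact Iff.rfl
  have hS6 : ∀ (u : Fin n₁ → F) (w : Fin 3 → F),
      (w = a₀ ∨ w = -a₀ ∨ w = a₁ ∨ w = -a₁ ∨ w = a₂ ∨ w = -a₂) → TP e P u w ∈ S := by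
    intro u w hw
    rcases hw with h | h | h | h | h | h
    · exact (hSmem _).mpr ⟨u, a₀, Or.inl rfl, by rw [h]⟩
    · exact (hSmem _).mpr ⟨-u, a₀, Or.inl rfl, by rw [h, TP_neg_left]⟩
    · exact (hSmem _).mpr ⟨u, a₁, Or.inr (Or.inl rfl), by rw [h]⟩
    · exact (hSmem _).mpr ⟨-u, a₁, Or.inr (Or.inl rfl), by rw [h, TP_neg_left]⟩
    · exact (hSmem _).mpr ⟨u, a₂, Or.inr (Or.inr rfl), by rw [h]⟩
    · exact (hSmem _).mpr ⟨-u, a₂, Or.inr (Or.inr rfl), by rw [h, TP_neg_left]⟩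
  have hfr : ∀ w : Fin 3 → F, (w = a₀ ∨ w = a₁ ∨ w = a₂) → f₂ w w = c₂ := by
    intro w hw
    rcases hw with h | h | h
    · rw [h]
      exact q₀'
    · rw [h]
      exact q₁'
    · rw [h]
      exact q₂'
  have hle : Cfsg.Geo.tensorProductSubgroup n₁ 3 e P ⊓ Cfsg.spGL m F
      ≤ Cfsg.stabilizing (Cfsg.glToMat (Fin m ⊕ Fin m) F) S ⊓ Cfsg.spGL m F := by
    rintro g ⟨hgT, hgS⟩
    refine ⟨?_, hgS⟩
    obtain ⟨a, b, -, hdet, hab⟩ := mem_tensor' e P g hgT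
    have hBg : ∀ v v' : Fin m ⊕ Fin m → F,
        Cfsg.Agent.S0766.sB m F ((g : Matrix (Fin m ⊕ Fin m) (Fin m ⊕ Fin m) F) *ᵥ v)
          ((g : Matrix (Fin m ⊕ Fin m) (Fin m ⊕ Fin m) F) *ᵥ v')
        = Cfsg.Agent.S0766.sB m F v v' := by
      intro v v'
      rw [Cfsg.Agent.S0766.sB_apply, Cfsg.Agent.S0766.sB_apply]
      exact hgS v v'
    have key : ∀ (u u' : Fin n₁ → F) (w w' : Fin 3 → F),
        f₁ (a *ᵥ u) (a *ᵥ u') * f₂ (b *ᵥ w) (b *ᵥ w') = f₁ u u' * f₂ w w' := by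
      intro u u' w w'
      apply mul_left_cancel₀ hc
      rw [← hB, ← hB, ← hab, ← hab, hBg]
    obtain ⟨ν, hν⟩ : ∃ ν : F, ν = f₁ (a *ᵥ u₂) (a *ᵥ u₁) := ⟨_, rfl⟩
    have hν0 : ν ≠ 0 := by
      intro h0
      have h5 := key u₂ u₁ a₀ a₀
      rw [← hν, h0, zero_mul, q₀'] at h5
      exact mul_ne_zero hu₂ hc₂ h5.symm
    have hinv : ν * ν⁻¹ = 1 := mul_inv_cancel₀ hν0
    have hsim : ∀ w w' : Fin 3 → F,
        f₂ (b *ᵥ w) (b *ᵥ w') = (f₁ u₂ u₁ * ν⁻¹) * f₂ w w' := by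
      intro w w'
      have h5 := key u₂ u₁ w w'
      rw [← hν] at h5
      linear_combination ν⁻¹ * h5 - f₂ (b *ᵥ w) (b *ᵥ w') * hinv
    have hμ : f₁ u₂ u₁ * ν⁻¹ = 1 :=
      simil_one hq f₂ hf₂ b hdet (f₁ u₂ u₁ * ν⁻¹) (mul_ne_zero hu₂ (inv_ne_zero hν0)) hsim
    have hcls : ∀ w : Fin 3 → F, f₂ w w = c₂ →
        (b *ᵥ w = a₀ ∨ b *ᵥ w = -a₀ ∨ b *ᵥ w = a₁ ∨ b *ᵥ w = -a₁ ∨ b *ᵥ w = a₂ ∨
          b *ᵥ w = -a₂) := by
      intro w hw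
      obtain ⟨α₀, α₁, α₂, hα⟩ := hsp (b *ᵥ w) Submodule.mem_top
      have hv : (fun v : Fin 3 → F => f₂ v v) (α₀ • a₀ + α₁ • a₁ + α₂ • a₂) = c₂ := by
        show f₂ (α₀ • a₀ + α₁ • a₁ + α₂ • a₂) (α₀ • a₀ + α₁ • a₁ + α₂ • a₂) = c₂
        rw [← hα, hsim, hμ, one_mul, hw]
      have h6 := cls3 (fun v : Fin 3 → F => f₂ v v) hQ₂ hq c₂ hc₂ a₀ a₁ a₂ q₀ q₁ q₂ b01 b02
        b12 α₀ α₁ α₂ hv
      rw [← hα] at h6
      exact h6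
    apply stab_of_maps
    intro v hv
    obtain ⟨u, w, hw, rfl⟩ := (hSmem v).mp hv
    rw [hab]
    exact hS6 _ _ (hcls w (hfr w hw))
  -- the element `g₁`
  obtain ⟨g₁, hg₁⟩ : ∃ g₁ : Matrix.GeneralLinearGroup (Fin m ⊕ Fin m) F,
      g₁ = Cfsg.Agent.Helper2.SpParab.tv m (TP e P u₁ a₀) 1 := ⟨_, rfl⟩
  have hg₁act : ∀ v : Fin m ⊕ Fin m → F,
      (g₁ : Matrix (Fin m ⊕ Fin m) (Fin m ⊕ Fin m) F) *ᵥ v
        = v + (Cfsg.Agent.S0766.sB m F v (TP e P u₁ a₀)) • TP e P u₁ a₀ := by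
    intro v
    rw [hg₁, Cfsg.Agent.Helper2.SpParab.tv_mulVec, one_mul]
  have hg₁Sp : g₁ ∈ Cfsg.spGL m F := by
    rw [hg₁]
    exact Cfsg.Agent.Helper2.SpParab.tv_mem _ _
  have hg₁S : g₁ ∈ Cfsg.stabilizing (Cfsg.glToMat (Fin m ⊕ Fin m) F) S := by
    apply stab_of_maps
    intro v hv
    obtain ⟨u, w, hw, rfl⟩ := (hSmem v).mp hv
    rw [hg₁act]
    rcases hw with h | h | h
    · rw [h, ← TP_smul_left, ← TP_add_left]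
      exact hS6 _ _ (Or.inl rfl)
    · rw [h, hB, o10, mul_zero, mul_zero, zero_smul, add_zero]
      exact hS6 _ _ (Or.inr (Or.inr (Or.inl rfl)))
    · rw [h, hB, o20, mul_zero, mul_zero, zero_smul, add_zero]
      exact hS6 _ _ (Or.inr (Or.inr (Or.inr (Or.inr (Or.inl rfl)))))
  have hg₁T : g₁ ∉ Cfsg.Geo.tensorProductSubgroup n₁ 3 e P := by
    intro hmem
    obtain ⟨a, b, -, -, hab⟩ := mem_tensor' e P g₁ hmem
    have h1 : ∀ u : Fin n₁ → F, TP e P (a *ᵥ u) (b *ᵥ a₁) = TP e P u a₁ := by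
      intro u
      rw [← hab, hg₁act, hB, o10, mul_zero, mul_zero, zero_smul, add_zero]
    have h2' : TP e P (a *ᵥ u₂) (b *ᵥ a₀) = TP e P (u₂ + κ • u₁) a₀ := by
      rw [← hab, hg₁act, hB, q₀', ← hκ, TP_add_left, TP_smul_left]
    have ha₁0 : ∃ j₁, a₁ j₁ ≠ 0 := by
      by_contra hcon
      push_neg at hcon
      have h0 : a₁ = 0 := funext hcon
      rw [h0, f_zero_left f₂ hf₂.bilinear] at q₁'
      exact hc₂ q₁'.symm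
    obtain ⟨j₁, hj₁⟩ := ha₁0
    have hu₁i : ∃ i₁, u₁ i₁ ≠ 0 := by
      by_contra hcon
      push_neg at hcon
      exact hu₁ (funext hcon)
    obtain ⟨i₁, hi₁⟩ := hu₁i
    have hβ0 : (b *ᵥ a₁) j₁ ≠ 0 := by
      intro h0
      have h6 := TP_coord e P (h1 u₁) i₁ j₁
      rw [h0, mul_zero] at h6
      exact mul_ne_zero hi₁ hj₁ h6.symm
    have h8 : ∀ j, a₀ j = 0 := by
      intro j
      have h9 : (a₁ j₁ * (b *ᵥ a₀) j) • u₂ = ((b *ᵥ a₁) j₁ * a₀ j) • (u₂ + κ • u₁) := by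
        funext i
        have h6 := TP_coord e P (h1 u₂) i j₁
        have h7 := TP_coord e P h2' i j
        simp only [Pi.smul_apply, Pi.add_apply, smul_eq_mul] at h7 ⊢
        linear_combination (b *ᵥ a₁) j₁ * h7 - (b *ᵥ a₀) j * h6
      have h10 := congrArg (fun x => f₁ x u₂) h9
      simp only [hf₁.bilinear.smul_left, hf₁.bilinear.add_left, hf₁.alternating, mul_zero,
        zero_add] at h10
      rcases mul_eq_zero.mp h10.symm with h11 | h11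
      · rcases mul_eq_zero.mp h11 with h12 | h12
        · exact absurd h12 hβ0
        · exact h12
      · exact absurd h11 (mul_ne_zero hκ0 hu₁₂)
    have h0 : a₀ = 0 := funext h8
    rw [h0, f_zero_left f₂ hf₂.bilinear] at q₀'
    exact hc₂ q₀'.symm
  -- the element `g₂`
  obtain ⟨g₂, hg₂⟩ : ∃ g₂ : Matrix.GeneralLinearGroup (Fin m ⊕ Fin m) F,
      g₂ = Cfsg.Agent.Helper2.SpParab.tv m (TP e P u₁ (a₀ + a₁)) 1 := ⟨_, rfl⟩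
  have hg₂Sp : g₂ ∈ Cfsg.spGL m F := by
    rw [hg₂]
    exact Cfsg.Agent.Helper2.SpParab.tv_mem _ _
  have hg₂S : g₂ ∉ Cfsg.stabilizing (Cfsg.glToMat (Fin m ⊕ Fin m) F) S := by
    intro hmem
    have h1 : (g₂ : Matrix (Fin m ⊕ Fin m) (Fin m ⊕ Fin m) F) *ᵥ TP e P u₂ a₀ ∈ S :=
      (hmem _).mp (hS6 _ _ (Or.inl rfl))
    rw [hg₂, Cfsg.Agent.Helper2.SpParab.tv_mulVec, one_mul, hB, hf₂.bilinear.add_right, q₀',
      o01, add_zero, ← hκ] at h1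
    obtain ⟨u, w, hw, huw⟩ := (hSmem _).mp h1
    have t1 : Cfsg.Agent.S0766.sB m F (TP e P u₂ a₀ + κ • TP e P u₁ (a₀ + a₁)) (TP e P u₂ a₁)
        = κ * (c * (f₁ u₁ u₂ * c₂)) := by
      rw [map_add, LinearMap.add_apply, map_smul, LinearMap.smul_apply, smul_eq_mul, hB, hB,
        hf₂.bilinear.add_left, o01, q₁']
      ring
    have t2 : Cfsg.Agent.S0766.sB m F (TP e P u₂ a₀ + κ • TP e P u₁ (a₀ + a₁)) (TP e P u₁ a₀)
        = c * (f₁ u₂ u₁ * c₂) := by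
      rw [map_add, LinearMap.add_apply, map_smul, LinearMap.smul_apply, smul_eq_mul, hB, hB,
        hf₁.alternating, q₀']
      ring
    have hne1 : κ * (c * (f₁ u₁ u₂ * c₂)) ≠ 0 :=
      mul_ne_zero hκ0 (mul_ne_zero hc (mul_ne_zero hu₁₂ hc₂))
    have hne2 : c * (f₁ u₂ u₁ * c₂) ≠ 0 := mul_ne_zero hc (mul_ne_zero hu₂ hc₂)
    rcases hw with h | h | h
    · rw [huw, h, hB, o01, mul_zero, mul_zero] at t1
      exact hne1 t1.symm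
    · rw [huw, h, hB, o10, mul_zero, mul_zero] at t2
      exact hne2 t2.symm
    · rw [huw, h, hB, o20, mul_zero, mul_zero] at t2
      exact hne2 t2.symm
  refine ⟨Cfsg.stabilizing (Cfsg.glToMat (Fin m ⊕ Fin m) F) S ⊓ Cfsg.spGL m F, ?_, ?_⟩
  · refine lt_of_le_of_ne hle (fun heq => hg₁T ?_)
    have h5 : g₁ ∈ Cfsg.Geo.tensorProductSubgroup n₁ 3 e P ⊓ Cfsg.spGL m F := by
      rw [heq]
      exact ⟨hg₁S, hg₁Sp⟩
    exact h5.1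
  · refine lt_of_le_of_ne inf_le_right (fun heq => hg₂S ?_)
    have h5 : g₂ ∈ Cfsg.stabilizing (Cfsg.glToMat (Fin m ⊕ Fin m) F) S ⊓ Cfsg.spGL m F := by
      rw [heq]
      exact hg₂Sp
    exact h5.1

end Cfsg.Agent.Helper4.TensorSp
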