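import Mathlib
import Cfsg.Prelude.Def_GeometricClasses
import Cfsg.Agent.Helper4.OrthPlane
import Cfsg.Agent.Helper4.TensorO3
import Cfsg.Agent.S5656

set_option autoImplicit false
open Cfsg

namespace Cfsg.Agent.Helper4.TensorU

open Matrix Cfsg.Agent.Helper4.OrthPlane Cfsg.Agent.Helper4.TensorO3
open scoped Kronecker

variable {F : Type*} [Field F] [Fintype F]

theorem sum_sq4 (hF : Fintype.card F = 4) {κ : Type} (s : Finset κ) (a : κ → F) :
    (∑ i ∈ s, a i) ^ 2 = ∑ i ∈ s, (a i) ^ 2 := by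
  classical
  induction s using Finset.induction_on with
  | empty => simp
  | insert i s hi ih =>
    rw [Finset.sum_insert hi, Finset.sum_insert hi, Cfsg.Agent.S5656.add_sq' hF, ih]

theorem exists_ne01 (hF : Fintype.card F = 4) : ∃ c : F, c ≠ 0 ∧ c ≠ 1 := by
  classical
  by_contra h
  push_neg at h
  have h1 : (Finset.univ : Finset F) ⊆ {0, 1} := by
    intro x _
    by_cases hx : x = 0
    · rw [hx]
      exact Finset.mem_insert_self _ _
    · rw [h x hx]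
      exact Finset.mem_insert_of_mem (Finset.mem_singleton_self _)
  have h2 := Finset.card_le_card h1
  have h3 : ({0, 1} : Finset F).card ≤ 2 := Finset.card_le_two
  rw [Finset.card_univ, hF] at h2
  omega

theorem kron_form_sq {n₁ n₂ : ℕ} (G₁ : Matrix (Fin n₁) (Fin n₁) F)
    (G₂ : Matrix (Fin n₂) (Fin n₂) F) (u u' : Fin n₁ → F) (w w' : Fin n₂ → F) :
    Cfsg.Geo.formOfGram (fun x : F => x ^ 2) (G₁ ⊗ₖ G₂) (pt u w) (pt u' w')
      = Cfsg.Geo.formOfGram (fun x : F => x ^ 2) G₁ u u'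
        * Cfsg.Geo.formOfGram (fun x : F => x ^ 2) G₂ w w' := by
  unfold Cfsg.Geo.formOfGram
  simp only [Fintype.sum_prod_type, pt, Matrix.kroneckerMap_apply]
  rw [Finset.sum_mul_sum]
  apply Finset.sum_congr rfl
  intro i _
  apply Finset.sum_congr rfl
  intro j _
  rw [Finset.sum_mul_sum]
  apply Finset.sum_congr rfl
  intro i' _
  apply Finset.sum_congr rfl
  intro j' _
  ring

section uform

variable {κ : Type} [Fintype κ] [DecidableEq κ] (f : (κ → F) → (κ → F) → F)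

theorem u_add_right (hF : Fintype.card F = 4) (hf : Cfsg.Geo.IsUnitaryFormPow 2 f)
    (x y y' : κ → F) : f x (y + y') = f x y + f x y' := by
  rw [hf.herm x (y + y'), hf.add_left, Cfsg.Agent.S5656.add_sq' hF, ← hf.herm x y,
    ← hf.herm x y']

theorem u_smul_right (hf : Cfsg.Geo.IsUnitaryFormPow 2 f) (c : F) (x y : κ → F) :
    f x (c • y) = c ^ 2 * f x y := by
  rw [hf.herm x (c • y), hf.smul_left, mul_pow, ← hf.herm x y]

theorem u_zero_left (hf : Cfsg.Geo.IsUnitaryFormPow 2 f) (v : κ → F) : f 0 v = 0 := by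
  have h := hf.smul_left 0 0 v
  rwa [zero_smul, zero_mul] at h

theorem u_self (hf : Cfsg.Geo.IsUnitaryFormPow 2 f) (v : κ → F) (hv : f v v ≠ 0) :
    f v v = 1 := by
  have h := hf.herm v v
  have h2 : f v v * (f v v - 1) = 0 := by linear_combination (-1 : F) * h
  rcases mul_eq_zero.mp h2 with h3 | h3
  · exact absurd h3 hv
  · exact sub_eq_zero.mp h3

/-- `x ↦ f x v` as a linear map. -/
def lin1 (hf : Cfsg.Geo.IsUnitaryFormPow 2 f) (v : κ → F) : (κ → F) →ₗ[F] F where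
  toFun x := f x v
  map_add' x y := hf.add_left x y v
  map_smul' c x := by
    rw [RingHom.id_apply, smul_eq_mul]
    exact hf.smul_left c x v

theorem u_gram (hF : Fintype.card F = 4) (hf : Cfsg.Geo.IsUnitaryFormPow 2 f) (u u' : κ → F) :
    Cfsg.Geo.formOfGram (fun x : F => x ^ 2) (Cfsg.Geo.gramMatrix f) u u' = f u u' := by
  have hs : ∀ i : κ, (fun j => if i = j then (1 : F) else 0) = Pi.single i 1 := by
    intro i
    funext j
    rw [Pi.single_apply]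
    simp only [eq_comm]
  have h1 : ∀ (x v : κ → F), f x v = ∑ i, x i * f (Pi.single i 1) v := by
    intro x v
    have h := LinearMap.pi_apply_eq_sum_univ (lin1 f hf v) x
    simp only [smul_eq_mul, hs] at h
    exact h
  have h2 : ∀ i, f (Pi.single i 1) u'
      = ∑ j, f (Pi.single i 1) (Pi.single j 1) * (u' j) ^ 2 := by
    intro i
    rw [hf.herm (Pi.single i 1) u', h1 u' (Pi.single i 1), sum_sq4 hF]
    apply Finset.sum_congr rfl
    intro j _
    rw [mul_pow, ← hf.herm (Pi.single i 1) (Pi.single j 1)]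
    ring
  unfold Cfsg.Geo.formOfGram Cfsg.Geo.gramMatrix
  rw [h1 u u']
  apply Finset.sum_congr rfl
  intro i _
  rw [h2 i, Finset.mul_sum]
  apply Finset.sum_congr rfl
  intro j _
  beta_reduce
  ring

theorem exists_noniso (hF : Fintype.card F = 4) (hf : Cfsg.Geo.IsUnitaryFormPow 2 f)
    (v : κ → F) (hv : v ≠ 0) : ∃ a : κ → F, f a a ≠ 0 := by
  by_contra hcon
  push_neg at hcon
  obtain ⟨⟨x, hx⟩, -⟩ := hf.nondegenerate v hv
  obtain ⟨ω, hω0, hω1⟩ := exists_ne01 hF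
  have key : ∀ c : F, c * f x v + (c * f x v) ^ 2 = 0 := by
    intro c
    have h := hcon (c • x + v)
    rw [hf.add_left, u_add_right f hF hf, u_add_right f hF hf, hcon, hcon, hf.smul_left,
      hf.herm v (c • x), hf.smul_left] at h
    linear_combination h
  have h1 := key 1
  have h2 := key ω
  have h3 : ω * f x v * (1 - ω) = 0 := by linear_combination h2 - ω ^ 2 * h1
  rcases mul_eq_zero.mp h3 with h4 | h4
  · rcases mul_eq_zero.mp h4 with h5 | h5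
    · exact hω0 h5
    · exact hx h5
  · exact hω1 (sub_eq_zero.mp h4).symm

theorem exists_isotropic (hF : Fintype.card F = 4) (hf : Cfsg.Geo.IsUnitaryFormPow 2 f)
    (hcard : 2 ≤ Fintype.card κ) : ∃ w₀ : κ → F, w₀ ≠ 0 ∧ f w₀ w₀ = 0 := by
  have h2 := Cfsg.Agent.S5656.two_eq_zero hF
  obtain ⟨v, hv⟩ : ∃ v : κ → F, v ≠ 0 := by
    obtain ⟨k⟩ : Nonempty κ := Fintype.card_pos_iff.mp (by omega)
    refine ⟨Pi.single k 1, fun h => ?_⟩
    have h' := congrFun h k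
    simp at h'
  obtain ⟨wn, hwn⟩ := exists_noniso f hF hf v hv
  have hwn1 : f wn wn = 1 := u_self f hf wn hwn
  obtain ⟨w₂, hw₂0, hw₂⟩ := exists_ker 1 (fun _ => lin1 f hf wn) (by omega)
  have hw₂n : f w₂ wn = 0 := hw₂ 0
  have hnw₂ : f wn w₂ = 0 := by rw [hf.herm wn w₂, hw₂n, zero_pow two_ne_zero]
  by_cases h0 : f w₂ w₂ = 0
  · exact ⟨w₂, hw₂0, h0⟩
  · have h1 : f w₂ w₂ = 1 := u_self f hf w₂ h0
    refine ⟨wn + w₂, ?_, ?_⟩
    · intro hz
      have h5 : f (wn + w₂) wn = 0 := by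
        rw [hz]
        exact u_zero_left f hf wn
      rw [hf.add_left, hwn1, hw₂n, add_zero] at h5
      exact one_ne_zero h5
    · rw [hf.add_left, u_add_right f hF hf, u_add_right f hF hf, hwn1, hnw₂, hw₂n, h1]
      linear_combination h2

end uform

theorem u_tensor_form (hF : Fintype.card F = 4) {ι : Type} [Fintype ι] [DecidableEq ι]
    {n₁ n₂ : ℕ} (e : ι ≃ Fin n₁ × Fin n₂) (P : Matrix.GeneralLinearGroup ι F)
    (f : (ι → F) → (ι → F) → F)
    (f₁ : (Fin n₁ → F) → (Fin n₁ → F) → F) (f₂ : (Fin n₂ → F) → (Fin n₂ → F) → F)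
    (hf₁ : Cfsg.Geo.IsUnitaryFormPow 2 f₁) (hf₂ : Cfsg.Geo.IsUnitaryFormPow 2 f₂)
    (hT : Cfsg.Geo.IsTensorFormStructure (fun x : F => x ^ 2) f f₁ f₂ e P) :
    ∃ c : F, c ≠ 0 ∧ ∀ (u : Fin n₁ → F) (w : Fin n₂ → F) (u' : Fin n₁ → F) (w' : Fin n₂ → F),
      f (TP e P u w) (TP e P u' w') = c * (f₁ u u' * f₂ w w') := by
  obtain ⟨c, hc, h⟩ := hT
  refine ⟨c, hc, fun u w u' w' => ?_⟩
  rw [← u_gram f₁ hF hf₁, ← u_gram f₂ hF hf₂, ← kron_form_sq]
  exact h (pt u w) (pt u' w')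

theorem exists_uframe (hF : Fintype.card F = 4) (f : (Fin 2 → F) → (Fin 2 → F) → F)
    (hf : Cfsg.Geo.IsUnitaryFormPow 2 f) :
    ∃ a b : Fin 2 → F, f a a = 1 ∧ f b b = 1 ∧ f a b = 0 ∧ f b a = 0 ∧
      ∀ x : Fin 2 → F, ∃ α β : F, x = α • a + β • b := by
  obtain ⟨v, hv⟩ : ∃ v : Fin 2 → F, v ≠ 0 := by
    refine ⟨Pi.single 0 1, fun h => ?_⟩
    have h' := congrFun h 0
    simp at h'
  obtain ⟨a, ha⟩ := exists_noniso f hF hf v hv
  have ha1 : f a a = 1 := u_self f hf a ha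
  obtain ⟨b, hb0, hb⟩ := exists_ker 1 (fun _ => lin1 f hf a) (by simp)
  have hba : f b a = 0 := hb 0
  have hab : f a b = 0 := by rw [hf.herm a b, hba, zero_pow two_ne_zero]
  have hli : LinearIndependent F ![a, b] := by
    rw [LinearIndependent.pair_iff]
    intro s t hst
    have h5 : f (s • a + t • b) a = 0 := by
      rw [hst]
      exact u_zero_left f hf a
    rw [hf.add_left, hf.smul_left, hf.smul_left, ha1, hba, mul_one, mul_zero, add_zero] at h5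
    refine ⟨h5, ?_⟩
    rw [h5, zero_smul, zero_add] at hst
    rcases smul_eq_zero.mp hst with h6 | h6
    · exact h6
    · exact absurd h6 hb0
  have hspan : ∀ x : Fin 2 → F, ∃ α β : F, x = α • a + β • b := by
    intro x
    have htop : Submodule.span F (Set.range ![a, b]) = ⊤ :=
      hli.span_eq_top_of_card_eq_finrank' (by simp)
    have hx : x ∈ Submodule.span F (Set.range ![a, b]) := by
      rw [htop]
      exact Submodule.mem_top
    obtain ⟨α, hα⟩ := (Submodule.mem_span_range_iff_exists_fun F).mp hx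
    refine ⟨α 0, α 1, ?_⟩
    rw [← hα, Fin.sum_univ_two]
    rfl
  have hbb : f b b ≠ 0 := by
    intro h0
    obtain ⟨⟨x, hx⟩, -⟩ := hf.nondegenerate b hb0
    obtain ⟨α, β, rfl⟩ := hspan x
    apply hx
    rw [hf.add_left, hf.smul_left, hf.smul_left, hab, h0, mul_zero, mul_zero, add_zero]
  exact ⟨a, b, ha1, u_self f hf b hbb, hab, hba, hspan⟩

theorem ucls (hF : Fintype.card F = 4) (f : (Fin 2 → F) → (Fin 2 → F) → F)
    (hf : Cfsg.Geo.IsUnitaryFormPow 2 f) (a b : Fin 2 → F) (ha : f a a = 1) (hb : f b b = 1)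
    (hab : f a b = 0) (hba : f b a = 0) (α β : F)
    (h : f (α • a + β • b) (α • a + β • b) ≠ 0) : α = 0 ∨ β = 0 := by
  by_contra hcon
  push_neg at hcon
  apply h
  have h2 := Cfsg.Agent.S5656.two_eq_zero hF
  simp only [hf.add_left, u_add_right f hF hf, hf.smul_left, u_smul_right f hf, ha, hb, hab,
    hba]
  have h3 := Cfsg.Agent.S5656.cube hF α hcon.1
  have h4 := Cfsg.Agent.S5656.cube hF β hcon.2
  linear_combination h3 + h4 + h2

/-- `GU₂(2) ⊗ GU_{n₂}(2)` is not maximal in `SU_n(2)`. -/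
theorem u_tensor_core (n : ℕ) (hF : Fintype.card F = 4) (n₂ : ℕ) (hn₂ : 2 ≤ n₂)
    (e : Fin n ≃ Fin 2 × Fin n₂) (P : Matrix.GeneralLinearGroup (Fin n) F)
    (f₁ : (Fin 2 → F) → (Fin 2 → F) → F) (f₂ : (Fin n₂ → F) → (Fin n₂ → F) → F)
    (hf₁ : Cfsg.Geo.IsUnitaryFormPow 2 f₁) (hf₂ : Cfsg.Geo.IsUnitaryFormPow 2 f₂)
    (hT : Cfsg.Geo.IsTensorFormStructure (fun x : F => x ^ 2) (Cfsg.hermForm n F 2) f₁ f₂ e P) :
    ∃ K : Subgroup (Matrix.GeneralLinearGroup (Fin n) F),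
      Cfsg.Geo.tensorProductSubgroup 2 n₂ e P ⊓
        (Cfsg.GU n F 2 ⊓ Cfsg.Geo.specialLinear (Fin n) F) < K ∧
      K < (Cfsg.GU n F 2 ⊓ Cfsg.Geo.specialLinear (Fin n) F) := by
  classical
  obtain ⟨c, hc, hB⟩ := u_tensor_form hF e P (Cfsg.hermForm n F 2) f₁ f₂ hf₁ hf₂ hT
  obtain ⟨a, b, ha, hb, hab, hba, hspan⟩ := exists_uframe hF f₁ hf₁
  obtain ⟨w₀, hw₀0, hw₀⟩ := exists_isotropic f₂ hF hf₂ (by simpa using hn₂)
  obtain ⟨⟨w₃, hw₃⟩, -⟩ := hf₂.nondegenerate w₀ hw₀0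
  have hw₀₃ : f₂ w₀ w₃ ≠ 0 := by
    rw [hf₂.herm w₀ w₃]
    exact pow_ne_zero 2 hw₃
  obtain ⟨wn, hwn⟩ := exists_noniso f₂ hF hf₂ w₀ hw₀0
  obtain ⟨κ, hκ⟩ : ∃ κ : F, κ = c * f₂ w₃ w₀ := ⟨_, rfl⟩
  have hκ0 : κ ≠ 0 := by
    rw [hκ]
    exact mul_ne_zero hc hw₃
  -- the set `S`
  obtain ⟨S, hS⟩ : ∃ S : Set (Fin n → F), S = {v | ∃ (u : Fin 2 → F) (w : Fin n₂ → F),
      (u = a ∨ u = b) ∧ v = TP e P u w} := ⟨_, rfl⟩
  have hSmem : ∀ v : Fin n → F, v ∈ S ↔ ∃ (u : Fin 2 → F) (w : Fin n₂ → F),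
      (u = a ∨ u = b) ∧ v = TP e P u w := by
    intro v
    rw [hS]
    exact Iff.rfl
  have hSsmul : ∀ (l : F) (u : Fin 2 → F) (w : Fin n₂ → F), (u = a ∨ u = b) →
      TP e P (l • u) w ∈ S := by
    intro l u w hu
    refine (hSmem _).mpr ⟨u, l • w, hu, ?_⟩
    rw [TP_smul_left, TP_smul_right]
  have hle : Cfsg.Geo.tensorProductSubgroup 2 n₂ e P ⊓
        (Cfsg.GU n F 2 ⊓ Cfsg.Geo.specialLinear (Fin n) F)
      ≤ Cfsg.stabilizing (Cfsg.glToMat (Fin n) F) S ⊓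
        (Cfsg.GU n F 2 ⊓ Cfsg.Geo.specialLinear (Fin n) F) := by
    rintro g ⟨hgT, hgS⟩
    refine ⟨?_, hgS⟩
    obtain ⟨A, B, -, -, hAB⟩ := mem_tensor' e P g hgT
    have hBg : ∀ v v' : Fin n → F,
        Cfsg.hermForm n F 2 ((g : Matrix (Fin n) (Fin n) F) *ᵥ v)
          ((g : Matrix (Fin n) (Fin n) F) *ᵥ v') = Cfsg.hermForm n F 2 v v' := hgS.1
    have key : ∀ (u u' : Fin 2 → F) (w w' : Fin n₂ → F),
        f₁ (A *ᵥ u) (A *ᵥ u') * f₂ (B *ᵥ w) (B *ᵥ w') = f₁ u u' * f₂ w w' := by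
      intro u u' w w'
      apply mul_left_cancel₀ hc
      rw [← hB, ← hB, ← hAB, ← hAB, hBg]
    have hAni : ∀ u : Fin 2 → F, (u = a ∨ u = b) → f₁ (A *ᵥ u) (A *ᵥ u) ≠ 0 := by
      intro u hu h0
      have h5 := key u u wn wn
      rw [h0, zero_mul] at h5
      have h6 : f₁ u u = 1 := by
        rcases hu with h | h
        · rw [h]
          exact ha
        · rw [h]
          exact hb
      rw [h6, one_mul] at h5
      exact hwn h5.symm
    apply stab_of_maps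
    intro v hv
    obtain ⟨u, w, hu, rfl⟩ := (hSmem v).mp hv
    rw [hAB]
    obtain ⟨α, β, hαβ⟩ := hspan (A *ᵥ u)
    have h7 := hAni u hu
    rw [hαβ] at h7
    rcases ucls hF f₁ hf₁ a b ha hb hab hba α β h7 with h8 | h8
    · rw [hαβ, h8, zero_smul, zero_add]
      exact hSsmul β b _ (Or.inr rfl)
    · rw [hαβ, h8, zero_smul, add_zero]
      exact hSsmul α a _ (Or.inl rfl)
  -- the element `g₁`
  have hx0 : Cfsg.hermForm n F 2 (TP e P a w₀) (TP e P a w₀) = 0 := by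
    rw [hB, hw₀, mul_zero, mul_zero]
  obtain ⟨g₁, hg₁⟩ : ∃ g₁ : Matrix.GeneralLinearGroup (Fin n) F,
      g₁ = Cfsg.Agent.S5656.tvG n (TP e P a w₀) hF hx0 := ⟨_, rfl⟩
  have hg₁act : ∀ v : Fin n → F, (g₁ : Matrix (Fin n) (Fin n) F) *ᵥ v
      = v + Cfsg.hermForm n F 2 v (TP e P a w₀) • TP e P a w₀ := by
    intro v
    rw [hg₁]
    exact Cfsg.Agent.S5656.tvM_mulVec _ v
  have hg₁SU : g₁ ∈ Cfsg.GU n F 2 ⊓ Cfsg.Geo.specialLinear (Fin n) F := by
    rw [hg₁]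
    exact Cfsg.Agent.S5656.tvG_mem _ hF hx0
  have hg₁S : g₁ ∈ Cfsg.stabilizing (Cfsg.glToMat (Fin n) F) S := by
    apply stab_of_maps
    intro v hv
    obtain ⟨u, w, hu, rfl⟩ := (hSmem v).mp hv
    rw [hg₁act]
    rcases hu with h | h
    · rw [h, ← TP_smul_right, ← TP_add_right]
      exact (hSmem _).mpr ⟨a, _, Or.inl rfl, rfl⟩
    · rw [h, hB, hba, zero_mul, mul_zero, zero_smul, add_zero]
      exact (hSmem _).mpr ⟨b, _, Or.inr rfl, rfl⟩
  have hg₁T : g₁ ∉ Cfsg.Geo.tensorProductSubgroup 2 n₂ e P := by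
    intro hmem
    obtain ⟨A, B, -, -, hAB⟩ := mem_tensor' e P g₁ hmem
    have h1 : ∀ w : Fin n₂ → F, TP e P (A *ᵥ b) (B *ᵥ w) = TP e P b w := by
      intro w
      rw [← hAB, hg₁act, hB, hba, zero_mul, mul_zero, zero_smul, add_zero]
    have h2' : TP e P (A *ᵥ a) (B *ᵥ w₃) = TP e P a (w₃ + κ • w₀) := by
      rw [← hAB, hg₁act, hB, ha, one_mul, ← hκ, TP_add_right, TP_smul_right]
    have hb0 : ∃ i₁, b i₁ ≠ 0 := by
      by_contra hcon
      push_neg at hcon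
      have h0 : b = 0 := funext hcon
      rw [h0, u_zero_left f₁ hf₁] at hb
      exact zero_ne_one hb
    obtain ⟨i₁, hi₁⟩ := hb0
    have hw₀j : ∃ j₀, w₀ j₀ ≠ 0 := by
      by_contra hcon
      push_neg at hcon
      exact hw₀0 (funext hcon)
    obtain ⟨j₀, hj₀⟩ := hw₀j
    have hβ0 : (A *ᵥ b) i₁ ≠ 0 := by
      intro h0
      have h6 := TP_coord e P (h1 w₀) i₁ j₀
      rw [h0, zero_mul] at h6
      exact mul_ne_zero hi₁ hj₀ h6.symm
    have h8 : ∀ i, a i = 0 := by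
      intro i
      have h9 : ((A *ᵥ a) i * b i₁) • w₃ = ((A *ᵥ b) i₁ * a i) • (w₃ + κ • w₀) := by
        funext j
        have h6 := TP_coord e P (h1 w₃) i₁ j
        have h7 := TP_coord e P h2' i j
        simp only [Pi.smul_apply, Pi.add_apply, smul_eq_mul] at h7 ⊢
        linear_combination (A *ᵥ b) i₁ * h7 - (A *ᵥ a) i * h6
      have h10 := congrArg (fun x => f₂ x w₀) h9
      simp only [hf₂.smul_left, hf₂.add_left, hw₀, mul_zero, add_zero] at h10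
      have h11 : (A *ᵥ a) i * b i₁ = (A *ᵥ b) i₁ * a i := mul_right_cancel₀ hw₃ h10
      have h12 := congrFun h9 j₀
      simp only [Pi.smul_apply, Pi.add_apply, smul_eq_mul] at h12
      rw [h11] at h12
      have h13 : (A *ᵥ b) i₁ * a i * (κ * w₀ j₀) = 0 := by linear_combination (-1 : F) * h12
      rcases mul_eq_zero.mp h13 with h14 | h14
      · rcases mul_eq_zero.mp h14 with h15 | h15
        · exact absurd h15 hβ0
        · exact h15
      · exact absurd h14 (mul_ne_zero hκ0 hj₀)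
    have h0 : a = 0 := funext h8
    rw [h0, u_zero_left f₁ hf₁] at ha
    exact zero_ne_one ha
  -- the element `g₂`
  have hy0 : Cfsg.hermForm n F 2 (TP e P (a + b) w₀) (TP e P (a + b) w₀) = 0 := by
    rw [hB, hw₀, mul_zero, mul_zero]
  obtain ⟨g₂, hg₂⟩ : ∃ g₂ : Matrix.GeneralLinearGroup (Fin n) F,
      g₂ = Cfsg.Agent.S5656.tvG n (TP e P (a + b) w₀) hF hy0 := ⟨_, rfl⟩
  have hg₂SU : g₂ ∈ Cfsg.GU n F 2 ⊓ Cfsg.Geo.specialLinear (Fin n) F := by
    rw [hg₂]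
    exact Cfsg.Agent.S5656.tvG_mem _ hF hy0
  have hg₂S : g₂ ∉ Cfsg.stabilizing (Cfsg.glToMat (Fin n) F) S := by
    intro hmem
    have h1 : (g₂ : Matrix (Fin n) (Fin n) F) *ᵥ TP e P a w₃ ∈ S :=
      (hmem _).mp ((hSmem _).mpr ⟨a, w₃, Or.inl rfl, rfl⟩)
    have hact : (g₂ : Matrix (Fin n) (Fin n) F) *ᵥ TP e P a w₃
        = TP e P a w₃ + κ • TP e P (a + b) w₀ := by
      rw [hg₂]
      have h5 := Cfsg.Agent.S5656.tvM_mulVec (TP e P (a + b) w₀) (TP e P a w₃)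
      rw [hB, u_add_right f₁ hF hf₁, ha, hab, add_zero, one_mul, ← hκ] at h5
      exact h5
    rw [hact] at h1
    obtain ⟨u, w, hu, huw⟩ := (hSmem _).mp h1
    have t1 : Cfsg.hermForm n F 2 (TP e P a w₃ + κ • TP e P (a + b) w₀) (TP e P b w₃)
        = κ * (c * f₂ w₀ w₃) := by
      rw [Cfsg.Agent.S5656.f_add_left, Cfsg.Agent.S5656.f_smul_left, hB, hB, hf₁.add_left,
        hab, hb]
      ring
    have t2 : Cfsg.hermForm n F 2 (TP e P a w₃ + κ • TP e P (a + b) w₀) (TP e P a w₀)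
        = κ := by
      rw [Cfsg.Agent.S5656.f_add_left, Cfsg.Agent.S5656.f_smul_left, hB, hB, ha, hw₀, hκ]
      ring
    rcases hu with h | h
    · rw [huw, h, hB, hab, zero_mul, mul_zero] at t1
      exact mul_ne_zero hκ0 (mul_ne_zero hc hw₀₃) t1.symm
    · rw [huw, h, hB, hba, zero_mul, mul_zero] at t2
      exact hκ0 t2.symm
  refine ⟨Cfsg.stabilizing (Cfsg.glToMat (Fin n) F) S ⊓
    (Cfsg.GU n F 2 ⊓ Cfsg.Geo.specialLinear (Fin n) F), ?_, ?_⟩
  · refine lt_of_le_of_ne hle (fun heq => hg₁T ?_)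
    have h5 : g₁ ∈ Cfsg.Geo.tensorProductSubgroup 2 n₂ e P ⊓
        (Cfsg.GU n F 2 ⊓ Cfsg.Geo.specialLinear (Fin n) F) := by
      rw [heq]
      exact ⟨hg₁S, hg₁SU⟩
    exact h5.1
  · refine lt_of_le_of_ne inf_le_right (fun heq => hg₂S ?_)
    have h5 : g₂ ∈ Cfsg.stabilizing (Cfsg.glToMat (Fin n) F) S ⊓
        (Cfsg.GU n F 2 ⊓ Cfsg.Geo.specialLinear (Fin n) F) := by
      rw [heq]
      exact hg₂SU
    exact h5.1

end Cfsg.Agent.Helper4.TensorU
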