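import Mathlib
import Cfsg.Prelude.Def_LieClassical
import Cfsg.Prelude.Def_GeometricClasses
import Cfsg.Agent.Helper8.GUConj3
import Cfsg.Agent.Helper12.S5998p6

set_option autoImplicit false
open Cfsg

namespace Cfsg.Agent.Helper4.U3D

open Matrix

variable {F : Type*} [Field F] [Fintype F] {p : ℕ} [Fact p.Prime] [CharP F p]

omit [Fintype F] [Fact p.Prime] [CharP F p] in
/-- Diagonal matrices with entries of norm one are unitary. -/
theorem diag_mem_gu (D : GL (Fin 3) F) (d : Fin 3 → F)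
    (hD : (D : Matrix (Fin 3) (Fin 3) F) = Matrix.diagonal d) (hd : ∀ i, d i ^ (p + 1) = 1) :
    D ∈ Cfsg.GU 3 F p := by
  show ∀ u v : Fin 3 → F, Cfsg.hermForm 3 F p ((D : Matrix (Fin 3) (Fin 3) F) *ᵥ u)
    ((D : Matrix (Fin 3) (Fin 3) F) *ᵥ v) = Cfsg.hermForm 3 F p u v
  intro u v
  rw [hD]
  unfold Cfsg.hermForm
  refine Finset.sum_congr rfl (fun i _ => ?_)
  rw [Matrix.mulVec_diagonal, Matrix.mulVec_diagonal, mul_pow]
  have := hd i
  linear_combination (u i * v i ^ p) * this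

omit [Fintype F] in
/-- The determinant of a unitary matrix has norm one. -/
theorem det_gu (k : GL (Fin 3) F) (hk : k ∈ Cfsg.GU 3 F p) :
    (k : Matrix (Fin 3) (Fin 3) F).det ^ (p + 1) = 1 := by
  have hk' : ∀ u v : Fin 3 → F, Cfsg.hermForm 3 F p ((k : Matrix (Fin 3) (Fin 3) F) *ᵥ u)
    ((k : Matrix (Fin 3) (Fin 3) F) *ᵥ v) = Cfsg.hermForm 3 F p u v := hk
  obtain ⟨M, hM⟩ : ∃ M : Matrix (Fin 3) (Fin 3) F, M = (k : Matrix (Fin 3) (Fin 3) F) :=
    ⟨_, rfl⟩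
  rw [← hM] at hk' ⊢
  have hp0 : p ≠ 0 := (Fact.out : p.Prime).ne_zero
  have h1 : Mᵀ * (frobenius F p).mapMatrix M = 1 := by
    ext a b
    have h := hk' (Pi.single a 1) (Pi.single b 1)
    unfold Cfsg.hermForm at h
    have e : ∀ i : Fin 3, ((Pi.single b (1 : F) : Fin 3 → F) i) ^ p =
        (Pi.single b (1 : F) : Fin 3 → F) i := by
      intro i
      by_cases hib : i = b
      · subst hib; simp
      · simp [Pi.single_eq_of_ne hib, hp0]
    simp only [e] at h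
    rw [Matrix.mul_apply]
    simp only [Matrix.transpose_apply, RingHom.mapMatrix_apply, Matrix.map_apply, frobenius_def]
    have e2 : ∀ (c : Fin 3) (i : Fin 3), (M *ᵥ Pi.single c (1 : F)) i = M i c := by
      intro c i
      simp [Matrix.mulVec, dotProduct, Pi.single_apply]
    simp only [e2] at h
    rw [h, Matrix.one_apply]
    simp [Pi.single_apply]
    by_cases hab : a = b
    · simp [hab]
    · simp [hab, Ne.symm hab]
  have h2 := congrArg Matrix.det h1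
  rw [Matrix.det_mul, Matrix.det_transpose, ← RingHom.map_det, frobenius_def, Matrix.det_one] at h2
  rw [pow_succ, mul_comm]
  exact h2

omit [Fintype F] [Fact p.Prime] [CharP F p] in
theorem smul_eq_diag (c a0 a1 a2 : F) :
    c • (!![a0,0,0; 0,a1,0; 0,0,a2] : Matrix (Fin 3) (Fin 3) F) =
      Matrix.diagonal ![c * a0, c * a1, c * a2] := by
  ext i j
  fin_cases i <;> fin_cases j <;> simp

omit [Fintype F] [Fact p.Prime] [CharP F p] in
theorem exists_diag_gl (d : Fin 3 → F) (hd : ∀ i, d i ≠ 0) :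
    ∃ E : GL (Fin 3) F, (E : Matrix (Fin 3) (Fin 3) F) = Matrix.diagonal d ∧
      ((Matrix.GeneralLinearGroup.det E : Fˣ) : F) = d 0 * d 1 * d 2 := by
  refine ⟨⟨Matrix.diagonal d, Matrix.diagonal (fun i => (d i)⁻¹), ?_, ?_⟩, rfl, ?_⟩
  · rw [Matrix.diagonal_mul_diagonal, ← Matrix.diagonal_one]
    congr 1
    funext i
    exact mul_inv_cancel₀ (hd i)
  · rw [Matrix.diagonal_mul_diagonal, ← Matrix.diagonal_one]
    congr 1
    funext i
    exact inv_mul_cancel₀ (hd i)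
  · rw [Matrix.GeneralLinearGroup.val_det_apply]
    show (Matrix.diagonal d).det = _
    rw [Matrix.det_diagonal, Fin.prod_univ_three]

omit [Fintype F] [Fact p.Prime] [CharP F p] in
theorem diag_of_conj (x k : GL (Fin 3) F) (d : Fin 3 → F) (z : F)
    (hz : ((x ^ 3 : GL (Fin 3) F) : Matrix (Fin 3) (Fin 3) F) =
      z • (1 : Matrix (Fin 3) (Fin 3) F))
    (h : (x : Matrix (Fin 3) (Fin 3) F) * (k : Matrix (Fin 3) (Fin 3) F) =
      (k : Matrix (Fin 3) (Fin 3) F) * Matrix.diagonal d) :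
    ∃ (k' D : GL (Fin 3) F) (d' : Fin 3 → F),
      (D : Matrix (Fin 3) (Fin 3) F) = Matrix.diagonal d' ∧ (∀ i, d' i ^ 3 = z) ∧
        x = k' * D * k'⁻¹ := by
  have hkk : ((k⁻¹ : GL (Fin 3) F) : Matrix (Fin 3) (Fin 3) F) *
      (k : Matrix (Fin 3) (Fin 3) F) = 1 := by
    rw [← Units.val_mul, inv_mul_cancel]
    rfl
  have hD : ((k⁻¹ * x * k : GL (Fin 3) F) : Matrix (Fin 3) (Fin 3) F) = Matrix.diagonal d := by
    rw [Units.val_mul, Units.val_mul, Matrix.mul_assoc, h, ← Matrix.mul_assoc, hkk,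
      Matrix.one_mul]
  refine ⟨k, k⁻¹ * x * k, d, hD, ?_, by group⟩
  have h3 : ((k⁻¹ * x * k : GL (Fin 3) F) ^ 3 : GL (Fin 3) F) = k⁻¹ * x ^ 3 * k := by
    have h0 := conj_pow (a := k⁻¹) (b := x) (i := 3)
    rwa [inv_inv] at h0
  have h4 : ((k⁻¹ * x * k : GL (Fin 3) F) : Matrix (Fin 3) (Fin 3) F) ^ 3 = z • 1 := by
    rw [← Units.val_pow_eq_pow_val, h3, Units.val_mul, Units.val_mul, hz, Matrix.mul_smul,
      Matrix.mul_one, Matrix.smul_mul, hkk]
  rw [hD, Matrix.diagonal_pow] at h4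
  intro i
  have h5 := congrFun (congrFun h4 i) i
  simpa using h5

omit [Fact p.Prime] [CharP F p] in
/-- GL normal form: an element of determinant one whose cube is scalar is diagonalisable. -/
theorem gl_form (hF : Fintype.card F = p ^ 2) (hp9 : p % 9 = 8) (x : GL (Fin 3) F)
    (hdet : (x : Matrix (Fin 3) (Fin 3) F).det = 1) (z : F)
    (hz : ((x ^ 3 : GL (Fin 3) F) : Matrix (Fin 3) (Fin 3) F) =
      z • (1 : Matrix (Fin 3) (Fin 3) F)) :
    ∃ (k D : GL (Fin 3) F) (d : Fin 3 → F),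
      (D : Matrix (Fin 3) (Fin 3) F) = Matrix.diagonal d ∧ (∀ i, d i ^ 3 = z) ∧
        x = k * D * k⁻¹ := by
  classical
  by_cases hsc : ∃ c : F, (x : Matrix (Fin 3) (Fin 3) F) = c • (1 : Matrix (Fin 3) (Fin 3) F)
  · obtain ⟨c, hc⟩ := hsc
    refine diag_of_conj x 1 (fun _ => c) z hz ?_
    rw [Units.val_one, Matrix.mul_one, Matrix.one_mul, hc, Matrix.smul_one_eq_diagonal]
  · have hns : ∀ c : F, (x : Matrix (Fin 3) (Fin 3) F) ≠ c • (1 : Matrix (Fin 3) (Fin 3) F) :=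
      fun c hc => hsc ⟨c, hc⟩
    obtain ⟨t, ht⟩ : ∃ t, p = 9 * t + 8 := ⟨p / 9, by omega⟩
    have h9 : 9 ∣ Fintype.card F - 1 := by
      rw [hF, ht]
      have : (9 * t + 8) ^ 2 = 9 * (9 * t ^ 2 + 16 * t + 7) + 1 := by ring
      rw [this, Nat.add_sub_cancel]
      exact dvd_mul_right _ _
    have h3 : 3 ∣ Nat.card Fˣ := by
      rw [Nat.card_eq_fintype_card, Fintype.card_units]
      exact dvd_trans (by norm_num) h9
    have : Fact (Nat.Prime 3) := ⟨Nat.prime_three⟩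
    obtain ⟨u, hu⟩ := exists_prime_orderOf_dvd_card' 3 h3
    have hu3 : u ^ 3 = 1 := by
      rw [← hu]
      exact pow_orderOf_eq_one u
    have hw3 : (u : F) ^ 3 = 1 := by
      rw [← Units.val_pow_eq_pow_val, hu3]
      rfl
    have hw1 : (u : F) ≠ 1 := by
      intro h
      have : u = 1 := Units.ext h
      rw [this, orderOf_one] at hu
      omega
    obtain ⟨k, c, hcase | hcase | hcase⟩ :=
      Cfsg.Agent.Helper12.S5998p6.p6 h9 (u : F) hw1 hw3 x hdet z hz hns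
    · rw [← Matrix.mul_smul, smul_eq_diag] at hcase
      exact diag_of_conj x k _ z hz hcase
    · rw [← Matrix.mul_smul, smul_eq_diag] at hcase
      exact diag_of_conj x k _ z hz hcase
    · rw [← Matrix.mul_smul, smul_eq_diag] at hcase
      exact diag_of_conj x k _ z hz hcase

theorem ord3_conj (hF : Fintype.card F = p ^ 2) (hp9 : p % 9 = 8) (x : GL (Fin 3) F) (hx : x ∈ Cfsg.GU 3 F p ⊓ Cfsg.Geo.specialLinear (Fin 3) F) (hx3 : ∃ z : F, ((x ^ 3 : GL (Fin 3) F) : Matrix (Fin 3) (Fin 3) F) = z • (1 : Matrix (Fin 3) (Fin 3) F)) (g : GL (Fin 3) F) (hg : g ∈ Cfsg.GU 3 F p) : ∃ (h D : GL (Fin 3) F) (d : Fin 3 → F), h ∈ Cfsg.GU 3 F p ⊓ Cfsg.Geo.specialLinear (Fin 3) F ∧ (D : Matrix (Fin 3) (Fin 3) F) = Matrix.diagonal d ∧ d 0 ^ 3 = d 1 ^ 3 ∧ d 1 ^ 3 = d 2 ^ 3 ∧ h⁻¹ * x * h = g * D * g⁻¹ := by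
  classical
  obtain ⟨hxU, hxS⟩ := hx
  obtain ⟨z, hz⟩ := hx3
  have hdet : (x : Matrix (Fin 3) (Fin 3) F).det = 1 := by
    have h1 : Matrix.GeneralLinearGroup.det x = 1 := hxS
    have h2 := congrArg (fun u : Fˣ => (u : F)) h1
    simpa using h2
  have hz3 : z ^ 3 = 1 := by
    have h1 := congrArg Matrix.det hz
    rw [Units.val_pow_eq_pow_val, Matrix.det_pow, hdet, one_pow, Matrix.det_smul,
      Matrix.det_one, mul_one, Fintype.card_fin] at h1
    exact h1.symm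
  obtain ⟨k, D, d, hD, hd3, hxk⟩ := gl_form hF hp9 x hdet z hz
  obtain ⟨t, ht⟩ : ∃ t, p + 1 = 9 * t := ⟨p / 9 + 1, by omega⟩
  have hdn : ∀ i, d i ^ (p + 1) = 1 := by
    intro i
    rw [ht, show 9 * t = 3 * 3 * t from by ring, pow_mul, pow_mul, hd3 i, hz3, one_pow]
  have hDU : D ∈ Cfsg.GU 3 F p := diag_mem_gu D d hD hdn
  have hB : g * D * g⁻¹ ∈ Cfsg.GU 3 F p :=
    Subgroup.mul_mem _ (Subgroup.mul_mem _ hg hDU) (Subgroup.inv_mem _ hg)
  obtain ⟨U, hU, hUx⟩ := Cfsg.Agent.Helper8.GUC.conj_gu hF x (g * D * g⁻¹) hxU hB (g * k⁻¹)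
    (by rw [hxk]; group)
  have hδ : (U : Matrix (Fin 3) (Fin 3) F).det ^ (p + 1) = 1 := det_gu U hU
  have hδ0 : (U : Matrix (Fin 3) (Fin 3) F).det ≠ 0 := by
    intro h0
    rw [h0, zero_pow (Nat.succ_ne_zero p)] at hδ
    exact zero_ne_one hδ
  obtain ⟨E, hE, hEdet⟩ := exists_diag_gl ![(U : Matrix (Fin 3) (Fin 3) F).det, 1, 1]
    (by
      intro i
      fin_cases i
      · exact hδ0
      · exact one_ne_zero
      · exact one_ne_zero)
  have hEU : E ∈ Cfsg.GU 3 F p := by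
    refine diag_mem_gu E _ hE ?_
    intro i
    fin_cases i
    · exact hδ
    · exact one_pow _
    · exact one_pow _
  have hdetE : Matrix.GeneralLinearGroup.det E = Matrix.GeneralLinearGroup.det U := by
    apply Units.ext
    rw [hEdet, Matrix.GeneralLinearGroup.val_det_apply]
    simp
  have hcomm : D * E = E * D := by
    apply Units.ext
    rw [Units.val_mul, Units.val_mul, hD, hE, Matrix.diagonal_mul_diagonal,
      Matrix.diagonal_mul_diagonal]
    congr 1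
    funext i
    exact mul_comm _ _
  refine ⟨U⁻¹ * (g * E * g⁻¹), D, d, ⟨?_, ?_⟩, hD, ?_, ?_, ?_⟩
  · exact Subgroup.mul_mem _ (Subgroup.inv_mem _ hU)
      (Subgroup.mul_mem _ (Subgroup.mul_mem _ hg hEU) (Subgroup.inv_mem _ hg))
  · show Matrix.GeneralLinearGroup.det (U⁻¹ * (g * E * g⁻¹)) = 1
    rw [map_mul, map_mul, map_mul, map_inv, map_inv, hdetE,
      mul_comm (Matrix.GeneralLinearGroup.det g), mul_inv_cancel_right, inv_mul_cancel]
  · rw [hd3 0, hd3 1]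
  · rw [hd3 1, hd3 2]
  · calc (U⁻¹ * (g * E * g⁻¹))⁻¹ * x * (U⁻¹ * (g * E * g⁻¹))
        = g * E⁻¹ * g⁻¹ * (U * x * U⁻¹) * g * E * g⁻¹ := by group
      _ = g * E⁻¹ * g⁻¹ * (g * D * g⁻¹) * g * E * g⁻¹ := by rw [hUx]
      _ = g * (E⁻¹ * (D * E)) * g⁻¹ := by group
      _ = g * D * g⁻¹ := by rw [hcomm, inv_mul_cancel_left]

end Cfsg.Agent.Helper4.U3D
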